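import Mathlib
import Cfsg.Agent.H2.PermB

/-! # Gleason's lemma, generously transitive groups, Blichfeldt (helper2 library) -/

set_option autoImplicit false

namespace CfsgH2

open Subgroup Equiv MulAction
open scoped Pointwise

universe u v

/-- counting fixed points of a `p`-subgroup on an invariant set -/
theorem fixed_count {G : Type u} {X : Type v} [Group G] [MulAction G X] [Finite X] {p : ℕ} [Fact p.Prime] {P : Subgroup G}
    (hP : IsPGroup p P) (O : Set X) (hO : ∀ g ∈ P, ∀ x ∈ O, g • x ∈ O) :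
    Nat.card O ≡ Nat.card {x : X // x ∈ O ∧ ∀ g ∈ P, g • x = x} [MOD p] := by
  letI act : MulAction P O :=
    { smul := fun g x => ⟨(g : G) • (x : X), hO g g.2 x x.2⟩
      one_smul := fun x => Subtype.ext (one_smul G (x : X))
      mul_smul := fun a b x => Subtype.ext (mul_smul (a : G) (b : G) (x : X)) }
  have h1 := hP.card_modEq_card_fixedPoints O
  have h2 : Nat.card (fixedPoints P O) = Nat.card {x : X // x ∈ O ∧ ∀ g ∈ P, g • x = x} := by
    apply Nat.card_congr
    refine ⟨fun x => ⟨x.1, x.1.2, fun g hg => congrArg Subtype.val (x.2 ⟨g, hg⟩)⟩,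
      fun x => ⟨⟨x.1, x.2.1⟩, fun g => Subtype.ext (x.2.2 g g.2)⟩, fun x => rfl, fun x => rfl⟩
  rw [h2] at h1
  exact h1

theorem gleason {p : ℕ} [hp : Fact p.Prime] (k : ℕ) : ∀ (G : Type u) [Group G] (X : Type v) [MulAction G X] [Finite X], 1 ≤ k →
    k < Nat.card X → (∀ s : Set X, s.ncard = k → ∃ P : Subgroup G, IsPGroup p P ∧ fixedPoints P X = s) →
    IsMultiplyPretransitive G X k := by
  induction k with
  | zero => intro G _ X _ _ h; omega
  | succ k ih =>
    intro G _ X _ _ _ hcard h
    by_cases hk : k = 0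
    · subst hk
      rw [is_one_pretransitive_iff]
      refine ⟨fun a b => ?_⟩
      by_contra hno
      obtain ⟨Pa, hPa, hfa⟩ := h {a} (Set.ncard_singleton a)
      obtain ⟨Pb, hPb, hfb⟩ := h {b} (Set.ncard_singleton b)
      have hinv : ∀ g : G, ∀ x ∈ orbit G a, g • x ∈ orbit G a := by
        rintro g _ ⟨l, rfl⟩
        exact ⟨g * l, mul_smul g l a⟩
      have hbO : b ∉ orbit G a := fun ⟨g, hg⟩ => hno ⟨g, hg⟩
      have h1 := fixed_count hPa (orbit G a) (fun g _ => hinv g)
      have h2 := fixed_count hPb (orbit G a) (fun g _ => hinv g)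
      have e1 : Nat.card {x : X // x ∈ orbit G a ∧ ∀ g ∈ Pa, g • x = x} = 1 := by
        rw [Nat.card_eq_one_iff_unique]
        refine ⟨⟨fun x y => ?_⟩, ⟨⟨a, mem_orbit_self a, ?_⟩⟩⟩
        · have hx : x.1 ∈ fixedPoints Pa X := fun g => x.2.2 g g.2
          have hy : y.1 ∈ fixedPoints Pa X := fun g => y.2.2 g g.2
          rw [hfa] at hx hy
          apply Subtype.ext
          rw [Set.mem_singleton_iff.1 hx, Set.mem_singleton_iff.1 hy]
        · intro g hg
          have : a ∈ fixedPoints Pa X := by rw [hfa]; rfl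
          exact this ⟨g, hg⟩
      have e2 : Nat.card {x : X // x ∈ orbit G a ∧ ∀ g ∈ Pb, g • x = x} = 0 := by
        rw [Nat.card_eq_zero]
        left
        refine ⟨fun x => ?_⟩
        have hx : x.1 ∈ fixedPoints Pb X := fun g => x.2.2 g g.2
        rw [hfb] at hx
        apply hbO
        rw [← Set.mem_singleton_iff.1 hx]
        exact x.2.1
      rw [e1] at h1
      rw [e2] at h2
      have h3 : 1 ≡ 0 [MOD p] := h1.symm.trans h2
      have h4 := (Nat.modEq_zero_iff_dvd).1 h3
      exact hp.out.one_lt.ne' (Nat.dvd_one.1 h4)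
    · -- stabilizers
      have hstab : ∀ a : X, IsMultiplyPretransitive (stabilizer G a) (SubMulAction.ofStabilizer G a) k := by
        intro a
        apply ih _ _ (by omega)
        · rw [SubMulAction.nat_card_ofStabilizer_eq]; omega
        · intro s hs
          have hs' : (insert a ((fun x : SubMulAction.ofStabilizer G a => (x : X)) '' s)).ncard = k + 1 := by
            rw [Set.ncard_insert_of_notMem, Set.ncard_image_of_injective _ Subtype.val_injective, hs]
            rintro ⟨x, _, hx⟩
            exact (SubMulAction.neq_of_mem_ofStabilizer G a) hx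
          obtain ⟨P, hP, hf⟩ := h _ hs'
          have hPa : ∀ g ∈ P, g • a = a := by
            intro g hg
            have : a ∈ fixedPoints P X := by rw [hf]; exact Set.mem_insert _ _
            exact this ⟨g, hg⟩
          refine ⟨P.subgroupOf (stabilizer G a), hP.comap_subtype, ?_⟩
          ext x
          constructor
          · intro hx
            have h1 : (x : X) ∈ fixedPoints P X := by
              rintro ⟨g, hg⟩
              exact congrArg Subtype.val (hx ⟨⟨g, hPa g hg⟩, hg⟩)
            rw [hf] at h1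
            rcases h1 with h1 | ⟨y, hy, hyx⟩
            · exact absurd h1 (SubMulAction.neq_of_mem_ofStabilizer G a)
            · have : y = x := Subtype.ext hyx
              rw [← this]; exact hy
          · intro hx g
            have h1 : (x : X) ∈ fixedPoints P X := by
              rw [hf]; exact Set.mem_insert_of_mem _ ⟨x, hx, rfl⟩
            apply Subtype.ext
            exact h1 ⟨((g : stabilizer G a) : G), g.2⟩
      haveI : IsPretransitive G X := by
        refine ⟨fun x y => ?_⟩
        by_cases hxy : x = y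
        · exact ⟨1, by rw [one_smul, hxy]⟩
        · obtain ⟨a, ha⟩ : ∃ a, a ∉ ({x, y} : Set X) := by
            by_contra hno
            push Not at hno
            have h1 : (Set.univ : Set X).ncard ≤ ({x, y} : Set X).ncard := Set.ncard_le_ncard (fun z _ => hno z)
            rw [Set.ncard_univ, Set.ncard_pair hxy] at h1
            omega
          rw [Set.mem_insert_iff, Set.mem_singleton_iff, not_or] at ha
          haveI := hstab a
          have h1 : IsMultiplyPretransitive (stabilizer G a) (SubMulAction.ofStabilizer G a) 1 :=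
            isMultiplyPretransitive_of_le (n := k) (by omega) (by rw [SubMulAction.nat_card_ofStabilizer_eq]; omega)
          rw [is_one_pretransitive_iff] at h1
          obtain ⟨g, hg⟩ := h1.exists_smul_eq (⟨x, (SubMulAction.mem_ofStabilizer_iff G a).2 (Ne.symm ha.1)⟩ : SubMulAction.ofStabilizer G a)
            ⟨y, (SubMulAction.mem_ofStabilizer_iff G a).2 (Ne.symm ha.2)⟩
          exact ⟨g, congrArg Subtype.val hg⟩
      obtain ⟨a⟩ : Nonempty X := by
        by_contra hne
        rw [not_nonempty_iff] at hne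
        rw [Nat.card_of_isEmpty] at hcard
        omega
      exact (SubMulAction.ofStabilizer.isMultiplyPretransitive (a := a)).2 (hstab a)

theorem fix_insert_index {α : Type u} (G : Subgroup (Perm α)) [Finite G] (s : Set α) (x : α) :
    Nat.card (fixingSubgroup G s) = Nat.card (orbit (fixingSubgroup G s) x) * Nat.card (fixingSubgroup G (insert x s)) := by
  have h1 : Nat.card (orbit (fixingSubgroup G s) x) * Nat.card (stabilizer (fixingSubgroup G s) x) = Nat.card (fixingSubgroup G s) := by
    have := Nat.card_congr (orbitProdStabilizerEquivGroup (fixingSubgroup G s) x)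
    rw [Nat.card_prod] at this
    exact this
  rw [← h1]
  congr 1
  apply Nat.card_congr
  refine ⟨fun g => ⟨g.1.1, ?_⟩, fun g => ⟨⟨g.1, ?_⟩, ?_⟩, fun g => rfl, fun g => rfl⟩
  · rw [mem_fixingSubgroup_iff]
    rintro y (rfl | hy)
    · exact g.2
    · exact (mem_fixingSubgroup_iff G).1 g.1.2 y hy
  · rw [mem_fixingSubgroup_iff]
    intro y hy
    exact (mem_fixingSubgroup_iff G).1 g.2 y (Set.mem_insert_of_mem _ hy)
  · exact (mem_fixingSubgroup_iff G).1 g.2 x (Set.mem_insert _ _)

theorem equal_orders {α : Type u} [Fintype α] [DecidableEq α] (G : Subgroup (Perm α)) {k : ℕ} (hk : 1 < k)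
    (hkn : k ≤ Fintype.card α) (l m : ℕ) (hl : 1 < l)
    (hkm1 : ∀ s : Finset α, s.card = k - 1 → Nat.card (fixingSubgroup G (s : Set α)) = l)
    (hkm : ∀ s : Finset α, s.card = k → Nat.card (fixingSubgroup G (s : Set α)) = m) :
    IsMultiplyPretransitive G α (k - 1) := by
  have horb : ∀ (s : Finset α) (x : α), s.card = k - 1 → x ∉ s → l = Nat.card (orbit (fixingSubgroup G (s : Set α)) x) * m := by
    intro s x hs hx
    have h1 := fix_insert_index G (s : Set α) x
    have h2 : (insert x (s : Set α)) = ((insert x s : Finset α) : Set α) := by rw [Finset.coe_insert]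
    rw [h2, hkm1 s hs, hkm (insert x s) (by rw [Finset.card_insert_of_notMem hx, hs]; omega)] at h1
    exact h1
  obtain ⟨s₀, hs₀⟩ := Finset.exists_subset_card_eq (s := (Finset.univ : Finset α)) (n := k - 1) (by rw [Finset.card_univ]; omega)
  obtain ⟨x₀, hx₀⟩ : ∃ x, x ∉ s₀ := by
    by_contra hno
    push Not at hno
    have h1 : s₀ = Finset.univ := Finset.eq_univ_iff_forall.2 hno
    have h2 := hs₀.2
    rw [h1, Finset.card_univ] at h2
    omega
  have hml : ∃ d, l = d * m ∧ d ≠ 1 := by
    refine ⟨_, horb s₀ x₀ hs₀.2 hx₀, ?_⟩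
    intro hd
    have hm : l = m := by
      have := horb s₀ x₀ hs₀.2 hx₀
      rwa [hd, one_mul] at this
    -- all points are fixed
    have h1 : ∀ g ∈ fixingSubgroup G (s₀ : Set α), g = 1 := by
      intro g hg
      apply Subtype.ext
      ext y
      by_cases hy : y ∈ s₀
      · exact (mem_fixingSubgroup_iff G).1 hg y hy
      · have h2 := horb s₀ y hs₀.2 hy
        rw [← hm] at h2
        have h3 : Nat.card (orbit (fixingSubgroup G (s₀ : Set α)) y) = 1 := by
          have h4 : 1 * l = Nat.card (orbit (fixingSubgroup G (s₀ : Set α)) y) * l := by rw [one_mul]; exact h2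
          exact (Nat.eq_of_mul_eq_mul_right (by omega) h4).symm
        rw [Nat.card_eq_one_iff_unique] at h3
        have h5 := h3.1.elim (⟨(⟨g, hg⟩ : fixingSubgroup G (s₀ : Set α)) • y, mem_orbit _ _⟩ : orbit (fixingSubgroup G (s₀ : Set α)) y) ⟨y, mem_orbit_self y⟩
        exact congrArg Subtype.val h5
    have h2 : Nat.card (fixingSubgroup G (s₀ : Set α)) = 1 := by
      rw [Subgroup.card_eq_one, Subgroup.eq_bot_iff_forall]
      exact h1
    rw [hkm1 s₀ hs₀.2] at h2
    omega
  obtain ⟨d, hd, hd1⟩ := hml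
  obtain ⟨p, hp, hpd⟩ := Nat.exists_prime_and_dvd hd1
  haveI : Fact p.Prime := ⟨hp⟩
  have hm0 : 0 < m := Nat.pos_of_ne_zero (by rintro rfl; rw [mul_zero] at hd; omega)
  apply gleason (p := p) (k - 1) G α (by omega) (by rw [Nat.card_eq_fintype_card]; omega)
  intro S hS
  obtain ⟨s, rfl⟩ : ∃ s : Finset α, (s : Set α) = S := ⟨S.toFinite.toFinset, Set.Finite.coe_toFinset _⟩
  rw [Set.ncard_coe_finset] at hS
  obtain ⟨P⟩ : Nonempty (Sylow p (fixingSubgroup G (s : Set α))) := inferInstance
  refine ⟨(P : Subgroup (fixingSubgroup G (s : Set α))).map (fixingSubgroup G (s : Set α)).subtype, P.2.map _, ?_⟩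
  ext x
  constructor
  · intro hx
    by_contra hxs
    have hxs' : x ∉ s := hxs
    -- P fixes x
    have h1 : (P : Subgroup (fixingSubgroup G (s : Set α))).map (fixingSubgroup G (s : Set α)).subtype ≤
        fixingSubgroup G (((insert x s : Finset α)) : Set α) := by
      intro g hg
      rw [mem_fixingSubgroup_iff]
      intro y hy
      rw [Finset.coe_insert] at hy
      rcases hy with rfl | hy
      · exact hx ⟨g, hg⟩
      · obtain ⟨g', _, rfl⟩ := hg
        exact (mem_fixingSubgroup_iff G).1 g'.2 y hy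
    have h2 := Subgroup.card_dvd_of_le h1
    rw [hkm (insert x s) (by rw [Finset.card_insert_of_notMem hxs', hS]; omega), Subgroup.card_map_of_injective (Subgroup.subtype_injective _),
      P.card_eq_multiplicity, hkm1 s hS] at h2
    have h3 := (hp.pow_dvd_iff_le_factorization hm0.ne').1 h2
    have hd0 : d ≠ 0 := by rintro rfl; rw [zero_mul] at hd; omega
    rw [hd, Nat.factorization_mul hd0 hm0.ne', Finsupp.add_apply] at h3
    have h4 := hp.factorization_pos_of_dvd hd0 hpd
    omega
  · intro hx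
    rintro ⟨_, ⟨g, hg, rfl⟩⟩
    exact (mem_fixingSubgroup_iff G).1 g.2 x hx

/-- generous transitivity in terms of permutations of `α` -/
theorem gen_trans {α : Type u} [DecidableEq α] (G : Subgroup (Perm α)) {k : ℕ}
    (hgen : ∀ s : Finset α, s.card = k + 1 → ∀ σ : Perm ↥s, ∃ g ∈ G, ∀ x : ↥s, g (x : α) = σ x) :
    ∀ s : Finset α, s.card = k + 1 → ∀ σ : Perm α, (∀ x, x ∈ s → σ x ∈ s) → ∃ g ∈ G, ∀ x ∈ s, g x = σ x := by
  intro s hs σ hσ
  have h1 : ∀ x, σ x ∈ s ↔ x ∈ s := by
    have h2 : s.image σ = s := by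
      apply Finset.eq_of_subset_of_card_le
      · intro y hy
        obtain ⟨x, hx, rfl⟩ := Finset.mem_image.1 hy
        exact hσ x hx
      · rw [Finset.card_image_of_injective _ σ.injective]
    intro x
    constructor
    · intro hx
      rw [← h2] at hx
      obtain ⟨y, hy, hyx⟩ := Finset.mem_image.1 hx
      rw [← σ.injective hyx]; exact hy
    · exact hσ x
  obtain ⟨g, hg, h⟩ := hgen s hs (σ.subtypePerm h1)
  exact ⟨g, hg, fun x hx => h ⟨x, hx⟩⟩

theorem generous_trans {α : Type u} [Fintype α] [DecidableEq α] (G : Subgroup (Perm α)) {k : ℕ} (hk : k < Fintype.card α)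
    (hgen : ∀ s : Finset α, s.card = k + 1 → ∀ σ : Perm ↥s, ∃ g ∈ G, ∀ x : ↥s, g (x : α) = σ x) :
    IsMultiplyPretransitive G α k := by
  have hgen' := gen_trans G hgen
  have key : ∀ (d : ℕ) (x y : Fin k ↪ α), (Finset.univ.filter (fun i => x i ≠ y i)).card = d → ∃ g ∈ G, ∀ i, g (x i) = y i := by
    intro d
    induction d using Nat.strong_induction_on with
    | _ d ih =>
    intro x y hd
    by_cases hall : ∀ i, x i = y i
    · exact ⟨1, G.one_mem, hall⟩
    · push Not at hall
      obtain ⟨i, hi⟩ := hall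
      have hc : (insert (y i) (Finset.univ.image x)).card ≤ k + 1 := by
        refine (Finset.card_insert_le _ _).trans ?_
        have := Finset.card_image_le (s := (Finset.univ : Finset (Fin k))) (f := x)
        rw [Finset.card_univ, Fintype.card_fin] at this
        omega
      obtain ⟨s, hs1, -, hs2⟩ := Finset.exists_subsuperset_card_eq (Finset.subset_univ (insert (y i) (Finset.univ.image x))) hc
        (by rw [Finset.card_univ]; omega)
      have hxs : ∀ j, x j ∈ s := fun j => hs1 (Finset.mem_insert_of_mem (Finset.mem_image_of_mem _ (Finset.mem_univ j)))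
      have hys : y i ∈ s := hs1 (Finset.mem_insert_self _ _)
      obtain ⟨g, hg, hgs⟩ := hgen' s hs2 (Equiv.swap (x i) (y i)) (by
        intro z hz
        rcases eq_or_ne z (x i) with rfl | h1
        · rw [Equiv.swap_apply_left]; exact hys
        · rcases eq_or_ne z (y i) with rfl | h2
          · rw [Equiv.swap_apply_right]; exact hxs i
          · rw [Equiv.swap_apply_of_ne_of_ne h1 h2]; exact hz)
      obtain ⟨h, hh, hhy⟩ := ih (Finset.univ.filter (fun j => (x.trans g.toEmbedding) j ≠ y j)).card (by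
        rw [← hd]
        apply Finset.card_lt_card
        rw [Finset.ssubset_iff_of_subset]
        · refine ⟨i, Finset.mem_filter.2 ⟨Finset.mem_univ _, hi⟩, ?_⟩
          intro h1
          apply (Finset.mem_filter.1 h1).2
          change g (x i) = y i
          rw [hgs _ (hxs i), Equiv.swap_apply_left]
        · intro j hj
          rw [Finset.mem_filter] at hj ⊢
          refine ⟨hj.1, fun h1 => hj.2 ?_⟩
          change g (x j) = y j
          have hji : j ≠ i := by
            rintro rfl
            exact hi h1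
          have e1 : x j ≠ x i := fun e => hji (x.injective e)
          have e2 : x j ≠ y i := by rw [h1]; exact fun e => hji (y.injective e)
          rw [hgs _ (hxs j), Equiv.swap_apply_of_ne_of_ne e1 e2, h1]) (x.trans g.toEmbedding) y rfl
      exact ⟨h * g, G.mul_mem hh hg, fun j => hhy j⟩
  refine ⟨fun x y => ?_⟩
  obtain ⟨g, hg, h⟩ := key _ x y rfl
  exact ⟨⟨g, hg⟩, by ext i; exact h i⟩

theorem generous_orbits {α : Type u} [Fintype α] [DecidableEq α] (G : Subgroup (Perm α)) {k : ℕ}
    (hgen : ∀ s : Finset α, s.card = k + 1 → ∀ σ : Perm ↥s, ∃ g ∈ G, ∀ x : ↥s, g (x : α) = σ x)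
    (s : Finset α) (hs : s.card = k) (a b : α) (hb : b ∉ s) (h : ∃ g ∈ G, (∀ x ∈ s, g x ∈ s) ∧ g a = b) :
    ∃ g ∈ G, (∀ x ∈ s, g x = x) ∧ g a = b := by
  obtain ⟨g, hg, hgs, hgab⟩ := h
  have hgs' : ∀ x, x ∈ s ↔ g x ∈ s := by
    have h2 : s.image g = s := by
      apply Finset.eq_of_subset_of_card_le
      · intro y hy
        obtain ⟨x, hx, rfl⟩ := Finset.mem_image.1 hy
        exact hgs x hx
      · rw [Finset.card_image_of_injective _ g.injective]
    intro x
    constructor
    · exact hgs x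
    · intro hx
      rw [← h2] at hx
      obtain ⟨y, hy, hyx⟩ := Finset.mem_image.1 hx
      rw [← g.injective hyx]; exact hy
  obtain ⟨τ, hτ⟩ : ∃ τ : Perm {x // x ∈ s}, τ = g.subtypePerm (fun x => (hgs' x).symm) := ⟨_, rfl⟩
  obtain ⟨h, hh, hhs⟩ := gen_trans G hgen (insert b s) (by rw [Finset.card_insert_of_notMem hb, hs])
    (Equiv.Perm.ofSubtype τ⁻¹) (by
      intro x hx
      rw [Finset.mem_insert] at hx
      by_cases hxs : x ∈ s
      · rw [Equiv.Perm.ofSubtype_apply_of_mem _ hxs]
        exact Finset.mem_insert_of_mem (Subtype.mem _)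
      · rw [Equiv.Perm.ofSubtype_apply_of_not_mem _ hxs]
        exact Finset.mem_insert.2 hx)
  refine ⟨h * g, G.mul_mem hh hg, ?_, ?_⟩
  · intro x hx
    rw [Perm.mul_apply, hhs _ (Finset.mem_insert_of_mem (hgs x hx)), Equiv.Perm.ofSubtype_apply_of_mem _ (hgs x hx)]
    have h1 : (⟨g x, hgs x hx⟩ : {x // x ∈ s}) = τ ⟨x, hx⟩ := by rw [hτ]; rfl
    rw [h1]
    exact congrArg Subtype.val (τ.symm_apply_apply ⟨x, hx⟩)
  · rw [Perm.mul_apply, hgab, hhs _ (Finset.mem_insert_self _ _), Equiv.Perm.ofSubtype_apply_of_not_mem _ hb]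

theorem exists_smul_finset {G : Type u} {X : Type v} [Group G] [MulAction G X] {k : ℕ} (h : IsMultiplyPretransitive G X k)
    (s t : Finset X) (hs : s.card = k) (ht : t.card = k) : ∃ g : G, g • (s : Set X) = t := by
  let x : Fin k ↪ X := (s.equivFinOfCardEq hs).symm.toEmbedding.trans (Function.Embedding.subtype _)
  let y : Fin k ↪ X := (t.equivFinOfCardEq ht).symm.toEmbedding.trans (Function.Embedding.subtype _)
  obtain ⟨g, hg⟩ := h.exists_smul_eq x y
  have hgi : ∀ i, g • x i = y i := fun i => congrArg (fun z : Fin k ↪ X => z i) hg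
  refine ⟨g, ?_⟩
  ext z
  constructor
  · rintro ⟨w, hw, rfl⟩
    have h1 : w = x (s.equivFinOfCardEq hs ⟨w, hw⟩) := by
      change w = (((s.equivFinOfCardEq hs).symm (s.equivFinOfCardEq hs ⟨w, hw⟩) : s) : X)
      rw [Equiv.symm_apply_apply]
    change g • w ∈ (t : Set X)
    rw [h1, hgi]
    exact Subtype.mem _
  · intro hz
    have h1 : z = y (t.equivFinOfCardEq ht ⟨z, hz⟩) := by
      change z = (((t.equivFinOfCardEq ht).symm (t.equivFinOfCardEq ht ⟨z, hz⟩) : t) : X)
      rw [Equiv.symm_apply_apply]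
    rw [h1, ← hgi]
    exact ⟨_, Subtype.mem _, rfl⟩

theorem card_fixing_eq {G : Type u} {X : Type v} [Group G] [MulAction G X] {k : ℕ} (h : IsMultiplyPretransitive G X k)
    (s t : Finset X) (hs : s.card = k) (ht : t.card = k) :
    Nat.card (fixingSubgroup G (s : Set X)) = Nat.card (fixingSubgroup G (t : Set X)) := by
  obtain ⟨g, hg⟩ := exists_smul_finset h s t hs ht
  exact Nat.card_congr (SubMulAction.fixingSubgroupEquivFixingSubgroup hg).toEquiv

theorem generous_prime {α : Type u} [Fintype α] [DecidableEq α] (G : Subgroup (Perm α)) {k : ℕ} (hk : k < Fintype.card α)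
    (hgen : ∀ s : Finset α, s.card = k + 1 → ∀ σ : Perm ↥s, ∃ g ∈ G, ∀ x : ↥s, g (x : α) = σ x) {p : ℕ} (hp : p.Prime)
    (hpk : p ≤ k) (Γ : Finset α) (hΓ : Γ.card = k) (f : Fin p → α) (hf : ∀ i, f i ∉ Γ)
    (hdist : ∀ i j, i ≠ j → f j ∉ orbit (fixingSubgroup G (Γ : Set α)) (f i)) :
    ∃ i, p ∣ Nat.card (orbit (fixingSubgroup G (Γ : Set α)) (f i)) := by
  haveI : Fact p.Prime := ⟨hp⟩
  by_contra hno
  push Not at hno
  obtain ⟨Γ₁, hΓ₁, hΓ₁c⟩ := Finset.exists_subset_card_eq (s := Γ) (n := p) (by omega)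
  let T : Subgroup G :=
    { carrier := {g | (∀ x ∈ Γ, x ∉ Γ₁ → (g : Perm α) x = x) ∧ ∀ x, x ∈ Γ₁ ↔ (g : Perm α) x ∈ Γ₁}
      one_mem' := ⟨fun _ _ _ => rfl, fun _ => Iff.rfl⟩
      mul_mem' := by
        rintro g h ⟨hg1, hg2⟩ ⟨hh1, hh2⟩
        refine ⟨fun x hx hx1 => ?_, fun x => ?_⟩
        · change (g : Perm α) ((h : Perm α) x) = x
          rw [hh1 x hx hx1, hg1 x hx hx1]
        · exact (hh2 x).trans (hg2 _)
      inv_mem' := by
        rintro g ⟨hg1, hg2⟩
        refine ⟨fun x hx hx1 => ?_, fun x => ?_⟩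
        · change (g : Perm α)⁻¹ x = x
          rw [Perm.inv_eq_iff_eq, hg1 x hx hx1]
        · have := hg2 ((g : Perm α)⁻¹ x)
          rw [show (g : Perm α) ((g : Perm α)⁻¹ x) = x from (g : Perm α).apply_symm_apply x] at this
          exact this.symm }
  have hT : ∀ g : G, g ∈ T ↔ (∀ x ∈ Γ, x ∉ Γ₁ → (g : Perm α) x = x) ∧ ∀ x, x ∈ Γ₁ ↔ (g : Perm α) x ∈ Γ₁ := fun _ => Iff.rfl
  have hTΓ : ∀ g ∈ T, ∀ x ∈ Γ, (g : Perm α) x ∈ Γ := by
    intro g hg x hx
    by_cases hx1 : x ∈ Γ₁
    · exact hΓ₁ ((hg.2 x).1 hx1)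
    · rw [hg.1 x hx hx1]; exact hx
  obtain ⟨L, hL⟩ : ∃ L, L = fixingSubgroup G (Γ : Set α) := ⟨_, rfl⟩
  rw [← hL] at hdist hno
  have hLfix : ∀ g ∈ L, ∀ x ∈ Γ, (g : Perm α) x = x := by
    intro g hg x hx
    rw [hL] at hg
    exact (mem_fixingSubgroup_iff G).1 hg x hx
  have hLof : ∀ g : G, (∀ x ∈ Γ, (g : Perm α) x = x) → g ∈ L := by
    intro g hg
    rw [hL, mem_fixingSubgroup_iff]
    exact hg
  -- the orbit of γ
  obtain ⟨γ, hγ⟩ : Γ₁.Nonempty := by rw [← Finset.card_pos, hΓ₁c]; exact hp.pos
  have horb : orbit T γ = (Γ₁ : Set α) := by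
    ext y
    constructor
    · rintro ⟨t, rfl⟩
      exact (t.2.2 γ).1 hγ
    · intro hy
      -- transposition
      obtain ⟨b, hb⟩ : ∃ b, b ∉ Γ := by
        by_contra h1
        push Not at h1
        rw [Finset.eq_univ_iff_forall.2 h1, Finset.card_univ] at hΓ
        omega
      obtain ⟨g, hg, hgs⟩ := gen_trans G hgen (insert b Γ) (by rw [Finset.card_insert_of_notMem hb, hΓ]) (Equiv.swap γ y) (by
        intro z hz
        rcases eq_or_ne z γ with rfl | h1
        · rw [Equiv.swap_apply_left]; exact Finset.mem_insert_of_mem (hΓ₁ hy)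
        · rcases eq_or_ne z y with rfl | h2
          · rw [Equiv.swap_apply_right]; exact Finset.mem_insert_of_mem (hΓ₁ hγ)
          · rw [Equiv.swap_apply_of_ne_of_ne h1 h2]; exact hz)
      have hgΓ : ∀ x ∈ Γ, g x = Equiv.swap γ y x := fun x hx => hgs x (Finset.mem_insert_of_mem hx)
      have hsw : ∀ x ∈ Γ₁, g x ∈ Γ₁ := by
        intro x hx
        rw [hgΓ x (hΓ₁ hx)]
        rcases eq_or_ne x γ with rfl | h1
        · rw [Equiv.swap_apply_left]; exact hy
        · rcases eq_or_ne x y with rfl | h2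
          · rw [Equiv.swap_apply_right]; exact hγ
          · rw [Equiv.swap_apply_of_ne_of_ne h1 h2]; exact hx
      have himg : Γ₁.image g = Γ₁ := by
        apply Finset.eq_of_subset_of_card_le
        · intro z hz
          obtain ⟨x, hx, rfl⟩ := Finset.mem_image.1 hz
          exact hsw x hx
        · rw [Finset.card_image_of_injective _ g.injective]
      refine ⟨⟨⟨g, hg⟩, ?_, ?_⟩, ?_⟩
      · intro x hx hx1
        change g x = x
        rw [hgΓ x hx, Equiv.swap_apply_of_ne_of_ne]
        · rintro rfl; exact hx1 hγ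
        · rintro rfl; exact hx1 hy
      · intro x
        change x ∈ Γ₁ ↔ g x ∈ Γ₁
        refine ⟨hsw x, fun h1 => ?_⟩
        rw [← himg] at h1
        obtain ⟨z, hz, hzx⟩ := Finset.mem_image.1 h1
        rw [← g.injective hzx]; exact hz
      · change g γ = y
        rw [hgΓ γ (hΓ₁ hγ), Equiv.swap_apply_left]
  have hTcard : p * Nat.card L ∣ Nat.card T := by
    have h1 : Nat.card (orbit T γ) * Nat.card (stabilizer T γ) = Nat.card T := by
      have := Nat.card_congr (orbitProdStabilizerEquivGroup T γ)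
      rw [Nat.card_prod] at this
      exact this
    have h2 : Nat.card (orbit T γ) = p := by
      rw [horb, ← hΓ₁c]
      simp
    rw [h2] at h1
    rw [← h1]
    apply mul_dvd_mul_left
    have h3 : ∀ g ∈ L, g ∈ T := by
      intro g hg
      refine ⟨fun x hx _ => hLfix g hg x hx, fun x => ?_⟩
      constructor
      · intro hx
        rw [hLfix g hg x (hΓ₁ hx)]; exact hx
      · intro hx
        have h4 := hLfix g hg _ (hΓ₁ hx)
        have h5 := (g : Perm α).injective h4
        rw [h5] at hx; exact hx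
    let φ : L →* stabilizer T γ :=
      { toFun := fun g => ⟨⟨g, h3 g g.2⟩, hLfix g g.2 γ (hΓ₁ hγ)⟩
        map_one' := rfl
        map_mul' := fun _ _ => rfl }
    apply Subgroup.card_dvd_of_injective φ
    intro g h hgh
    have h4 := congrArg (fun z : stabilizer T γ => ((z : T) : G)) hgh
    exact Subtype.ext h4
  obtain ⟨R⟩ : Nonempty (Sylow p T) := inferInstance
  have hRp : IsPGroup p ((R : Subgroup T).map T.subtype) := R.2.map _
  have hRT : ∀ g ∈ (R : Subgroup T).map T.subtype, g ∈ T := by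
    rintro _ ⟨g, _, rfl⟩; exact g.2
  have hOΓ : ∀ i, ∀ x ∈ orbit L (f i), x ∉ Γ := by
    rintro i _ ⟨l, rfl⟩ hx
    have h1 : ((l : G) : Perm α) (((l : G) : Perm α) (f i)) = ((l : G) : Perm α) (f i) := hLfix l l.2 _ hx
    have h2 : ((l : G) : Perm α) (f i) = f i := ((l : G) : Perm α).injective h1
    apply hf i
    rw [← h2]; exact hx
  have hfixed : ∀ i, ∃ x ∈ orbit L (f i), ∀ g ∈ (R : Subgroup T).map T.subtype, g • x = x := by
    intro i
    have h1 := fixed_count (G := G) (X := α) hRp (orbit L (f i)) (by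
      intro t ht x hx
      have htT := hRT t ht
      have h2 : (t : Perm α) x ∉ Γ := by
        intro h3
        have h4 : Γ.image (t : Perm α) = Γ := by
          apply Finset.eq_of_subset_of_card_le
          · intro z hz
            obtain ⟨y, hy, rfl⟩ := Finset.mem_image.1 hz
            exact hTΓ t htT y hy
          · rw [Finset.card_image_of_injective _ (t : Perm α).injective]
        rw [← h4] at h3
        obtain ⟨y, hy, hyx⟩ := Finset.mem_image.1 h3
        exact hOΓ i x hx (by rw [← (t : Perm α).injective hyx]; exact hy)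
      obtain ⟨g, hg, hgΓ, hgx⟩ := generous_orbits G hgen Γ hΓ x ((t : Perm α) x) h2 ⟨t, t.2, hTΓ t htT, rfl⟩
      obtain ⟨l, rfl⟩ := hx
      refine ⟨⟨⟨g, hg⟩, hLof _ hgΓ⟩ * l, ?_⟩
      change g (((l : G) : Perm α) (f i)) = (t : Perm α) (((l : G) : Perm α) (f i))
      exact hgx)
    by_contra hno2
    have h2 : Nat.card {x : α // x ∈ orbit L (f i) ∧ ∀ g ∈ (R : Subgroup T).map T.subtype, g • x = x} = 0 := by
      rw [Nat.card_eq_zero]
      left
      refine ⟨fun x => hno2 ⟨x.1, x.2.1, x.2.2⟩⟩
    rw [h2] at h1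
    exact hno i ((Nat.modEq_zero_iff_dvd).1 h1)
  choose x hxO hxR using hfixed
  have hxinj : Function.Injective x := by
    intro i j hij
    by_contra hne
    apply hdist i j hne
    have h1 := hxO i
    rw [hij] at h1
    have h2 := hxO j
    rw [← orbit_eq_iff] at h1 h2
    rw [← h1, h2]
    exact mem_orbit_self _
  have hΓ'c : ((Γ \ Γ₁) ∪ Finset.univ.image x).card = k := by
    rw [Finset.card_union_of_disjoint, Finset.card_sdiff_of_subset hΓ₁, Finset.card_image_of_injective _ hxinj, hΓ, hΓ₁c,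
      Finset.card_univ, Fintype.card_fin]
    · omega
    · rw [Finset.disjoint_left]
      intro y hy hy2
      obtain ⟨i, _, rfl⟩ := Finset.mem_image.1 hy2
      exact hOΓ i _ (hxO i) (Finset.mem_sdiff.1 hy).1
  have h1 := card_fixing_eq (G := G) (X := α) (generous_trans G hk hgen) Γ _ hΓ hΓ'c
  rw [← hL] at h1
  have h2 : (R : Subgroup T).map T.subtype ≤ fixingSubgroup G (((Γ \ Γ₁) ∪ Finset.univ.image x : Finset α) : Set α) := by
    intro g hg
    rw [mem_fixingSubgroup_iff]
    intro y hy
    rcases Finset.mem_union.1 hy with hy | hy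
    · have h3 := Finset.mem_sdiff.1 hy
      exact (hRT g hg).1 y h3.1 h3.2
    · obtain ⟨i, _, rfl⟩ := Finset.mem_image.1 hy
      exact hxR i g hg
  have h3 := Subgroup.card_dvd_of_le h2
  rw [← h1, Subgroup.card_map_of_injective T.subtype_injective, R.card_eq_multiplicity] at h3
  have h4 := (hp.pow_dvd_iff_le_factorization Nat.card_pos.ne').1 h3
  have h5 := (Nat.factorization_le_iff_dvd (mul_ne_zero hp.ne_zero Nat.card_pos.ne') Nat.card_pos.ne').2 hTcard p
  rw [Nat.factorization_mul hp.ne_zero Nat.card_pos.ne', Finsupp.add_apply, hp.factorization_self] at h5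
  omega

theorem card_fixedBy_pow {α : Type u} [Fintype α] (G : Subgroup (Perm α)) [Fintype G] (j : ℕ) :
    Nat.card G ∣ ∑ g : G, (Nat.card (fixedBy α (g : Perm α))) ^ j := by
  classical
  have h1 := sum_card_fixedBy_eq_card_orbits_mul_card_group G (Fin j → α)
  have h2 : ∀ g : G, Fintype.card (fixedBy (Fin j → α) g) = (Nat.card (fixedBy α (g : Perm α))) ^ j := by
    intro g
    rw [← Nat.card_eq_fintype_card]
    have e : fixedBy (Fin j → α) g ≃ (Fin j → fixedBy α (g : Perm α)) :=
      { toFun := fun x i => ⟨x.1 i, congrFun x.2 i⟩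
        invFun := fun x => ⟨fun i => (x i).1, funext fun i => (x i).2⟩
        left_inv := fun x => rfl
        right_inv := fun x => rfl }
    rw [Nat.card_congr e, Nat.card_fun, Nat.card_eq_fintype_card (α := Fin j), Fintype.card_fin]
  rw [← Finset.sum_congr rfl (fun g _ => h2 g), h1, Nat.card_eq_fintype_card]
  exact dvd_mul_left _ _

theorem blichfeldt {α : Type u} [Fintype α] (G : Subgroup (Perm α)) (L : Finset ℕ)
    (hL : ∀ g ∈ G, g ≠ 1 → Nat.card (fixedBy α g) ∈ L) : Nat.card G ∣ ∏ l ∈ L, (Fintype.card α - l) := by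
  classical
  by_cases hle : ∃ l ∈ L, Fintype.card α ≤ l
  · obtain ⟨l, hl, h⟩ := hle
    rw [Finset.prod_eq_zero hl (Nat.sub_eq_zero_of_le h)]
    exact dvd_zero _
  · push Not at hle
    obtain ⟨Q, hQ⟩ : ∃ Q : Polynomial ℤ, Q = ∏ l ∈ L, (Polynomial.X - Polynomial.C (l : ℤ)) := ⟨_, rfl⟩
    have h1 : (Nat.card G : ℤ) ∣ ∑ g : G, Q.eval ((Nat.card (fixedBy α (g : Perm α)) : ℕ) : ℤ) := by
      simp_rw [Polynomial.eval_eq_sum_range]
      rw [Finset.sum_comm]
      apply Finset.dvd_sum
      intro j _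
      rw [← Finset.mul_sum]
      apply Dvd.dvd.mul_left
      have := card_fixedBy_pow G j
      have h2 := Int.natCast_dvd_natCast.2 this
      push_cast at h2
      exact h2
    have h2 : ∑ g : G, Q.eval ((Nat.card (fixedBy α (g : Perm α)) : ℕ) : ℤ) = ((∏ l ∈ L, (Fintype.card α - l) : ℕ) : ℤ) := by
      rw [Finset.sum_eq_single (1 : G)]
      · have h3 : Nat.card (fixedBy α ((1 : G) : Perm α)) = Fintype.card α := by
          rw [← Nat.card_eq_fintype_card]
          apply Nat.card_congr
          exact ⟨fun x => x.1, fun x => ⟨x, rfl⟩, fun x => rfl, fun x => rfl⟩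
        rw [h3, hQ, Polynomial.eval_prod, Nat.cast_prod]
        apply Finset.prod_congr rfl
        intro l hl
        rw [Polynomial.eval_sub, Polynomial.eval_X, Polynomial.eval_C, Nat.cast_sub (hle l hl).le]
      · intro g _ hg
        rw [hQ, Polynomial.eval_prod]
        apply Finset.prod_eq_zero (hL g g.2 (fun h => hg (Subtype.ext h)))
        rw [Polynomial.eval_sub, Polynomial.eval_X, Polynomial.eval_C, sub_self]
      · intro h; exact absurd (Finset.mem_univ _) h
    rw [h2] at h1
    exact Int.natCast_dvd_natCast.1 h1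

theorem rank_eq {G : Type u} [Group G] {Ω : Type v} [MulAction G Ω] [IsPretransitive G Ω] (a : Ω) :
    Nat.card (orbitRel.Quotient G (Ω × Ω)) = Nat.card (orbitRel.Quotient (stabilizer G a) Ω) := by
  symm
  let φ : orbitRel.Quotient (stabilizer G a) Ω → orbitRel.Quotient G (Ω × Ω) :=
    Quotient.lift (fun x => (Quotient.mk _ (a, x) : orbitRel.Quotient G (Ω × Ω))) (by
      rintro x y ⟨g, hg⟩
      apply Quotient.sound
      exact ⟨(g : G), Prod.ext g.2 hg⟩)
  apply Nat.card_eq_of_bijective φ
  constructor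
  · intro q r
    induction q using Quotient.inductionOn with | _ x =>
    induction r using Quotient.inductionOn with | _ y =>
    intro h
    obtain ⟨g, hg⟩ := Quotient.exact h
    have h1 : g • a = a := congrArg Prod.fst hg
    have h2 : g • y = x := congrArg Prod.snd hg
    exact Quotient.sound ⟨⟨g, h1⟩, h2⟩
  · intro q
    induction q using Quotient.inductionOn with | _ z =>
    obtain ⟨g, hg⟩ := MulAction.exists_smul_eq G a z.1
    refine ⟨Quotient.mk _ (g⁻¹ • z.2), ?_⟩
    apply Quotient.sound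
    refine ⟨g⁻¹, Prod.ext ?_ rfl⟩
    change g⁻¹ • z.1 = a
    rw [← hg, inv_smul_smul]

end CfsgH2
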