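import Mathlib
import Cfsg.Agent.H2.PermC
import Cfsg.Agent.H2.ClassSize
import Cfsg.Agent.H2.SqFree
import Cfsg.Prelude.Def_Perm

/-! # Sharply doubly transitive groups and near-fields (helper2 library) -/

set_option autoImplicit false

namespace CfsgH2

open Subgroup Equiv MulAction
open scoped Pointwise

universe u v

theorem two_trans_card {H : Type u} {X : Type v} [Group H] [MulAction H X] [Finite X] [Finite H]
    (h2 : ∀ a b c d : X, a ≠ b → c ≠ d → ∃ g : H, g • a = c ∧ g • b = d) (hcard : 2 ≤ Nat.card X) :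
    Nat.card X * (Nat.card X - 1) ≤ Nat.card H := by
  haveI : Nontrivial X := Finite.one_lt_card_iff_nontrivial.1 (by omega)
  obtain ⟨a, b, hab⟩ := exists_pair_ne X
  have h1 : ∀ z : {z : X × X // z.1 ≠ z.2}, ∃ g : H, g • a = z.1.1 ∧ g • b = z.1.2 := fun z => h2 a b _ _ hab z.2
  choose f hf1 hf2 using h1
  have hinj : Function.Injective f := by
    intro z w h
    apply Subtype.ext
    apply Prod.ext
    · rw [← hf1 z, ← hf1 w, h]
    · rw [← hf2 z, ← hf2 w, h]
  have h3 := Nat.card_le_card_of_injective f hinj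
  have h4 : Nat.card {z : X × X // z.1 ≠ z.2} = Nat.card X * (Nat.card X - 1) := by
    have h5 : Nat.card {z : X × X // z.1 ≠ z.2} + Nat.card X = Nat.card X * Nat.card X := by
      rw [← Nat.card_prod]
      have e : {z : X × X // z.1 = z.2} ≃ X :=
        ⟨fun z => z.1.1, fun x => ⟨(x, x), rfl⟩, fun z => Subtype.ext (Prod.ext rfl z.2), fun x => rfl⟩
      rw [← Nat.card_congr e, ← Nat.card_sum]
      classical
      exact Nat.card_congr ((Equiv.sumComm _ _).trans (Equiv.sumCompl (fun z : X × X => z.1 = z.2)))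
    rw [Nat.mul_sub, mul_one]
    omega
  rw [← h4]; exact h3

theorem sharp2 {H : Type u} {X : Type v} [Group H] [MulAction H X] [Finite X] [Finite H]
    (h2 : ∀ a b c d : X, a ≠ b → c ≠ d → ∃ g : H, g • a = c ∧ g • b = d)
    (hs : ∀ a b : X, a ≠ b → ∀ h : H, h • a = a → h • b = b → h = 1) (hcard : 2 ≤ Nat.card X) :
    ∃ p j : ℕ, p.Prime ∧ 1 ≤ j ∧ Nat.card X = p ^ j ∧ Nat.card H = Nat.card X * (Nat.card X - 1) ∧
      ∃ A : Subgroup H, (∀ g, g ∈ A ↔ g = 1 ∨ ∀ a : X, g • a ≠ a) ∧ A.Normal ∧ (∀ x ∈ A, ∀ y ∈ A, x * y = y * x) ∧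
        (∀ x ∈ A, x ^ p = 1) ∧ (∀ a b : X, ∃ g ∈ A, g • a = b) ∧ Nat.card A = Nat.card X := by
  classical
  haveI : Fintype H := Fintype.ofFinite H
  haveI : Fintype X := Fintype.ofFinite X
  haveI : Nontrivial X := Finite.one_lt_card_iff_nontrivial.1 (by omega)
  obtain ⟨n, hn⟩ : ∃ n, n = Nat.card X := ⟨_, rfl⟩
  rw [← hn] at hcard ⊢
  have htrans : IsPretransitive H X := by
    refine ⟨fun x y => ?_⟩
    obtain ⟨x', hx'⟩ := exists_ne x
    obtain ⟨y', hy'⟩ := exists_ne y
    obtain ⟨g, hg, _⟩ := h2 x x' y y' hx'.symm hy'.symm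
    exact ⟨g, hg⟩
  have hge : n * (n - 1) ≤ Nat.card H := by rw [hn]; exact two_trans_card h2 (by omega)
  -- Burnside count
  obtain ⟨D, hD⟩ : ∃ D : Finset H, D = Finset.univ.filter (fun g => ∀ a : X, g • a ≠ a) := ⟨_, rfl⟩
  have hDmem : ∀ g, g ∈ D ↔ ∀ a : X, g • a ≠ a := fun g => by rw [hD]; simp
  have h1D : (1 : H) ∉ D := by
    rw [hDmem]
    push Not
    obtain ⟨a, _, _⟩ := exists_pair_ne X
    exact ⟨a, one_smul _ _⟩
  have hfix1 : ∀ g : H, g ≠ 1 → g ∉ D → Fintype.card (fixedBy X g) = 1 := by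
    intro g hg1 hgD
    rw [hDmem] at hgD
    push Not at hgD
    obtain ⟨a, ha⟩ := hgD
    rw [Fintype.card_eq_one_iff]
    refine ⟨⟨a, ha⟩, fun b => ?_⟩
    by_contra hne
    apply hg1
    exact hs a b.1 (fun h => hne (Subtype.ext h.symm)) g ha b.2
  have hfix0 : ∀ g : H, g ∈ D → Fintype.card (fixedBy X g) = 0 := by
    intro g hgD
    rw [hDmem] at hgD
    rw [Fintype.card_eq_zero_iff]
    exact ⟨fun b => hgD b.1 b.2⟩
  have hfixone : Fintype.card (fixedBy X (1 : H)) = n := by
    rw [hn, Nat.card_eq_fintype_card]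
    exact Fintype.card_congr ⟨fun x => x.1, fun x => ⟨x, one_smul _ _⟩, fun x => rfl, fun x => rfl⟩
  have hburn := sum_card_fixedBy_eq_card_orbits_mul_card_group H X
  have horb : Fintype.card (orbitRel.Quotient H X) = 1 := by
    rw [Fintype.card_eq_one_iff]
    obtain ⟨a, _, _⟩ := exists_pair_ne X
    refine ⟨Quotient.mk _ a, fun q => ?_⟩
    induction q using Quotient.inductionOn with | _ x =>
    apply Quotient.sound
    exact MulAction.exists_smul_eq H a x
  rw [horb, one_mul] at hburn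
  have hDcard : D.card = n - 1 := by
    have h3 : (Finset.univ : Finset H) = insert 1 (D ∪ (Finset.univ.filter (fun g => g ≠ 1 ∧ g ∉ D))) := by
      ext g
      simp only [Finset.mem_univ, Finset.mem_insert, Finset.mem_union, Finset.mem_filter, true_and, true_iff]
      tauto
    have h4 : (1 : H) ∉ D ∪ (Finset.univ.filter (fun g => g ≠ 1 ∧ g ∉ D)) := by
      simp [h1D]
    have h5 : Disjoint D (Finset.univ.filter (fun g => g ≠ 1 ∧ g ∉ D)) := by
      rw [Finset.disjoint_left]
      intro g hg hg2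
      exact (Finset.mem_filter.1 hg2).2.2 hg
    have h6 : (∑ g : H, Fintype.card (fixedBy X g)) = n + (Finset.univ.filter (fun g : H => g ≠ 1 ∧ g ∉ D)).card := by
      conv_lhs => rw [h3]
      rw [Finset.sum_insert h4, Finset.sum_union h5, hfixone, Finset.sum_eq_zero (fun g hg => hfix0 g hg), zero_add]
      congr 1
      rw [Finset.card_eq_sum_ones]
      apply Finset.sum_congr rfl
      intro g hg
      exact hfix1 g (Finset.mem_filter.1 hg).2.1 (Finset.mem_filter.1 hg).2.2
    have h7 : Fintype.card H = 1 + (D.card + (Finset.univ.filter (fun g : H => g ≠ 1 ∧ g ∉ D)).card) := by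
      conv_lhs => rw [← Finset.card_univ, h3]
      rw [Finset.card_insert_of_notMem h4, Finset.card_union_of_disjoint h5]
      omega
    omega
  -- key: centralizers of elements of D
  have hcent : ∀ g ∈ D, ∀ x : H, x * g = g * x → x ≠ 1 → x ∈ D := by
    intro g hg x hx hx1
    rw [hDmem] at hg ⊢
    intro a ha
    apply hx1
    apply hs a (g • a) (hg a).symm x ha
    rw [← mul_smul, hx, mul_smul, ha]
  have hconj : ∀ g ∈ D, ∀ x : H, x * g * x⁻¹ ∈ D := by
    intro g hg x
    rw [hDmem] at hg ⊢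
    intro a ha
    apply hg (x⁻¹ • a)
    rw [mul_smul, mul_smul] at ha
    exact (eq_inv_smul_iff.2 ha)
  -- an element of prime order
  obtain ⟨p, hp, hpd⟩ := Nat.exists_prime_and_dvd (show n ≠ 1 by omega)
  haveI : Fact p.Prime := ⟨hp⟩
  have hndvd : n ∣ Nat.card H := by
    obtain ⟨a, _, _⟩ := exists_pair_ne X
    have h3 : Nat.card (orbit H a) * Nat.card (stabilizer H a) = Nat.card H := by
      have := Nat.card_congr (orbitProdStabilizerEquivGroup H a)
      rw [Nat.card_prod] at this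
      exact this
    rw [orbit_eq_univ, Nat.card_univ, ← hn] at h3
    exact ⟨_, h3.symm⟩
  obtain ⟨g, hg⟩ := exists_prime_orderOf_dvd_card' p (hpd.trans hndvd)
  have hgD : g ∈ D := by
    by_contra hgD
    have hg1 : g ≠ 1 := by rintro rfl; rw [orderOf_one] at hg; exact hp.ne_one hg.symm
    have h3 := fixed_count (X := X) (p := p) (P := zpowers g) (IsPGroup.of_card (n := 1) (by rw [Nat.card_zpowers, hg, pow_one])) Set.univ
      (fun _ _ _ _ => trivial)
    have h4 : Nat.card {x : X // x ∈ Set.univ ∧ ∀ k ∈ zpowers g, k • x = x} = 1 := by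
      rw [← hfix1 g hg1 hgD, ← Nat.card_eq_fintype_card]
      apply Nat.card_congr
      refine ⟨fun x => ⟨x.1, x.2.2 g (mem_zpowers g)⟩, fun x => ⟨x.1, trivial, ?_⟩, fun x => rfl, fun x => rfl⟩
      rintro _ ⟨k, rfl⟩
      have h5 : g ∈ stabilizer H x.1 := x.2
      exact (stabilizer H x.1).zpow_mem h5 k
    rw [h4, Nat.card_univ, ← hn] at h3
    have h5 : n ≡ 0 [MOD p] := (Nat.modEq_zero_iff_dvd).2 hpd
    have h6 := (Nat.modEq_zero_iff_dvd).1 (h3.symm.trans h5)
    exact hp.one_lt.ne' (Nat.dvd_one.1 h6)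
  -- counting
  have hbound : ∀ x ∈ D, Nat.card (centralizer ({x} : Set H)) ≤ n := by
    intro x hx
    have h3 := card_eq_filter (centralizer ({x} : Set H))
    rw [h3]
    have h4 : (Finset.univ.filter (fun y : H => y ∈ centralizer ({x} : Set H))) ⊆ insert 1 D := by
      intro y hy
      rw [Finset.mem_insert]
      by_cases hy1 : y = 1
      · exact Or.inl hy1
      · right
        refine hcent x hx y ?_ hy1
        exact (mem_centralizer_singleton_iff.1 (Finset.mem_filter.1 hy).2)
    have h5 := Finset.card_le_card h4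
    rw [Finset.card_insert_of_notMem h1D, hDcard] at h5
    omega
  have hcle : ∀ x ∈ D, csz x ≤ n - 1 := by
    intro x hx
    rw [csz_eq_card, Nat.card_eq_fintype_card, Fintype.card_subtype, ← hDcard]
    apply Finset.card_le_card
    intro y hy
    obtain ⟨c, rfl⟩ := isConj_iff.1 (Finset.mem_filter.1 hy).2
    exact hconj x hx c
  have hprod : ∀ x ∈ D, Nat.card (centralizer ({x} : Set H)) = n ∧ csz x = n - 1 := by
    intro x hx
    have h1 := hbound x hx
    have h3 := hcle x hx
    have h4 : Nat.card (centralizer ({x} : Set H)) * csz x = Nat.card H := Subgroup.card_mul_index _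
    have h5 : 0 < csz x := Nat.pos_of_ne_zero (csz_ne_zero x)
    have h6 : 0 < Nat.card (centralizer ({x} : Set H)) := Nat.card_pos
    have h7 : n * (n - 1) ≤ Nat.card (centralizer ({x} : Set H)) * csz x := by rw [h4]; exact hge
    have h8 : Nat.card (centralizer ({x} : Set H)) * csz x ≤ n * csz x := Nat.mul_le_mul_right _ h1
    have h9 : n * csz x ≤ n * (n - 1) := Nat.mul_le_mul_left _ h3
    have h10 : csz x = n - 1 := by
      have : n * csz x = n * (n - 1) := le_antisymm h9 (h7.trans h8)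
      exact Nat.eq_of_mul_eq_mul_left (by omega) this
    refine ⟨?_, h10⟩
    have : Nat.card (centralizer ({x} : Set H)) * csz x = n * csz x := by
      apply le_antisymm h8
      rw [h10]
      rw [h10] at h7
      exact h7
    exact Nat.eq_of_mul_eq_mul_right h5 this
  have hcardH : Nat.card H = n * (n - 1) := by
    have h4 : Nat.card (centralizer ({g} : Set H)) * csz g = Nat.card H := Subgroup.card_mul_index _
    rw [← h4, (hprod g hgD).1, (hprod g hgD).2]
  have hCeq : ∀ x ∈ D, ∀ y : H, y ∈ centralizer ({x} : Set H) ↔ y = 1 ∨ y ∈ D := by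
    intro x hx
    have h3 := card_eq_filter (centralizer ({x} : Set H))
    rw [(hprod x hx).1] at h3
    have h4 : (Finset.univ.filter (fun y : H => y ∈ centralizer ({x} : Set H))) = insert 1 D := by
      apply Finset.eq_of_subset_of_card_le
      · intro y hy
        rw [Finset.mem_insert]
        by_cases hy1 : y = 1
        · exact Or.inl hy1
        · right
          exact hcent x hx y (mem_centralizer_singleton_iff.1 (Finset.mem_filter.1 hy).2) hy1
      · rw [Finset.card_insert_of_notMem h1D, hDcard, ← h3]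
        omega
    intro y
    have h5 : y ∈ (Finset.univ.filter (fun y : H => y ∈ centralizer ({x} : Set H))) ↔ y ∈ insert 1 D := by rw [h4]
    rw [Finset.mem_filter, Finset.mem_insert] at h5
    simpa using h5
  have hclass : ∀ y ∈ D, ∃ c : H, c * g * c⁻¹ = y := by
    have h3 : (Finset.univ.filter (fun y : H => IsConj g y)) = D := by
      apply Finset.eq_of_subset_of_card_le
      · intro y hy
        obtain ⟨c, rfl⟩ := isConj_iff.1 (Finset.mem_filter.1 hy).2
        exact hconj g hgD c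
      · rw [hDcard, ← (hprod g hgD).2, csz_eq_card, Nat.card_eq_fintype_card, Fintype.card_subtype]
    intro y hy
    rw [← h3] at hy
    exact isConj_iff.1 (Finset.mem_filter.1 hy).2
  obtain ⟨A, hA⟩ : ∃ A, A = centralizer ({g} : Set H) := ⟨_, rfl⟩
  have hAmem : ∀ y, y ∈ A ↔ y = 1 ∨ y ∈ D := by rw [hA]; exact hCeq g hgD
  have hAp : ∀ x ∈ A, x ^ p = 1 := by
    intro x hx
    rcases (hAmem x).1 hx with rfl | hx
    · exact one_pow p
    · obtain ⟨c, rfl⟩ := hclass x hx
      rw [conj_pow, ← hg, pow_orderOf_eq_one, mul_one, mul_inv_cancel]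
  have hAcard : Nat.card A = n := by rw [hA]; exact (hprod g hgD).1
  have hApow : ∃ j, n = p ^ j := by
    have h3 : IsPGroup p A := fun x => ⟨1, by rw [pow_one]; exact Subtype.ext (hAp x x.2)⟩
    obtain ⟨j, hj⟩ := IsPGroup.iff_card.1 h3
    exact ⟨j, by rw [← hAcard, hj]⟩
  obtain ⟨j, hj⟩ := hApow
  refine ⟨p, j, hp, ?_, hj, hcardH, A, ?_, ?_, ?_, hAp, ?_, hAcard⟩
  · rcases Nat.eq_zero_or_pos j with h0 | h0
    · rw [h0, pow_zero] at hj; omega
    · exact h0
  · intro y
    rw [hAmem, hDmem]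
  · refine ⟨fun x hx c => ?_⟩
    rw [hAmem] at hx ⊢
    rcases hx with rfl | hx
    · left; rw [mul_one, mul_inv_cancel]
    · right; exact hconj x hx c
  · intro x hx y hy
    rcases (hAmem x).1 hx with rfl | hxD
    · rw [one_mul, mul_one]
    · have := (hCeq x hxD y).2 ((hAmem y).1 hy)
      exact (mem_centralizer_singleton_iff.1 this).symm
  · -- transitivity
    intro a b
    have h3 : Function.Injective (fun x : A => (x : H) • a) := by
      intro x y hxy
      by_contra hne
      have h4 : (y : H)⁻¹ * x ∈ A := A.mul_mem (A.inv_mem y.2) x.2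
      rcases (hAmem _).1 h4 with h5 | h5
      · exact hne (Subtype.ext (inv_mul_eq_one.1 h5).symm)
      · apply (hDmem _).1 h5 a
        rw [mul_smul, inv_smul_eq_iff]
        exact hxy
    have h4 : Function.Bijective (fun x : A => (x : H) • a) := by
      rw [Nat.bijective_iff_injective_and_card]
      exact ⟨h3, by rw [hAcard, hn]⟩
    obtain ⟨x, hx⟩ := h4.2 b
    exact ⟨x, x.2, hx⟩

theorem two_trans_iff {G : Type u} {X : Type v} [Group G] [MulAction G X] :
    IsMultiplyPretransitive G X 2 ↔ ∀ a b c d : X, a ≠ b → c ≠ d → ∃ g : G, g • a = c ∧ g • b = d := by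
  rw [is_two_pretransitive_iff]

theorem sharp_two_iff {G : Type u} {X : Type v} [Group G] [MulAction G X] :
    (∀ x : Fin 2 ↪ X, stabilizer G x = ⊥) ↔ ∀ a b : X, a ≠ b → ∀ h : G, h • a = a → h • b = b → h = 1 := by
  constructor
  · intro h a b hab g hga hgb
    have h1 := h ⟨![a, b], by
      intro i j hij
      match i, j with
      | 0, 0 => rfl
      | 1, 1 => rfl
      | 0, 1 => exact absurd hij hab
      | 1, 0 => exact absurd hij.symm hab⟩
    rw [Subgroup.eq_bot_iff_forall] at h1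
    apply h1
    rw [mem_stabilizer_iff]
    ext i
    match i with
    | 0 => exact hga
    | 1 => exact hgb
  · intro h x
    rw [Subgroup.eq_bot_iff_forall]
    intro g hg
    have hgi : ∀ i, g • x i = x i := fun i => congrArg (fun z : Fin 2 ↪ X => z i) hg
    exact h (x 0) (x 1) (fun e => by simpa using x.injective e) g (hgi 0) (hgi 1)

theorem sharp2_perm {α : Type u} [Fintype α] [DecidableEq α] (G : Subgroup (Perm α)) [hG : IsMultiplyPretransitive G α 2]
    (hsharp : ∀ x : Fin 2 ↪ α, stabilizer G x = ⊥) (h2 : 2 ≤ Fintype.card α) :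
    ∃ p j : ℕ, p.Prime ∧ 1 ≤ j ∧ Fintype.card α = p ^ j ∧ ∀ (_ : Fact p.Prime) (P : Sylow p G), (P : Subgroup G).Normal ∧
      IsMulCommutative (P : Subgroup G) ∧ (∀ x ∈ (P : Subgroup G), x ^ p = 1) ∧ IsPretransitive (P : Subgroup G) α ∧
      (∀ a : α, stabilizer (P : Subgroup G) a = ⊥) ∧ ∀ g : G, g ∈ (P : Subgroup G) ↔ g = 1 ∨ ∀ a : α, g • a ≠ a := by
  obtain ⟨p, j, hp, hj, hcard, hH, A, hA, hAn, hAc, hAp, hAt, hAcard⟩ := sharp2 (H := G) (X := α) (two_trans_iff.1 hG)
    (sharp_two_iff.1 hsharp) (by rw [Nat.card_eq_fintype_card]; exact h2)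
  refine ⟨p, j, hp, hj, by rw [← Nat.card_eq_fintype_card]; exact hcard, ?_⟩
  intro hpf P
  have hAP : A = (P : Subgroup G) := by
    have hApg : IsPGroup p A := fun x => ⟨1, by rw [pow_one]; exact Subtype.ext (hAp x x.2)⟩
    have hidx : A.index = Nat.card α - 1 := by
      have h1 := A.card_mul_index
      rw [hH, hAcard] at h1
      exact Nat.eq_of_mul_eq_mul_left (by rw [Nat.card_eq_fintype_card]; omega) h1
    have hnd : ¬ p ∣ A.index := by
      rw [hidx, hcard]
      intro h1
      have h3 : p ∣ p ^ j := dvd_pow_self p (by omega)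
      have h4 : 0 < p ^ j := pow_pos hp.pos j
      have h5 : p ∣ 1 := by
        have := Nat.dvd_sub h3 h1
        rwa [Nat.sub_sub_self h4] at this
      exact hp.one_lt.ne' (Nat.dvd_one.1 h5)
    haveI : Unique (Sylow p G) := Sylow.unique_of_normal (hApg.toSylow hnd) hAn
    have h1 : hApg.toSylow hnd = P := Subsingleton.elim _ _
    rw [← h1]; rfl
  rw [← hAP]
  refine ⟨hAn, ⟨⟨fun x y => Subtype.ext (hAc x x.2 y y.2)⟩⟩, hAp, ⟨fun a b => ?_⟩, fun a => ?_, hA⟩
  · obtain ⟨g, hg, hgab⟩ := hAt a b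
    exact ⟨⟨g, hg⟩, hgab⟩
  · rw [Subgroup.eq_bot_iff_forall]
    intro x hx
    rcases (hA x).1 x.2 with h1 | h1
    · exact Subtype.ext h1
    · exact absurd hx (h1 a)

/-- a sharply doubly transitive group comes from a near-field -/
theorem nearfield_of_sharp2 {α : Type u} [Finite α] (H : Subgroup (Perm α)) (hH2 : ∀ a b c d : α, a ≠ b → c ≠ d → ∃ g : H, g • a = c ∧ g • b = d)
    (hs : ∀ a b : α, a ≠ b → ∀ h : H, h • a = a → h • b = b → h = 1) (hcard : 2 ≤ Nat.card α) :
    ∃ _ : Cfsg.NearField α, ∀ σ : Perm α, σ ∈ H ↔ ∃ a b : α, a ≠ 0 ∧ ∀ x : α, σ x = x * a + b := by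
  classical
  obtain ⟨p, j, hp, hj, -, -, A, hA, hAn, hAc, hAp, hAt, hAcard⟩ := sharp2 (H := H) (X := α) hH2 hs hcard
  haveI : Nontrivial α := Finite.one_lt_card_iff_nontrivial.1 (by omega)
  obtain ⟨o, e, hoe⟩ := exists_pair_ne α
  choose t htA hto using hAt o
  have hAu : ∀ g ∈ A, ∀ h ∈ A, ∀ x : α, g • x = h • x → g = h := by
    intro g hg h hh x hx
    rcases (hA _).1 (A.mul_mem (A.inv_mem hh) hg) with h1 | h1
    · exact (inv_mul_eq_one.1 h1).symm
    · exfalso
      apply h1 x
      rw [mul_smul, inv_smul_eq_iff]; exact hx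
  have htu : ∀ g ∈ A, g = t (g • o) := fun g hg => hAu g hg _ (htA _) o (by rw [hto])
  have hm : ∀ y : α, ∃ g : H, y ≠ o → g • o = o ∧ g • e = y := by
    intro y
    by_cases hy : y = o
    · exact ⟨1, fun h => absurd hy h⟩
    · obtain ⟨g, hg⟩ := hH2 o e o y hoe (Ne.symm hy)
      exact ⟨g, fun _ => hg⟩
  choose m hm using hm
  have hmu : ∀ (g : H) (y : α), y ≠ o → g • o = o → g • e = y → g = m y := by
    intro g y hy h1 h2
    have h3 := hs o e hoe ((m y)⁻¹ * g) (by rw [mul_smul, h1, inv_smul_eq_iff, (hm y hy).1])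
      (by rw [mul_smul, h2, inv_smul_eq_iff, (hm y hy).2])
    exact (inv_mul_eq_one.1 h3).symm
  have ht0 : t o = 1 := by
    have := htu 1 A.one_mem
    rw [one_smul] at this
    exact this.symm
  have hm1 : m e = 1 := (hmu 1 e hoe.symm (one_smul _ _) (one_smul _ _)).symm
  have hmne : ∀ y z : α, y ≠ o → z ≠ o → m z • y ≠ o := by
    intro y z hy hz h
    apply hy
    have h1 : m z • y = m z • o := by rw [h, (hm z hz).1]
    exact smul_left_cancel _ h1
  have hmm : ∀ y z : α, y ≠ o → z ≠ o → m z * m y = m (m z • y) := by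
    intro y z hy hz
    apply hmu _ _ (hmne y z hy hz)
    · rw [mul_smul, (hm y hy).1, (hm z hz).1]
    · rw [mul_smul, (hm y hy).2]
  have htt : ∀ y z : α, t z * t y = t (t z • y) := by
    intro y z
    have := htu (t z * t y) (A.mul_mem (htA z) (htA y))
    rw [mul_smul, hto] at this
    exact this
  have hmt : ∀ c b : α, c ≠ o → m c * t b = t (m c • b) * m c := by
    intro c b hc
    have h1 := htu (m c * t b * (m c)⁻¹) (hAn.conj_mem _ (htA b) _)
    have h2 : (m c)⁻¹ • o = o := by rw [inv_smul_eq_iff, (hm c hc).1]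
    rw [mul_smul, h2, mul_smul, hto] at h1
    rw [← h1, inv_mul_cancel_right]
  letI iadd : Add α := ⟨fun x y => t y • x⟩
  letI izero : Zero α := ⟨o⟩
  letI ineg : Neg α := ⟨fun x => (t x)⁻¹ • o⟩
  have hadd : ∀ x y : α, x + y = t y • x := fun _ _ => rfl
  have hzero : (0 : α) = o := rfl
  let ag : AddGroup α := AddGroup.ofLeftAxioms
    (fun x y z => by change t z • (t y • x) = t (t z • y) • x; rw [← htt, mul_smul])
    (fun x => hto x)
    (fun x => by change t x • ((t x)⁻¹ • o) = o; rw [smul_inv_smul])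
  letI imul : Mul α := ⟨fun x y => if y = o then o else m y • x⟩
  have hmul0 : ∀ x : α, x * o = o := fun x => if_pos rfl
  have hmul : ∀ x y : α, y ≠ o → x * y = m y • x := fun x y hy => if_neg hy
  have h0mul : ∀ x : α, o * x = o := by
    intro x
    by_cases hx : x = o
    · rw [hx, hmul0]
    · rw [hmul _ _ hx, (hm x hx).1]
  letI ione : One α := ⟨e⟩
  let mo : Monoid α :=
    { mul_assoc := by
        intro x y z
        by_cases hz : z = o
        · rw [hz, hmul0, hmul0, hmul0]
        · by_cases hy : y = o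
          · rw [hy, hmul0, h0mul, hmul0]
          · rw [hmul y z hz, hmul _ z hz, hmul x y hy, hmul x _ (hmne y z hy hz), ← mul_smul, hmm y z hy hz]
      one_mul := by
        intro x
        by_cases hx : x = o
        · rw [hx]; exact hmul0 _
        · rw [hmul _ _ hx]; exact (hm x hx).2
      mul_one := by
        intro x
        change x * e = x
        rw [hmul _ _ hoe.symm, hm1, one_smul] }
  let nf : Cfsg.NearField α :=
    { ag, mo with
      right_distrib := by
        intro a b c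
        change (a + b) * c = a * c + b * c
        by_cases hc : c = o
        · rw [hc, hmul0, hmul0, hmul0]
          exact (hto o).symm
        · rw [hmul _ c hc, hmul _ c hc, hmul _ c hc, hadd, hadd, ← mul_smul, ← mul_smul, hmt c b hc]
      mul_zero := fun a => hmul0 a
      zero_ne_one := hoe
      exists_inv := by
        intro a ha
        have ha' : a ≠ o := ha
        have hb : (m a)⁻¹ • e ≠ o := by
          intro h1
          rw [inv_smul_eq_iff, (hm a ha').1] at h1
          exact hoe h1.symm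
        have hmb : (m a)⁻¹ = m ((m a)⁻¹ • e) := by
          apply hmu _ _ hb
          · rw [inv_smul_eq_iff, (hm a ha').1]
          · rfl
        refine ⟨(m a)⁻¹ • e, ?_, ?_⟩
        · change a * ((m a)⁻¹ • e) = e
          rw [hmul _ _ hb, ← hmb, inv_smul_eq_iff, (hm a ha').2]
        · change ((m a)⁻¹ • e) * a = e
          rw [hmul _ _ ha', smul_inv_smul] }
  refine ⟨nf, ?_⟩
  intro σ
  constructor
  · intro hσ
    obtain ⟨b, hb⟩ : ∃ b, b = σ o := ⟨_, rfl⟩
    have h1 : ((t b)⁻¹ * ⟨σ, hσ⟩) • o = o := by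
      rw [mul_smul, inv_smul_eq_iff, hto]; exact hb.symm
    obtain ⟨a, ha⟩ : ∃ a, a = ((t b)⁻¹ * (⟨σ, hσ⟩ : H)) • e := ⟨_, rfl⟩
    have hao : a ≠ o := by
      rw [ha]
      intro h2
      rw [← h1] at h2
      exact hoe.symm (smul_left_cancel _ h2)
    have h2 : (t b)⁻¹ * (⟨σ, hσ⟩ : H) = m a := hmu _ _ hao h1 ha.symm
    refine ⟨a, b, hao, fun x => ?_⟩
    change σ x = x * a + b
    rw [hmul _ _ hao, hadd, ← mul_smul, ← h2, mul_inv_cancel_left]
    rfl
  · rintro ⟨a, b, ha, hσ⟩
    have hao : a ≠ o := ha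
    have h1 : σ = ((t b * m a : H) : Perm α) := by
      ext x
      rw [hσ]
      change x * a + b = (t b * m a) • x
      rw [hmul _ _ hao, hadd, mul_smul]
    rw [h1]
    exact (t b * m a).2

section NF
variable {F : Type u} [Cfsg.NearField F]

theorem nf_distrib (a b c : F) : (a + b) * c = a * c + b * c := Cfsg.NearField.right_distrib a b c

theorem nf_zero_mul (a : F) : (0 : F) * a = 0 := by
  have h : (0 : F) * a + 0 * a = 0 * a + 0 := by rw [← nf_distrib, add_zero, add_zero]
  exact add_left_cancel h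

theorem nf_neg_mul (a b : F) : (-a) * b = -(a * b) := by
  apply eq_neg_of_add_eq_zero_left
  rw [← nf_distrib, neg_add_cancel, nf_zero_mul]

theorem nf_sub_mul (a b c : F) : (a - b) * c = a * c - b * c := by
  rw [sub_eq_add_neg, nf_distrib, nf_neg_mul, ← sub_eq_add_neg]

theorem nf_mul_zero (a : F) : a * 0 = 0 := Cfsg.NearField.mul_zero a

theorem nf_mul_ne {a b : F} (ha : a ≠ 0) (hb : b ≠ 0) : a * b ≠ 0 := by
  intro h
  obtain ⟨c, hc, _⟩ := Cfsg.NearField.exists_inv b hb
  apply ha
  have : a = a * b * c := by rw [mul_assoc, hc, mul_one]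
  rw [this, h, nf_zero_mul]

/-- the affine group of a near-field -/
noncomputable def nfPerm (a b : F) (ha : a ≠ 0) : Perm F where
  toFun x := x * a + b
  invFun y := (y - b) * (Cfsg.NearField.exists_inv a ha).choose
  left_inv x := by
    have h := (Cfsg.NearField.exists_inv a ha).choose_spec
    change (x * a + b - b) * (Cfsg.NearField.exists_inv a ha).choose = x
    rw [add_sub_cancel_right, mul_assoc, h.1, mul_one]
  right_inv y := by
    have h := (Cfsg.NearField.exists_inv a ha).choose_spec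
    change (y - b) * (Cfsg.NearField.exists_inv a ha).choose * a + b = y
    rw [mul_assoc, h.2, mul_one, sub_add_cancel]

theorem nf_affine : ∃ H : Subgroup (Perm F), (∀ σ : Perm F, σ ∈ H ↔ ∃ a b : F, a ≠ 0 ∧ ∀ x : F, σ x = x * a + b) ∧
    (∀ a b c d : F, a ≠ b → c ≠ d → ∃ g : H, g • a = c ∧ g • b = d) ∧
    (∀ a b : F, a ≠ b → ∀ h : H, h • a = a → h • b = b → h = 1) := by
  let H : Subgroup (Perm F) :=
    { carrier := {σ | ∃ a b : F, a ≠ 0 ∧ ∀ x : F, σ x = x * a + b}
      one_mem' := ⟨1, 0, (Cfsg.NearField.zero_ne_one).symm, fun x => by rw [mul_one, add_zero]; rfl⟩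
      mul_mem' := by
        rintro σ τ ⟨a, b, ha, hσ⟩ ⟨c, d, hc, hτ⟩
        refine ⟨c * a, d * a + b, nf_mul_ne hc ha, fun x => ?_⟩
        rw [Perm.mul_apply, hτ, hσ, nf_distrib, mul_assoc, add_assoc]
      inv_mem' := by
        rintro σ ⟨a, b, ha, hσ⟩
        obtain ⟨c, hc1, hc2⟩ := Cfsg.NearField.exists_inv a ha
        have hc0 : c ≠ 0 := by
          rintro rfl
          rw [nf_mul_zero] at hc1
          exact Cfsg.NearField.zero_ne_one hc1
        refine ⟨c, (-b) * c, hc0, fun x => ?_⟩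
        rw [Perm.inv_eq_iff_eq, hσ, nf_distrib, mul_assoc, mul_assoc, hc2, mul_one, mul_one, neg_add_cancel_right] }
  have hH : ∀ σ : Perm F, σ ∈ H ↔ ∃ a b : F, a ≠ 0 ∧ ∀ x : F, σ x = x * a + b := fun _ => Iff.rfl
  refine ⟨H, hH, ?_, ?_⟩
  · intro x₁ x₂ y₁ y₂ hx hy
    have h1 : x₂ - x₁ ≠ 0 := sub_ne_zero.2 hx.symm
    have h2 : y₂ - y₁ ≠ 0 := sub_ne_zero.2 hy.symm
    obtain ⟨c, hc1, hc2⟩ := Cfsg.NearField.exists_inv _ h1
    have hc0 : c ≠ 0 := by
      rintro rfl
      rw [nf_mul_zero] at hc1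
      exact Cfsg.NearField.zero_ne_one hc1
    have ha := nf_mul_ne hc0 h2
    refine ⟨⟨nfPerm (c * (y₂ - y₁)) (-(x₁ * (c * (y₂ - y₁))) + y₁) ha, ⟨_, _, ha, fun _ => rfl⟩⟩, ?_, ?_⟩
    · change x₁ * (c * (y₂ - y₁)) + (-(x₁ * (c * (y₂ - y₁))) + y₁) = y₁
      rw [add_neg_cancel_left]
    · change x₂ * (c * (y₂ - y₁)) + (-(x₁ * (c * (y₂ - y₁))) + y₁) = y₂
      rw [← add_assoc, ← sub_eq_add_neg, ← nf_sub_mul, ← mul_assoc, hc1, one_mul, sub_add_cancel]
  · rintro x₁ x₂ hx ⟨σ, a, b, ha, hσ⟩ h1 h2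
    change σ x₁ = x₁ at h1
    change σ x₂ = x₂ at h2
    rw [hσ] at h1 h2
    have h3 : (x₂ - x₁) * a = x₂ - x₁ := by
      rw [nf_sub_mul]
      have h4 : x₂ * a = x₂ - b := eq_sub_of_add_eq h2
      have h5 : x₁ * a = x₁ - b := eq_sub_of_add_eq h1
      rw [h4, h5, sub_sub_sub_cancel_right]
    obtain ⟨c, hc1, hc2⟩ := Cfsg.NearField.exists_inv _ (sub_ne_zero.2 hx.symm)
    have h4 : a = 1 := by
      have : a = c * (x₂ - x₁) * a := by rw [hc2, one_mul]
      rw [this, mul_assoc, h3, hc2]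
    rw [h4, mul_one] at h1
    have h5 : b = 0 := by
      have : x₁ + b = x₁ + 0 := by rw [h1, add_zero]
      exact add_left_cancel this
    apply Subtype.ext
    ext x
    rw [hσ, h4, h5, mul_one, add_zero]
    rfl

theorem nf_finite [Finite F] : ∃ p j : ℕ, p.Prime ∧ 1 ≤ j ∧ Nat.card F = p ^ j ∧ (∀ x y : F, x + y = y + x) ∧
    ∀ x : F, p • x = 0 := by
  obtain ⟨H, hH, h2, hs⟩ := nf_affine (F := F)
  haveI : Nontrivial F := ⟨0, 1, Cfsg.NearField.zero_ne_one⟩
  obtain ⟨p, j, hp, hj, hcard, -, A, hA, hAn, hAc, hAp, hAt, hAcard⟩ := sharp2 (H := H) (X := F) h2 hs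
    (Finite.one_lt_card_iff_nontrivial.2 inferInstance)
  have htr : ∀ b : F, ∃ g ∈ A, ∀ x : F, (g : Perm F) x = x + b := by
    intro b
    refine ⟨⟨Equiv.addRight b, (hH _).2 ⟨1, b, (Cfsg.NearField.zero_ne_one).symm, fun x => by rw [mul_one]; rfl⟩⟩, ?_, fun x => rfl⟩
    rw [hA]
    by_cases hb : b = 0
    · left
      apply Subtype.ext
      ext x
      change x + b = x
      rw [hb, add_zero]
    · right
      intro a ha
      apply hb
      change a + b = a at ha
      have : a + b = a + 0 := by rw [ha, add_zero]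
      exact add_left_cancel this
  choose t htA ht using htr
  refine ⟨p, j, hp, hj, hcard, ?_, ?_⟩
  · intro x y
    have h1 := congrArg (fun g : H => (g : Perm F) 0) (hAc _ (htA y) _ (htA x))
    change (t y : Perm F) ((t x : Perm F) 0) = (t x : Perm F) ((t y : Perm F) 0) at h1
    rw [ht, ht, ht, ht, zero_add, zero_add] at h1
    exact h1
  · intro x
    have h1 := congrArg (fun g : H => (g : Perm F) 0) (hAp _ (htA x))
    have h3 : ∀ k : ℕ, ((t x ^ k : H) : Perm F) 0 = k • x := by
      intro k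
      induction k with
      | zero => rw [pow_zero, zero_smul]; rfl
      | succ k ih =>
        rw [pow_succ']
        change (t x : Perm F) (((t x ^ k : H) : Perm F) 0) = _
        rw [ih, ht, succ_nsmul]
    change ((t x ^ p : H) : Perm F) 0 = 0 at h1
    rwa [h3] at h1

end NF

end CfsgH2
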