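import Mathlib
import Cfsg.Agent.H2.PermD
import Cfsg.Agent.H2.Wielandt

/-! # Normal subgroups of multiply transitive groups (helper2 library) -/

set_option autoImplicit false

namespace CfsgH2

open Subgroup Equiv MulAction
open scoped Pointwise

universe u v

theorem mp_add {G : Type u} {X : Type v} [Group G] [MulAction G X] {m j : ℕ} (hm : IsMultiplyPretransitive G X m) (s : Set X)
    [Finite s] (hs : s.ncard = m)
    (h : IsMultiplyPretransitive (fixingSubgroup G s) (SubMulAction.ofFixingSubgroup G s) j) :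
    IsMultiplyPretransitive G X (m + j) := by
  have e : Fin m ≃ s := (Finite.equivFinOfCardEq (by rw [Nat.card_coe_set_eq, hs])).symm
  let e' : Fin m ↪ X := e.toEmbedding.trans (Function.Embedding.subtype _)
  have hmove : ∀ x : Fin (m + j) ↪ X, ∃ (g : G) (x' : Fin j ↪ SubMulAction.ofFixingSubgroup G s),
      (∀ i : Fin m, g • x (Fin.castAdd j i) = e i) ∧ ∀ i : Fin j, g • x (Fin.natAdd m i) = x' i := by
    intro x
    obtain ⟨g, hg⟩ := hm.exists_smul_eq ((Fin.castAddEmb j).trans x) e'
    have hgi : ∀ i : Fin m, g • x (Fin.castAdd j i) = e i := fun i => congrArg (fun z : Fin m ↪ X => z i) hg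
    have hni : ∀ i : Fin j, g • x (Fin.natAdd m i) ∈ SubMulAction.ofFixingSubgroup G s := by
      intro i
      rw [SubMulAction.mem_ofFixingSubgroup_iff]
      intro hmem
      have h1 := hgi (e.symm ⟨_, hmem⟩)
      rw [Equiv.apply_symm_apply] at h1
      have h2 := x.injective (smul_left_cancel g h1)
      have h3 := congrArg Fin.val h2
      rw [Fin.val_castAdd, Fin.val_natAdd] at h3
      have := (e.symm ⟨_, hmem⟩).2
      omega
    refine ⟨g, ⟨fun i => ⟨_, hni i⟩, ?_⟩, hgi, fun i => rfl⟩
    intro i i' hii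
    have h1 := smul_left_cancel g (congrArg Subtype.val hii)
    exact Fin.natAdd_injective j m (x.injective h1)
  refine ⟨fun x y => ?_⟩
  obtain ⟨g₁, x', hx1, hx2⟩ := hmove x
  obtain ⟨g₂, y', hy1, hy2⟩ := hmove y
  obtain ⟨k, hk⟩ := h.exists_smul_eq x' y'
  refine ⟨g₂⁻¹ * k * g₁, ?_⟩
  ext i
  change (g₂⁻¹ * k * g₁) • x i = y i
  rw [mul_smul, mul_smul, inv_smul_eq_iff]
  refine Fin.addCases (fun i => ?_) (fun i => ?_) i
  · rw [hx1, hy1]
    exact (mem_fixingSubgroup_iff G).1 k.2 _ (e i).2
  · rw [hx2, hy2]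
    have h1 := congrArg (fun z : Fin j ↪ SubMulAction.ofFixingSubgroup G s => (z i : X)) hk
    exact h1

theorem mp_succ_of {G : Type u} {X : Type v} [Group G] [MulAction G X] (N : Subgroup G) (ht : ∀ a b : X, ∃ n ∈ N, n • a = b)
    (a : X) {k : ℕ} (h : IsMultiplyPretransitive (N.subgroupOf (stabilizer G a)) (SubMulAction.ofStabilizer G a) k) :
    IsMultiplyPretransitive N X (k + 1) := by
  have hmove : ∀ x : Fin (k + 1) ↪ X, ∃ (g : N) (x' : Fin k ↪ SubMulAction.ofStabilizer G a),
      g • x (Fin.last k) = a ∧ ∀ i : Fin k, g • x (Fin.castSucc i) = x' i := by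
    intro x
    obtain ⟨n, hn, hna⟩ := ht (x (Fin.last k)) a
    have hni : ∀ i : Fin k, n • x (Fin.castSucc i) ∈ SubMulAction.ofStabilizer G a := by
      intro i
      rw [SubMulAction.mem_ofStabilizer_iff]
      intro h1
      rw [← hna] at h1
      have h2 := x.injective (smul_left_cancel n h1)
      exact (Fin.castSucc_lt_last i).ne h2
    refine ⟨⟨n, hn⟩, ⟨fun i => ⟨_, hni i⟩, ?_⟩, hna, fun i => rfl⟩
    intro i i' hii
    have h1 := smul_left_cancel n (congrArg Subtype.val hii)
    exact Fin.castSucc_injective k (x.injective h1)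
  refine ⟨fun x y => ?_⟩
  obtain ⟨g₁, x', hx1, hx2⟩ := hmove x
  obtain ⟨g₂, y', hy1, hy2⟩ := hmove y
  obtain ⟨l, hl⟩ := h.exists_smul_eq x' y'
  refine ⟨g₂⁻¹ * ⟨((l : stabilizer G a) : G), l.2⟩ * g₁, ?_⟩
  ext i
  change (g₂⁻¹ * ⟨((l : stabilizer G a) : G), l.2⟩ * g₁) • x i = y i
  rw [mul_smul, mul_smul, inv_smul_eq_iff]
  refine Fin.lastCases ?_ (fun i => ?_) i
  · rw [hx1, hy1]
    exact (l : stabilizer G a).2
  · rw [hx2, hy2]
    have h1 := congrArg (fun z : Fin k ↪ SubMulAction.ofStabilizer G a => (z i : X)) hl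
    exact h1

theorem jordan_mult {α : Type u} [Fintype α] (G : Subgroup (Perm α)) (hG : IsPreprimitive G α) (s : Set α) {m : ℕ}
    (hsm : s.ncard = m) (hm : m + 2 ≤ Fintype.card α)
    (h2 : IsMultiplyPretransitive (fixingSubgroup G s) (SubMulAction.ofFixingSubgroup G s) 2) :
    IsMultiplyPretransitive G α (m + 2) := by
  apply mp_add _ s hsm h2
  rcases Nat.eq_zero_or_pos m with h0 | h0
  · rw [h0]; exact is_zero_pretransitive
  · obtain ⟨n, rfl⟩ : ∃ n, m = n + 1 := ⟨m - 1, by omega⟩
    have hprim : IsPreprimitive (fixingSubgroup G s) (SubMulAction.ofFixingSubgroup G s) :=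
      isPreprimitive_of_is_two_pretransitive h2
    have h3 := hG.isMultiplyPreprimitive hsm (by rw [Nat.card_eq_fintype_card]; omega) hprim
    haveI := h3.isMultiplyPretransitive
    exact isMultiplyPretransitive_of_le (n := n + 2) (by omega) (by rw [Nat.card_eq_fintype_card]; omega)

/-- regular normal subgroups of doubly primitive groups -/
theorem reg_double_prim {G : Type u} {X : Type v} [Group G] [MulAction G X] [Finite X] (hX : 2 ≤ Nat.card X)
    (h2 : IsMultiplyPreprimitive G X 2) (N : Subgroup G) [N.Normal] (ht : ∀ a b : X, ∃ n ∈ N, n • a = b)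
    (hr : ∀ n ∈ N, ∀ x : X, n • x = x → n = 1) :
    Nat.card X = 3 ∨ ((∀ x ∈ N, ∀ y ∈ N, x * y = y * x) ∧ (∀ n ∈ N, n ^ 2 = 1) ∧ Nat.card X = Nat.card N ∧ ∃ m, Nat.card X = 2 ^ m) := by
  haveI : Nontrivial X := Finite.one_lt_card_iff_nontrivial.1 (by omega)
  obtain ⟨x, y₀, hxy₀⟩ := exists_pair_ne X
  haveI : IsPretransitive G X := ⟨fun a b => by obtain ⟨n, _, h⟩ := ht a b; exact ⟨n, h⟩⟩
  have hprim : IsPreprimitive (stabilizer G x) (SubMulAction.ofStabilizer G x) := by
    rw [← is_one_preprimitive_iff]
    exact isMultiplyPreprimitive_ofStabilizer _ _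
  have hcardN : Nat.card X = Nat.card N := by
    symm
    apply Nat.card_eq_of_bijective (fun n : N => (n : G) • x)
    constructor
    · intro n m hnm
      have h3 := hr ((m : G)⁻¹ * n) (N.mul_mem (N.inv_mem m.2) n.2) x (by
        rw [mul_smul, inv_smul_eq_iff]; exact hnm)
      exact Subtype.ext (inv_mul_eq_one.1 h3).symm
    · intro y
      obtain ⟨n, hn, h⟩ := ht x y
      exact ⟨⟨n, hn⟩, h⟩
  by_cases hall : ∀ n ∈ N, n ^ 2 = 1
  · right
    refine ⟨?_, hall, hcardN, ?_⟩
    · intro a ha b hb
      have h1 : a⁻¹ = a := by rw [inv_eq_iff_mul_eq_one, ← pow_two]; exact hall a ha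
      have h2 : b⁻¹ = b := by rw [inv_eq_iff_mul_eq_one, ← pow_two]; exact hall b hb
      have h3 : (a * b)⁻¹ = a * b := by rw [inv_eq_iff_mul_eq_one, ← pow_two]; exact hall _ (N.mul_mem ha hb)
      rw [← h3, mul_inv_rev, h1, h2]
    · haveI : Fact (Nat.Prime 2) := ⟨Nat.prime_two⟩
      haveI : Finite N := Nat.finite_of_card_ne_zero (by rw [← hcardN]; omega)
      have h3 : IsPGroup 2 N := fun n => ⟨1, by rw [pow_one]; exact Subtype.ext (hall n n.2)⟩
      obtain ⟨j, hj⟩ := IsPGroup.iff_card.1 h3
      exact ⟨j, by rw [hcardN, hj]⟩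
  · left
    push Not at hall
    obtain ⟨n, hn, hn2⟩ := hall
    have hn1 : n ≠ 1 := by rintro rfl; exact hn2 (one_pow 2)
    have hnx : n • x ≠ x := fun h => hn1 (hr n hn x h)
    have hnx' : n⁻¹ • x ≠ x := fun h => hnx (by rw [inv_smul_eq_iff] at h; exact h.symm)
    have hne : n • x ≠ n⁻¹ • x := by
      intro h
      apply hn2
      rw [eq_inv_smul_iff, ← mul_smul] at h
      rw [pow_two]
      exact hr _ (N.mul_mem hn hn) x h
    obtain ⟨B, hB⟩ : ∃ B : Set (SubMulAction.ofStabilizer G x), B = {y : SubMulAction.ofStabilizer G x | (y : X) = n • x ∨ (y : X) = n⁻¹ • x} := ⟨_, rfl⟩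
    have hconj : ∀ g : stabilizer G x, ∀ m : G, ((g : G) * m * (g : G)⁻¹) • x = (g : G) • m • x := by
      intro g m
      rw [mul_smul, mul_smul]
      have : (g : G)⁻¹ • x = x := by rw [inv_smul_eq_iff]; exact (g.2 : (g : G) • x = x).symm
      rw [this]
    have huniq : ∀ m ∈ N, ∀ m' ∈ N, m • x = m' • x → m = m' := by
      intro m hm m' hm' h
      have h3 := hr (m'⁻¹ * m) (N.mul_mem (N.inv_mem hm') hm) x (by rw [mul_smul, inv_smul_eq_iff]; exact h)
      exact (inv_mul_eq_one.1 h3).symm
    have key : ∀ g : stabilizer G x, ((g : G) • n • x = n • x → (g : G) • n⁻¹ • x = n⁻¹ • x) ∧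
        ((g : G) • n • x = n⁻¹ • x → (g : G) • n⁻¹ • x = n • x) ∧ ((g : G) • n⁻¹ • x = n • x → (g : G) • n • x = n⁻¹ • x) ∧
        ((g : G) • n⁻¹ • x = n⁻¹ • x → (g : G) • n • x = n • x) := by
      intro g
      have hc : ∀ m ∈ N, (g : G) * m * (g : G)⁻¹ ∈ N := fun m hm => (inferInstance : N.Normal).conj_mem m hm g
      have e1 : (g : G) * n⁻¹ * (g : G)⁻¹ = ((g : G) * n * (g : G)⁻¹)⁻¹ := by group
      refine ⟨fun h => ?_, fun h => ?_, fun h => ?_, fun h => ?_⟩
      · rw [← hconj] at h ⊢
        rw [e1, huniq _ (hc n hn) _ hn h]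
      · rw [← hconj] at h ⊢
        rw [e1, huniq _ (hc n hn) _ (N.inv_mem hn) h, inv_inv]
      · rw [← hconj] at h ⊢
        have h1 := huniq _ (hc _ (N.inv_mem hn)) _ hn h
        rw [e1] at h1
        rw [inv_eq_iff_eq_inv.1 h1]
      · rw [← hconj] at h ⊢
        have h1 := huniq _ (hc _ (N.inv_mem hn)) _ (N.inv_mem hn) h
        rw [e1] at h1
        rw [inv_injective h1]
    have hblock : IsBlock (stabilizer G x) B := by
      apply isBlock_of_forall
      intro g y hy hgy z hz
      rw [hB] at hy hgy hz ⊢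
      have hgy' : (g : G) • (y : X) = n • x ∨ (g : G) • (y : X) = n⁻¹ • x := hgy
      change (g : G) • (z : X) = n • x ∨ (g : G) • (z : X) = n⁻¹ • x
      obtain ⟨k1, k2, k3, k4⟩ := key g
      rcases hy with hy | hy <;> rcases hz with hz | hz <;> rw [hy] at hgy' <;> rw [hz] <;> tauto
    rcases hprim.isTrivialBlock_of_isBlock hblock with h3 | h3
    · exfalso
      have h4 := h3 (x := ⟨n • x, (SubMulAction.mem_ofStabilizer_iff G x).2 hnx⟩) (by rw [hB]; exact Or.inl rfl)
        (y := ⟨n⁻¹ • x, (SubMulAction.mem_ofStabilizer_iff G x).2 hnx'⟩) (by rw [hB]; exact Or.inr rfl)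
      exact hne (congrArg Subtype.val h4)
    · have h4 : (Set.univ : Set X) = {x, n • x, n⁻¹ • x} := by
        symm
        rw [Set.eq_univ_iff_forall]
        intro y
        by_cases hyx : y = x
        · exact Or.inl hyx
        · have h5 : (⟨y, (SubMulAction.mem_ofStabilizer_iff G x).2 hyx⟩ : SubMulAction.ofStabilizer G x) ∈ B := by rw [h3]; trivial
          rw [hB] at h5
          exact Or.inr h5
      rw [← Set.ncard_univ, h4, Set.ncard_insert_of_notMem, Set.ncard_pair hne]
      rw [Set.mem_insert_iff, Set.mem_singleton_iff, not_or]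
      exact ⟨hnx.symm, hnx'.symm⟩

theorem reg_triple_prim {G : Type u} {X : Type v} [Group G] [MulAction G X] [Finite X] (hX : 3 ≤ Nat.card X)
    (h3 : IsMultiplyPreprimitive G X 3) (N : Subgroup G) [N.Normal] (ht : ∀ a b : X, ∃ n ∈ N, n • a = b)
    (hr : ∀ n ∈ N, ∀ x : X, n • x = x → n = 1) : Nat.card X = 3 ∨ Nat.card X = 4 := by
  have hle : ((3 : ℕ) : ℕ∞) ≤ ENat.card X := by
    rw [ENat.card_eq_coe_natCard]; exact_mod_cast hX
  have h2 : IsMultiplyPreprimitive G X 2 := isMultiplyPreprimitive_of_le _ _ h3 (by norm_num) hle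
  rcases reg_double_prim (by omega) h2 N ht hr with h | ⟨hab, hexp, hcardN, -⟩
  · exact Or.inl h
  · by_cases h4 : Nat.card X = 3
    · exact Or.inl h4
    right
    haveI : Nontrivial X := Finite.one_lt_card_iff_nontrivial.1 (by omega)
    obtain ⟨x, y, hxy⟩ := exists_pair_ne X
    obtain ⟨n, hn, hnx⟩ := ht x y
    obtain ⟨z, hz⟩ : ∃ z, z ∉ ({x, y} : Set X) := by
      by_contra hno
      push Not at hno
      have h1 : (Set.univ : Set X).ncard ≤ ({x, y} : Set X).ncard := Set.ncard_le_ncard (fun z _ => hno z)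
      rw [Set.ncard_univ, Set.ncard_pair hxy] at h1
      omega
    obtain ⟨m, hm, hmz⟩ := ht x z
    rw [Set.mem_insert_iff, Set.mem_singleton_iff, not_or] at hz
    have huniq : ∀ m ∈ N, ∀ m' ∈ N, m • x = m' • x → m = m' := by
      intro m hm m' hm' h
      have h3 := hr (m'⁻¹ * m) (N.mul_mem (N.inv_mem hm') hm) x (by rw [mul_smul, inv_smul_eq_iff]; exact h)
      exact (inv_mul_eq_one.1 h3).symm
    have hnn : n * n = 1 := by rw [← pow_two]; exact hexp n hn
    have hn1 : n ≠ 1 := by rintro rfl; rw [one_smul] at hnx; exact hxy hnx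
    have hprim : IsPreprimitive (fixingSubgroup G ({x, y} : Set X)) (SubMulAction.ofFixingSubgroup G ({x, y} : Set X)) := by
      apply h3.isPreprimitive_ofFixingSubgroup
      rw [Set.encard_pair hxy]; norm_num
    have hnz : n • z ∉ ({x, y} : Set X) := by
      rw [Set.mem_insert_iff, Set.mem_singleton_iff, not_or]
      constructor
      · intro h
        apply hz.2
        rw [← hnx, ← h, ← mul_smul, hnn, one_smul]
      · intro h
        apply hz.1
        rw [← hnx] at h
        exact smul_left_cancel n h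
    have hnzz : n • z ≠ z := fun h => hn1 (hr n hn z h)
    have hgn : ∀ g : fixingSubgroup G ({x, y} : Set X), ∀ w : X, (g : G) • n • w = n • (g : G) • w := by
      intro g w
      have hgx : (g : G) • x = x := (mem_fixingSubgroup_iff G).1 g.2 x (Set.mem_insert _ _)
      have hgy : (g : G) • y = y := (mem_fixingSubgroup_iff G).1 g.2 y (Set.mem_insert_of_mem _ rfl)
      have h5 : (g : G) * n * (g : G)⁻¹ = n := by
        apply huniq _ ((inferInstance : N.Normal).conj_mem n hn g) _ hn
        rw [mul_smul, mul_smul]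
        have : (g : G)⁻¹ • x = x := by rw [inv_smul_eq_iff]; exact hgx.symm
        rw [this, hnx, hgy]
      rw [← mul_smul, ← mul_smul]
      congr 1
      exact mul_inv_eq_iff_eq_mul.1 h5
    obtain ⟨B, hB⟩ : ∃ B : Set (SubMulAction.ofFixingSubgroup G ({x, y} : Set X)), B = {w : SubMulAction.ofFixingSubgroup G ({x, y} : Set X) | (w : X) = z ∨ (w : X) = n • z} := ⟨_, rfl⟩
    have hblock : IsBlock (fixingSubgroup G ({x, y} : Set X)) B := by
      apply isBlock_of_forall
      intro g u hu hgu w hw
      rw [hB] at hu hgu hw ⊢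
      have hgu' : (g : G) • (u : X) = z ∨ (g : G) • (u : X) = n • z := hgu
      change (g : G) • (w : X) = z ∨ (g : G) • (w : X) = n • z
      have e1 : ∀ w' : X, n • n • w' = w' := fun w' => by rw [← mul_smul, hnn, one_smul]
      have h5 : (g : G) • z = z ∨ (g : G) • z = n • z := by
        rcases hu with hu | hu
        · rw [hu] at hgu'; exact hgu'
        · rw [hu, hgn] at hgu'
          rcases hgu' with h6 | h6
          · right
            have h7 := e1 ((g : G) • z)
            rw [h6] at h7
            exact h7.symm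
          · left; exact smul_left_cancel n h6
      rcases hw with hw | hw
      · rw [hw]; exact h5
      · rw [hw, hgn]
        rcases h5 with h6 | h6
        · right; rw [h6]
        · left; rw [h6, e1]
    have hz' : z ∉ ({x, y} : Set X) := by rw [Set.mem_insert_iff, Set.mem_singleton_iff, not_or]; exact hz
    rcases hprim.isTrivialBlock_of_isBlock hblock with h5 | h5
    · exfalso
      have h6 := h5 (x := ⟨z, hz'⟩) (by rw [hB]; exact Or.inl rfl) (y := ⟨n • z, hnz⟩) (by rw [hB]; exact Or.inr rfl)
      exact hnzz (congrArg Subtype.val h6).symm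
    · have h6 : (Set.univ : Set X) = {x, y, z, n • z} := by
        symm
        rw [Set.eq_univ_iff_forall]
        intro w
        by_cases hw : w ∈ ({x, y} : Set X)
        · rcases hw with hw | hw
          · exact Or.inl hw
          · exact Or.inr (Or.inl hw)
        · have h7 : (⟨w, hw⟩ : SubMulAction.ofFixingSubgroup G ({x, y} : Set X)) ∈ B := by rw [h5]; trivial
          rw [hB] at h7
          exact Or.inr (Or.inr h7)
      rw [Set.mem_insert_iff, Set.mem_singleton_iff, not_or] at hnz
      rw [← Set.ncard_univ, h6, Set.ncard_insert_of_notMem, Set.ncard_insert_of_notMem, Set.ncard_pair hnzz.symm]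
      · rw [Set.mem_insert_iff, Set.mem_singleton_iff, not_or]
        exact ⟨Ne.symm hz.2, Ne.symm hnz.2⟩
      · rw [Set.mem_insert_iff, Set.mem_insert_iff, Set.mem_singleton_iff, not_or, not_or]
        exact ⟨hxy, Ne.symm hz.1, Ne.symm hnz.1⟩

/-- normal subgroups of multiply primitive groups -/
theorem normal_multi (k : ℕ) : ∀ (G : Type u) [Group G] (X : Type v) [MulAction G X] [Finite X] [Finite G],
    (∀ g : G, (∀ x : X, g • x = x) → g = 1) → 1 ≤ k → k + 2 ≤ Nat.card X → IsMultiplyPreprimitive G X k →
    ∀ (N : Subgroup G) [N.Normal], (∃ a : X, ∃ n ∈ N, n ≠ 1 ∧ n • a = a) → IsMultiplyPretransitive N X k := by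
  induction k with
  | zero => intro G _ X _ _ _ _ h; omega
  | succ k ih =>
    intro G _ X _ _ _ hfaith _ hcard hG N _ hne
    have hle : ((k + 1 : ℕ) : ℕ∞) ≤ ENat.card X := by
      rw [ENat.card_eq_coe_natCard]; exact_mod_cast (by omega : k + 1 ≤ Nat.card X)
    have h1 : IsMultiplyPreprimitive G X 1 := isMultiplyPreprimitive_of_le _ _ hG (by omega) hle
    rw [is_one_preprimitive_iff] at h1
    obtain ⟨a, n, hn, hn1, hna⟩ := hne
    have hNt : IsPretransitive N X := by
      apply IsQuasiPreprimitive.isPretransitive_of_normal (G := G)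
      intro hfp
      apply hn1
      apply hfaith
      intro x
      have : x ∈ fixedPoints N X := by rw [hfp]; trivial
      exact this ⟨n, hn⟩
    by_cases hk : k = 0
    · subst hk
      rw [is_one_pretransitive_iff]
      exact hNt
    · have ht : ∀ a b : X, ∃ n ∈ N, n • a = b := by
        intro a b
        obtain ⟨m, hm⟩ := hNt.exists_smul_eq a b
        exact ⟨m, m.2, hm⟩
      haveI : IsPretransitive G X := h1.toIsPretransitive
      have hGa : IsMultiplyPreprimitive (stabilizer G a) (SubMulAction.ofStabilizer G a) k :=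
        isMultiplyPreprimitive_ofStabilizer _ _
      have hfaitha : ∀ g : stabilizer G a, (∀ x : SubMulAction.ofStabilizer G a, g • x = x) → g = 1 := by
        intro g hg
        apply Subtype.ext
        apply hfaith
        intro x
        by_cases hx : x = a
        · rw [hx]; exact g.2
        · exact congrArg Subtype.val (hg ⟨x, (SubMulAction.mem_ofStabilizer_iff G a).2 hx⟩)
      have hcarda : Nat.card (SubMulAction.ofStabilizer G a) = Nat.card X - 1 := SubMulAction.nat_card_ofStabilizer_eq _ _
      by_cases hcase : ∃ b : SubMulAction.ofStabilizer G a, ∃ m ∈ N.subgroupOf (stabilizer G a), m ≠ 1 ∧ m • b = b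
      · apply mp_succ_of N ht a
        exact ih (stabilizer G a) (SubMulAction.ofStabilizer G a) hfaitha (by omega) (by rw [hcarda]; omega) hGa
          (N.subgroupOf (stabilizer G a)) hcase
      · push Not at hcase
        -- N_a is transitive on the rest
        have hle' : ((k : ℕ) : ℕ∞) ≤ ENat.card (SubMulAction.ofStabilizer G a) := by
          rw [ENat.card_eq_coe_natCard, hcarda]; exact_mod_cast (by omega : k ≤ Nat.card X - 1)
        have h1a : IsMultiplyPreprimitive (stabilizer G a) (SubMulAction.ofStabilizer G a) 1 :=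
          isMultiplyPreprimitive_of_le _ _ hGa (by omega) hle'
        rw [is_one_preprimitive_iff] at h1a
        have hNat : IsPretransitive (N.subgroupOf (stabilizer G a)) (SubMulAction.ofStabilizer G a) := by
          apply IsQuasiPreprimitive.isPretransitive_of_normal (G := stabilizer G a)
          intro hfp
          apply hn1
          have h2 : (⟨n, hna⟩ : stabilizer G a) = 1 := by
            apply hfaitha
            intro x
            have : x ∈ fixedPoints (N.subgroupOf (stabilizer G a)) (SubMulAction.ofStabilizer G a) := by rw [hfp]; trivial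
            exact this ⟨⟨n, hna⟩, hn⟩
          exact congrArg Subtype.val h2
        have hN2 : IsMultiplyPretransitive N X (1 + 1) := by
          apply mp_succ_of N ht a
          rw [is_one_pretransitive_iff]
          exact hNat
        by_cases hk1 : k = 1
        · subst hk1; exact hN2
        · exfalso
          have h3 : IsMultiplyPreprimitive G X 3 := isMultiplyPreprimitive_of_le _ _ hG (by omega) hle
          obtain ⟨p, j, hp, hj, hc, -, A, hA, hAn, hAc, hAp, hAt, hAcard⟩ := sharp2 (H := N) (X := X) (two_trans_iff.1 hN2) (by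
            intro b c hbc h hhb hhc
            obtain ⟨m, hm, hmb⟩ := ht b a
            have h4 : m • c ≠ a := by
              intro h5
              rw [← hmb] at h5
              exact hbc (smul_left_cancel m h5).symm
            have h5 : m * h * m⁻¹ ∈ stabilizer G a := by
              rw [mem_stabilizer_iff, mul_smul, mul_smul]
              have : m⁻¹ • a = b := by rw [inv_smul_eq_iff]; exact hmb.symm
              rw [this]
              change m • (h : G) • b = a
              rw [show (h : G) • b = b from hhb, hmb]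
            by_contra hh1
            have h6 : (⟨m * h * m⁻¹, h5⟩ : stabilizer G a) ≠ 1 := by
              intro h7
              apply hh1
              have h8 : m * (h : G) * m⁻¹ = 1 := congrArg Subtype.val h7
              apply Subtype.ext
              have h9 : (h : G) = m⁻¹ * (m * (h : G) * m⁻¹) * m := by group
              rw [h9, h8]; group
              rfl
            apply hcase ⟨m • c, (SubMulAction.mem_ofStabilizer_iff G a).2 h4⟩ ⟨m * h * m⁻¹, h5⟩
              (N.mul_mem (N.mul_mem hm h.2) (N.inv_mem hm)) h6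
            apply Subtype.ext
            change (m * (h : G) * m⁻¹) • m • c = m • c
            rw [mul_smul, mul_smul, inv_smul_smul]
            rw [show (h : G) • c = c from hhc]) (by omega)
          have hAG : (A.map N.subtype).Normal := by
            refine ⟨?_⟩
            rintro _ ⟨x, hx, rfl⟩ g
            refine ⟨⟨g * x * g⁻¹, (inferInstance : N.Normal).conj_mem x x.2 g⟩, ?_, rfl⟩
            rw [SetLike.mem_coe, hA] at hx ⊢
            rcases hx with rfl | hx
            · left
              apply Subtype.ext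
              change g * 1 * g⁻¹ = 1
              rw [mul_one, mul_inv_cancel]
            · right
              intro b hb
              apply hx (g⁻¹ • b)
              change (g * (x : G) * g⁻¹) • b = b at hb
              rw [mul_smul, mul_smul] at hb
              exact (eq_inv_smul_iff.2 hb)
          have h4 := reg_triple_prim (G := G) (X := X) (by omega) h3 (A.map N.subtype) (by
            intro b c
            obtain ⟨g, hg, hgb⟩ := hAt b c
            exact ⟨g, ⟨g, hg, rfl⟩, hgb⟩) (by
            rintro _ ⟨x, hx, rfl⟩ b hb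
            rw [SetLike.mem_coe, hA] at hx
            rcases hx with rfl | hx
            · rfl
            · exact absurd hb (hx b))
          omega

theorem faithful_perm {α : Type u} (G : Subgroup (Perm α)) : ∀ g : G, (∀ x : α, g • x = x) → g = 1 := by
  intro g hg
  apply Subtype.ext
  ext x
  exact hg x

theorem normal_multi_perm {α : Type u} [Fintype α] (G : Subgroup (Perm α)) {k : ℕ} (hk : 1 ≤ k)
    (hkn : k ≤ Fintype.card α) (hG : IsMultiplyPreprimitive G α k) (htop : G ≠ ⊤) (H : Subgroup G) [H.Normal]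
    (hnr : ∃ a : α, stabilizer H a ≠ ⊥) : IsMultiplyPretransitive H α k := by
  obtain ⟨a, ha⟩ := hnr
  obtain ⟨h, hh⟩ := Subgroup.ne_bot_iff_exists_ne_one.1 ha
  by_cases hk2 : k + 2 ≤ Nat.card α
  · apply normal_multi k G α (faithful_perm G) hk hk2 hG H
    refine ⟨a, (h : H), (h : H).2, ?_, h.2⟩
    intro h1
    apply hh
    exact Subtype.ext (Subtype.ext h1)
  · exfalso
    apply htop
    apply Perm.eq_top_of_isMultiplyPretransitive
    haveI := hG.isMultiplyPretransitive
    rw [Nat.card_eq_fintype_card] at hk2 ⊢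
    exact isMultiplyPretransitive_of_le (n := k) (by omega) (by rw [Nat.card_eq_fintype_card]; exact hkn)

theorem jordan_normal {α : Type u} [Fintype α] (G : Subgroup (Perm α)) {k : ℕ} (hk : 1 < k) (hdeg : k < Fintype.card α)
    (hG : IsMultiplyPretransitive G α k) (N : Subgroup G) [N.Normal] (hN : N ≠ ⊥) :
    IsMultiplyPretransitive N α (k - 1) ∨ (k = 3 ∧ IsMulCommutative N ∧ ∀ n ∈ N, n ^ 2 = 1) := by
  obtain ⟨j, rfl⟩ : ∃ j, k = j + 1 := ⟨k - 1, by omega⟩
  rw [Nat.add_sub_cancel]
  have hle : ((j + 1 : ℕ) : ℕ∞) ≤ ENat.card α := by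
    rw [ENat.card_eq_coe_natCard, Nat.card_eq_fintype_card]; exact_mod_cast hdeg.le
  have hle' : ((j : ℕ) : ℕ∞) ≤ ENat.card α := by
    rw [ENat.card_eq_coe_natCard, Nat.card_eq_fintype_card]; exact_mod_cast (by omega : j ≤ Fintype.card α)
  haveI : IsMultiplyPretransitive G α (Nat.succ j) := hG
  have hprim : IsMultiplyPreprimitive G α j := isMultiplyPreprimitive_of_isMultiplyPretransitive_succ _ _ hle
  by_cases hcase : ∃ a : α, ∃ n ∈ N, n ≠ 1 ∧ n • a = a
  · left
    exact normal_multi j G α (faithful_perm G) (by omega) (by rw [Nat.card_eq_fintype_card]; omega) hprim N hcase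
  · push Not at hcase
    have h1 : IsMultiplyPreprimitive G α 1 := isMultiplyPreprimitive_of_le _ _ hprim (by omega) hle'
    rw [is_one_preprimitive_iff] at h1
    have hNt : IsPretransitive N α := by
      apply IsQuasiPreprimitive.isPretransitive_of_normal (G := G)
      intro hfp
      apply hN
      rw [Subgroup.eq_bot_iff_forall]
      intro n hn
      apply faithful_perm
      intro x
      have : x ∈ fixedPoints N α := by rw [hfp]; trivial
      exact this ⟨n, hn⟩
    have ht : ∀ a b : α, ∃ n ∈ N, n • a = b := by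
      intro a b
      obtain ⟨m, hm⟩ := hNt.exists_smul_eq a b
      exact ⟨m, m.2, hm⟩
    have hr : ∀ n ∈ N, ∀ x : α, n • x = x → n = 1 := by
      intro n hn x hx
      by_contra h
      exact hcase x n hn h hx
    by_cases hj1 : j = 1
    · left
      subst hj1
      rw [is_one_pretransitive_iff]
      exact hNt
    · by_cases hj2 : j = 2
      · right
        subst hj2
        rcases reg_double_prim (by rw [Nat.card_eq_fintype_card]; omega) hprim N ht hr with h2 | ⟨h2, h3, -⟩
        · rw [Nat.card_eq_fintype_card] at h2; omega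
        · exact ⟨rfl, ⟨⟨fun x y => Subtype.ext (h2 x x.2 y y.2)⟩⟩, h3⟩
      · exfalso
        have h3 : IsMultiplyPreprimitive G α 3 := isMultiplyPreprimitive_of_le _ _ hprim (by omega) hle'
        have h4 := reg_triple_prim (by rw [Nat.card_eq_fintype_card]; omega) h3 N ht hr
        rw [Nat.card_eq_fintype_card] at h4
        omega

end CfsgH2
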