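import Mathlib
import Cfsg.Agent.H1.FrobThm
import Cfsg.Agent.H1.MinNormal
import Cfsg.Agent.H2.CycCount
import Cfsg.Agent.H2.PermE
import Cfsg.Agent.H2.MinNorm
import Cfsg.Agent.H2.ClassSize

set_option autoImplicit false

/-! # Burnside's theorem on doubly transitive groups (helper2 library) -/

namespace CfsgH2

universe u v

open Subgroup

section
variable {G : Type u} {X : Type v} [Group G] [MulAction G X] [Finite G] [Finite X]

/-- blocks for a subgroup -/
def Blk (N : Subgroup G) (B : Set X) : Prop := ∀ n ∈ N, ∀ x ∈ B, n • x ∈ B → ∀ y ∈ B, n • y ∈ B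

theorem burn_reg (h2 : ∀ a b c d : X, a ≠ b → c ≠ d → ∃ g : G, g • a = c ∧ g • b = d)
    (N : Subgroup G) [hNn : N.Normal] (hN : N ≠ ⊥) (hmin : ∀ M : Subgroup G, M.Normal → M ≤ N → M = ⊥ ∨ M = N)
    (hr : ∀ n ∈ N, ∀ a : X, n • a = a → n = 1) (a : X) :
    (∀ x ∈ N, ∀ y ∈ N, x * y = y * x) ∧ ∃ p : ℕ, p.Prime ∧ ∀ n ∈ N, n ^ p = 1 := by
  have hNc : Nat.card N ≠ 1 := fun h => hN (Subgroup.card_eq_one.1 h)
  obtain ⟨p, hp, hpN⟩ := Nat.exists_prime_and_dvd hNc
  haveI : Fact p.Prime := ⟨hp⟩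
  obtain ⟨u, hu⟩ := exists_prime_orderOf_dvd_card' (G := N) p hpN
  have hup : (u : G) ^ p = 1 := by
    have h1 := pow_orderOf_eq_one u
    rw [hu] at h1
    exact congrArg Subtype.val h1
  have hu1 : (u : G) ≠ 1 := by
    intro h
    have h1 : u = 1 := Subtype.ext h
    rw [h1, orderOf_one] at hu
    exact hp.ne_one hu.symm
  have hexp : ∀ n ∈ N, n ^ p = 1 := by
    intro v hv
    by_cases hv1 : v = 1
    · rw [hv1, one_pow]
    obtain ⟨g, hg1, hg2⟩ := h2 a ((u : G) • a) a (v • a) (fun h => hu1 (hr u u.2 a h.symm)) (fun h => hv1 (hr v hv a h.symm))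
    have h3 : v = g * u * g⁻¹ := by
      have h4 : v⁻¹ * (g * u * g⁻¹) = 1 := by
        apply hr _ (mul_mem (inv_mem hv) (hNn.conj_mem _ u.2 g)) a
        have h5 : g⁻¹ • a = a := by rw [inv_smul_eq_iff, hg1]
        rw [mul_smul, mul_smul, mul_smul, h5, hg2, inv_smul_smul]
      exact inv_mul_eq_one.1 h4
    rw [h3, conj_pow, hup, mul_one, mul_inv_cancel]
  refine ⟨?_, p, hp, hexp⟩
  have hNp : IsPGroup p N := CfsgH1.isPGroup_of_forall_pow_eq_one hexp
  haveI : Nontrivial N := (Subgroup.nontrivial_iff_ne_bot _).2 hN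
  haveI := hNp.center_nontrivial
  have h3 : ((center N).map N.subtype).Normal := ConjAct.normal_of_characteristic_of_normal
  rcases hmin _ h3 (Subgroup.map_subtype_le _) with h | h
  · exfalso
    have h4 := (Subgroup.map_eq_bot_iff_of_injective _ N.subtype_injective).1 h
    exact (Subgroup.nontrivial_iff_ne_bot _).1 this h4
  · intro x hx y hy
    rw [← h] at hx
    obtain ⟨x', hx', rfl⟩ := hx
    exact (congrArg Subtype.val (mem_center_iff.1 hx' ⟨y, hy⟩)).symm

omit [Finite G] in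
theorem burn_lines (hfaith : ∀ g : G, (∀ x : X, g • x = x) → g = 1)
    (h2 : ∀ a b c d : X, a ≠ b → c ≠ d → ∃ g : G, g • a = c ∧ g • b = d)
    (N : Subgroup G) [hNn : N.Normal] (hblk : ∃ B : Set X, Blk N B ∧ 1 < B.ncard ∧ B ≠ Set.univ) :
    ∀ n ∈ N, ∀ a b : X, a ≠ b → n • a = a → n • b = b → n = 1 := by
  classical
  -- a smallest block
  obtain ⟨B, hB, hBc, hBmin⟩ : ∃ B : Set X, (Blk N B ∧ 1 < B.ncard) ∧ B ≠ Set.univ ∧
      ∀ C : Set X, Blk N C → 1 < C.ncard → B.ncard ≤ C.ncard := by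
    obtain ⟨B0, hB0, hB01, hB02⟩ := hblk
    have hex : ∃ k : ℕ, ∃ B : Set X, Blk N B ∧ 1 < B.ncard ∧ B.ncard = k := ⟨_, B0, hB0, hB01, rfl⟩
    obtain ⟨B, hB, hB1, hBk⟩ := Nat.find_spec hex
    have hmin : ∀ C : Set X, Blk N C → 1 < C.ncard → B.ncard ≤ C.ncard := by
      intro C hC hC1
      rw [hBk]
      exact Nat.find_min' hex ⟨C, hC, hC1, rfl⟩
    refine ⟨B, ⟨hB, hB1⟩, ?_, hmin⟩
    rintro rfl
    have h1 := hmin B0 hB0 hB01
    apply hB02
    exact Set.eq_of_subset_of_ncard_le (Set.subset_univ _) h1 (Set.toFinite _)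
  -- lines
  let Ln : Set X → Prop := fun C => ∃ g : G, C = (fun x => g • x) '' B
  have hLb : ∀ C, Ln C → Blk N C := by
    rintro _ ⟨g, rfl⟩ n hn _ ⟨x, hx, rfl⟩ ⟨x', hx', hxx⟩ _ ⟨y, hy, rfl⟩
    have h1 : (g⁻¹ * n * g) • x ∈ B := by
      have h3 : (g⁻¹ * n * g) • x = x' := by
        rw [mul_smul, mul_smul, inv_smul_eq_iff]; exact hxx.symm
      rw [h3]; exact hx'
    have hn' : g⁻¹ * n * g ∈ N := by
      have := hNn.conj_mem n hn g⁻¹
      rwa [inv_inv] at this
    have h3 := hB.1 _ hn' x hx h1 y hy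
    refine ⟨_, h3, ?_⟩
    show g • (g⁻¹ * n * g) • y = n • g • y
    rw [← mul_smul, ← mul_smul]
    congr 1; group
  have hLc : ∀ C, Ln C → C.ncard = B.ncard := by
    rintro _ ⟨g, rfl⟩
    exact Set.ncard_image_of_injective _ (MulAction.injective g)
  have hLex : ∀ x y : X, x ≠ y → ∃ C, Ln C ∧ x ∈ C ∧ y ∈ C := by
    intro x y hxy
    obtain ⟨b, hb, c, hc, hbc⟩ := (Set.one_lt_ncard (Set.toFinite B)).1 hB.2
    obtain ⟨g, hg1, hg2⟩ := h2 b c x y hbc hxy
    exact ⟨_, ⟨g, rfl⟩, ⟨b, hb, hg1⟩, ⟨c, hc, hg2⟩⟩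
  have hLu : ∀ C C', Ln C → Ln C' → ∀ x y : X, x ≠ y → x ∈ C → y ∈ C → x ∈ C' → y ∈ C' → C = C' := by
    intro C C' hC hC' x y hxy hx hy hx' hy'
    have h1 : Blk N (C ∩ C') := fun n hn z hz hnz w hw =>
      ⟨hLb C hC n hn z hz.1 hnz.1 w hw.1, hLb C' hC' n hn z hz.2 hnz.2 w hw.2⟩
    have h3 : 1 < (C ∩ C').ncard := (Set.one_lt_ncard (Set.toFinite _)).2 ⟨x, ⟨hx, hx'⟩, y, ⟨hy, hy'⟩, hxy⟩
    have h4 := hBmin _ h1 h3
    have h5 : C ∩ C' = C := Set.eq_of_subset_of_ncard_le Set.inter_subset_left (by rw [hLc C hC]; exact h4) (Set.toFinite _)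
    have h6 : C ∩ C' = C' := Set.eq_of_subset_of_ncard_le Set.inter_subset_right (by rw [hLc C' hC']; exact h4) (Set.toFinite _)
    rw [← h5, h6]
  have hoff : ∀ C, Ln C → ∃ e, e ∉ C := by
    intro C hC
    by_contra hcon
    push Not at hcon
    apply hBc
    apply Set.eq_of_subset_of_ncard_le (Set.subset_univ _) _ (Set.toFinite _)
    rw [← hLc C hC, Set.eq_univ_of_forall hcon]
  -- elements fixing two points
  have key : ∀ n ∈ N, ∀ a b : X, a ≠ b → n • a = a → n • b = b → ∀ C, Ln C → a ∈ C → b ∈ C → ∀ c, c ∉ C → n • c = c := by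
    intro n hn a b hab hna hnb C hC haC hbC c hcC
    have hac : a ≠ c := fun h => hcC (h ▸ haC)
    have hbc : b ≠ c := fun h => hcC (h ▸ hbC)
    obtain ⟨C1, hC1, h1a, h1c⟩ := hLex a c hac
    obtain ⟨C2, hC2, h2b, h2c⟩ := hLex b c hbc
    have h3 : n • c ∈ C1 := hLb C1 hC1 n hn a h1a (by rw [hna]; exact h1a) c h1c
    have h4 : n • c ∈ C2 := hLb C2 hC2 n hn b h2b (by rw [hnb]; exact h2b) c h2c
    by_contra hne
    have h5 : C1 = C2 := hLu C1 C2 hC1 hC2 c (n • c) (Ne.symm hne) h1c h3 h2c h4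
    rw [← h5] at h2b
    have h6 := hLu C C1 hC hC1 a b hab haC hbC h1a h2b
    rw [h6] at hcC
    exact hcC h1c
  intro n hn a b hab hna hnb
  apply hfaith
  intro c
  obtain ⟨C, hC, haC, hbC⟩ := hLex a b hab
  by_cases hcC : c ∈ C
  · by_cases hca : c = a
    · rw [hca]; exact hna
    obtain ⟨e, he⟩ := hoff C hC
    have hne := key n hn a b hab hna hnb C hC haC hbC e he
    have hae : a ≠ e := fun h => he (h ▸ haC)
    obtain ⟨C', hC', haC', heC'⟩ := hLex a e hae
    apply key n hn a e hae hna hne C' hC' haC' heC'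
    intro hcC'
    have h6 := hLu C C' hC hC' a c (Ne.symm hca) haC hcC haC' hcC'
    rw [h6] at he
    exact he heC'
  · exact key n hn a b hab hna hnb C hC haC hbC c hcC

open scoped Pointwise in
theorem burn_prim (hfaith : ∀ g : G, (∀ x : X, g • x = x) → g = 1)
    (h2 : ∀ a b c d : X, a ≠ b → c ≠ d → ∃ g : G, g • a = c ∧ g • b = d)
    (N : Subgroup G) [hNn : N.Normal] (hmin : ∀ M : Subgroup G, M.Normal → M ≤ N → M = ⊥ ∨ M = N)
    (ht : ∀ a b : X, ∃ n ∈ N, n • a = b) (a : X) (hnr : ∃ n ∈ N, n ≠ 1 ∧ n • a = a) (hX : ∃ b : X, b ≠ a) :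
    ∀ B : Set X, Blk N B → B.Subsingleton ∨ B = Set.univ := by
  by_contra hcon
  push Not at hcon
  obtain ⟨B, hB, hB1, hB2⟩ := hcon
  have hfix2 := burn_lines hfaith h2 N ⟨B, hB, by
    obtain ⟨x, hx, y, hy, hxy⟩ := hB1
    exact (Set.one_lt_ncard (Set.toFinite _)).2 ⟨x, hx, y, hy, hxy⟩, hB2⟩
  let H : Subgroup N := MulAction.stabilizer N a
  have hTI : ∀ g : N, g ∉ H → H ⊓ (MulAut.conj g • H) = ⊥ := by
    intro g hg
    have h1 : MulAut.conj g • H = MulAction.stabilizer N (g • a) := by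
      rw [MulAction.stabilizer_smul_eq_stabilizer_map_conj]; rfl
    rw [h1, eq_bot_iff]
    rintro n ⟨hn1, hn2⟩
    rw [mem_bot]
    apply Subtype.ext
    exact hfix2 n n.2 a ((g : G) • a) (fun h => hg h.symm) hn1 hn2
  obtain ⟨K, hK, hKn, hKc⟩ := CfsgH1.frobenius_kernel hTI
  have hKmem : ∀ x : N, x ∈ K ↔ x = 1 ∨ ∀ y : X, (x : G) • y ≠ y := by
    intro x
    rw [← SetLike.mem_coe, hK]
    show (x = 1 ∨ ∀ g : N, x ∉ MulAut.conj g • H) ↔ _
    apply or_congr_right
    constructor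
    · intro h y hy
      obtain ⟨n, hn, hny⟩ := ht a y
      apply h ⟨n, hn⟩
      have h1 : MulAut.conj (⟨n, hn⟩ : N) • H = MulAction.stabilizer N ((⟨n, hn⟩ : N) • a) := by
        rw [MulAction.stabilizer_smul_eq_stabilizer_map_conj]; rfl
      rw [h1]
      show (x : G) • (n • a) = n • a
      rw [hny, hy]
    · intro h g hg
      have h1 : MulAut.conj g • H = MulAction.stabilizer N (g • a) := by
        rw [MulAction.stabilizer_smul_eq_stabilizer_map_conj]; rfl
      rw [h1] at hg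
      exact h ((g : G) • a) hg
  have hKn' : (K.map N.subtype).Normal := by
    constructor
    rintro _ ⟨x, hx, rfl⟩ g
    refine ⟨⟨g * x * g⁻¹, hNn.conj_mem _ x.2 g⟩, ?_, rfl⟩
    rw [SetLike.mem_coe, hKmem] at hx ⊢
    rcases hx with hx | hx
    · left
      apply Subtype.ext
      show g * (x : G) * g⁻¹ = 1
      rw [hx]; simp
    · right
      intro y hy
      have hy' : (g * (x : G) * g⁻¹) • y = y := hy
      apply hx (g⁻¹ • y)
      rw [mul_smul, mul_smul] at hy'
      exact (eq_inv_smul_iff).2 hy'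
  rcases hmin _ hKn' (Subgroup.map_subtype_le _) with h | h
  · -- trivial kernel
    have h3 := (Subgroup.map_eq_bot_iff_of_injective _ N.subtype_injective).1 h
    have h4 := hKc.card_mul_card
    rw [h3, Subgroup.card_bot, one_mul] at h4
    have h5 : H = ⊤ := Subgroup.eq_top_of_card_eq _ h4
    obtain ⟨b, hb⟩ := hX
    obtain ⟨n, hn, hnb⟩ := ht a b
    have h6 : (⟨n, hn⟩ : N) ∈ H := by rw [h5]; trivial
    apply hb
    rw [← hnb]; exact h6
  · have h3 : K = ⊤ := by
      rw [Subgroup.eq_top_iff']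
      intro x
      have h4 : (x : G) ∈ K.map N.subtype := by rw [h]; exact x.2
      obtain ⟨y, hy, hyx⟩ := h4
      have h5 : y = x := Subtype.ext hyx
      rw [← h5]; exact hy
    obtain ⟨n, hn, hn1, hna⟩ := hnr
    have h4 : (⟨n, hn⟩ : N) ∈ K := by rw [h3]; trivial
    rw [hKmem] at h4
    rcases h4 with h4 | h4
    · exact hn1 (congrArg Subtype.val h4)
    · exact h4 a hna

/-- all non-central... all non-trivial centralizers of the same order -/
theorem comm_of_centralizer_const {T : Type*} [Group T] [Finite T] (c : ℕ)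
    (h : ∀ u : T, u ≠ 1 → Nat.card (centralizer ({u} : Set T)) = c) : ∀ x y : T, x * y = y * x := by
  by_cases hT : ∃ u : T, u ≠ 1
  swap
  · push Not at hT
    intro x y; rw [hT x, hT y]
  obtain ⟨u0, hu0⟩ := hT
  have hs : ∀ u : T, u ≠ 1 → csz u = csz u0 := by
    intro u hu
    have h1 := (centralizer ({u} : Set T)).card_mul_index
    have h2 := (centralizer ({u0} : Set T)).card_mul_index
    rw [h u hu] at h1
    rw [h u0 hu0] at h2
    have hc : 0 < c := by rw [← h u0 hu0]; exact Nat.card_pos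
    exact Nat.eq_of_mul_eq_mul_left hc (h1.trans h2.symm)
  have h1 : csz u0 ∣ Nat.card {u : T // u ≠ 1} := by
    apply dvd_card_of_fibers (fun u : {u : T // u ≠ 1} => ConjClasses.mk (u : T))
    rintro ⟨u, hu⟩
    rw [← hs u hu, csz_eq_card]
    apply dvd_of_eq
    refine Nat.card_eq_of_bijective (fun y => ⟨⟨(y : T), ?_⟩, ?_⟩) ⟨?_, ?_⟩
    · intro hy
      have h3 := y.2
      rw [hy, isConj_comm, isConj_one_right] at h3
      exact hu h3
    · exact (ConjClasses.mk_eq_mk_iff_isConj.2 y.2).symm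
    · intro y z hyz
      exact Subtype.ext (congrArg (fun w => ((w : {a' : {u : T // u ≠ 1} // _}) : T)) hyz)
    · rintro ⟨⟨y, hy⟩, hyu⟩
      exact ⟨⟨y, (ConjClasses.mk_eq_mk_iff_isConj.1 hyu).symm⟩, rfl⟩
  have h2 : csz u0 ∣ Nat.card T := index_dvd_card _
  have h3 : Nat.card {u : T // u ≠ 1} + 1 = Nat.card T := by
    have h4 : Nat.card {u : T // u ≠ 1} = (({1} : Set T)ᶜ).ncard := rfl
    rw [h4]
    have h5 := Set.ncard_add_ncard_compl ({1} : Set T)
    rw [Set.ncard_singleton] at h5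
    omega
  have h4 : csz u0 ∣ 1 := by
    rw [← h3] at h2
    exact (Nat.dvd_add_right h1).1 h2
  intro x y
  by_cases hx : x = 1
  · rw [hx]; simp
  have h5 : csz x = 1 := by rw [hs x hx]; exact Nat.dvd_one.1 h4
  have h6 : centralizer ({x} : Set T) = ⊤ := Subgroup.index_eq_one.1 h5
  have h7 : y ∈ centralizer ({x} : Set T) := by rw [h6]; trivial
  exact mem_centralizer_singleton_iff'.1 h7

theorem burn_simple (hfaith : ∀ g : G, (∀ x : X, g • x = x) → g = 1)
    (h2 : ∀ a b c d : X, a ≠ b → c ≠ d → ∃ g : G, g • a = c ∧ g • b = d)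
    (N : Subgroup G) [hNn : N.Normal] (hN : N ≠ ⊥) (hmin : ∀ M : Subgroup G, M.Normal → M ≤ N → M = ⊥ ∨ M = N)
    (ht : ∀ a b : X, ∃ n ∈ N, n • a = b) (a : X)
    (hprim : ∀ B : Set X, Blk N B → B.Subsingleton ∨ B = Set.univ) : IsSimpleGroup N := by
  haveI : Nontrivial N := (Subgroup.nontrivial_iff_ne_bot _).2 hN
  refine ⟨fun T1 hT1 => ?_⟩
  by_contra hcon
  push Not at hcon
  -- normal subgroups of `N` are transitive
  have htr : ∀ T : Subgroup G, N ≤ normalizer (T : Set G) → T ≠ ⊥ → ∀ x y : X, ∃ t ∈ T, t • x = y := by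
    intro T hT hTne x
    have hconj : ∀ n ∈ N, ∀ t ∈ T, n * t * n⁻¹ ∈ T := fun n hn t ht' => (mem_normalizer_iff.1 (hT hn) t).1 ht'
    have hb : Blk N {y | ∃ t ∈ T, t • x = y} := by
      rintro n hn _ ⟨t1, ht1, rfl⟩ ⟨t2, ht2, ht2'⟩ _ ⟨t3, ht3, rfl⟩
      refine ⟨(n * t3 * n⁻¹) * ((n * t1 * n⁻¹)⁻¹ * t2), mul_mem (hconj n hn t3 ht3) (mul_mem (inv_mem (hconj n hn t1 ht1)) ht2), ?_⟩
      rw [mul_smul, mul_smul (n * t1 * n⁻¹)⁻¹, ht2', ← mul_smul, ← mul_smul, ← mul_smul, ← mul_smul]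
      congr 1; group
    rcases hprim _ hb with h | h
    · exfalso
      apply hTne
      rw [eq_bot_iff_forall]
      intro t ht'
      apply hfaith
      intro y
      obtain ⟨n, hn, rfl⟩ := ht x y
      have h3 : n⁻¹ * t * n ∈ T := by
        have := hconj n⁻¹ (inv_mem hn) t ht'
        rwa [inv_inv] at this
      have h4 : (n⁻¹ * t * n) • x = x := h ⟨_, h3, rfl⟩ ⟨1, one_mem _, one_smul _ _⟩
      rw [mul_smul, mul_smul, inv_smul_eq_iff] at h4
      exact h4
    · intro y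
      have h3 : y ∈ {y | ∃ t ∈ T, t • x = y} := by rw [h]; trivial
      exact h3
  -- minimal one
  have hT1n : N ≤ normalizer ((T1.map N.subtype : Subgroup G) : Set G) := by
    intro n hn
    rw [mem_normalizer_iff]
    intro h
    constructor
    · rintro ⟨x, hx, rfl⟩
      exact ⟨⟨n, hn⟩ * x * (⟨n, hn⟩ : N)⁻¹, hT1.conj_mem x hx _, rfl⟩
    · rintro ⟨x, hx, hxh⟩
      refine ⟨(⟨n, hn⟩ : N)⁻¹ * x * ⟨n, hn⟩, ?_, ?_⟩
      · have := hT1.conj_mem x hx (⟨n, hn⟩ : N)⁻¹
        rwa [inv_inv] at this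
      · have hxh' : (x : G) = n * h * n⁻¹ := hxh
        show n⁻¹ * (x : G) * n = h
        rw [hxh']; group
  obtain ⟨T, hTN, hTT1, hTne, hTmin⟩ := CfsgH1.exists_min_invariant_le (K := T1.map N.subtype) hT1n (by
    intro h; exact hcon.1 ((Subgroup.map_eq_bot_iff_of_injective _ N.subtype_injective).1 h))
  have hTleN : T ≤ N := hTT1.trans (Subgroup.map_subtype_le _)
  have hTneN : T ≠ N := by
    rintro rfl
    apply hcon.2
    rw [Subgroup.eq_top_iff']
    intro x
    obtain ⟨y, hy, hyx⟩ := hTT1 x.2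
    have : y = x := Subtype.ext hyx
    rwa [← this]
  -- a distinct conjugate
  have hTnn : ¬ T.Normal := by
    intro h
    rcases hmin T h hTleN with h | h
    · exact hTne h
    · exact hTneN h
  let cj : G → Subgroup G → Subgroup G := fun g S => S.map (MulAut.conj g).toMonoidHom
  have hcjm : ∀ (g : G) (S : Subgroup G) (x : G), x ∈ cj g S ↔ g⁻¹ * x * g ∈ S := fun g S x => mem_map_conj
  have hcj1 : ∀ (g h : G) (S : Subgroup G), cj g (cj h S) = cj (g * h) S := by
    intro g h S; ext x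
    rw [hcjm, hcjm, hcjm]
    have : h⁻¹ * (g⁻¹ * x * g) * h = (g * h)⁻¹ * x * (g * h) := by group
    rw [this]
  have hcj0 : ∀ S : Subgroup G, cj 1 S = S := by
    intro S; ext x; rw [hcjm]; simp
  have hcjle : ∀ (g : G) (S S' : Subgroup G), S ≤ S' → cj g S ≤ cj g S' := fun g S S' h => Subgroup.map_mono h
  have hcjN : ∀ g : G, cj g N = N := by
    intro g; ext x; rw [hcjm]
    constructor
    · intro h
      have := hNn.conj_mem _ h g
      have h3 : g * (g⁻¹ * x * g) * g⁻¹ = x := by group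
      rwa [h3] at this
    · intro h
      have := hNn.conj_mem x h g⁻¹
      rwa [inv_inv] at this
  have hcjn : ∀ (g : G) (S : Subgroup G), N ≤ normalizer (S : Set G) → N ≤ normalizer ((cj g S : Subgroup G) : Set G) := by
    intro g S hS n hn
    have hn' : g⁻¹ * n * g ∈ normalizer (S : Set G) := hS (by
      have := hNn.conj_mem n hn g⁻¹
      rwa [inv_inv] at this)
    rw [mem_normalizer_iff] at hn' ⊢
    intro x
    rw [hcjm, hcjm]
    have h3 := hn' (g⁻¹ * x * g)
    have h4 : g⁻¹ * n * g * (g⁻¹ * x * g) * (g⁻¹ * n * g)⁻¹ = g⁻¹ * (n * x * n⁻¹) * g := by group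
    rw [h4] at h3
    exact h3
  have hcjne : ∀ g : G, cj g T ≠ ⊥ := by
    intro g h
    apply hTne
    have h3 := congrArg (cj g⁻¹) h
    rw [hcj1, inv_mul_cancel, hcj0] at h3
    rw [h3]
    exact Subgroup.map_bot _
  have hcjc : ∀ g : G, Nat.card (cj g T) = Nat.card T := fun g =>
    Subgroup.card_map_of_injective (MulAut.conj g).injective
  have hcjmin : ∀ (g : G) (M : Subgroup G), N ≤ normalizer (M : Set G) → M ≤ cj g T → M = ⊥ ∨ M = cj g T := by
    intro g M hM hle
    have h3 : cj g⁻¹ M ≤ T := by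
      have := hcjle g⁻¹ _ _ hle
      rwa [hcj1, inv_mul_cancel, hcj0] at this
    rcases hTmin _ (hcjn g⁻¹ M hM) h3 with h | h
    · left
      have h4 := congrArg (cj g) h
      rw [hcj1, mul_inv_cancel, hcj0] at h4
      rw [h4]; exact Subgroup.map_bot _
    · right
      rw [← h, hcj1, mul_inv_cancel, hcj0]
  obtain ⟨g, hg⟩ : ∃ g : G, cj g T ≠ T := by
    by_contra hcon2
    push Not at hcon2
    apply hTnn
    constructor
    intro t ht' g
    have h3 : g * t * g⁻¹ ∈ cj g T := by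
      rw [hcjm]
      have : g⁻¹ * (g * t * g⁻¹) * g = t := by group
      rw [this]; exact ht'
    rwa [hcon2 g] at h3
  set T' := cj g T with hT'
  have hT'N : N ≤ normalizer (T' : Set G) := hcjn g T hTN
  have hT'le : T' ≤ N := by
    have := hcjle g _ _ hTleN
    rwa [hcjN] at this
  have hcomm_of : ∀ h : G, cj h T ≠ T → ∀ x ∈ T, ∀ y ∈ cj h T, x * y = y * x := by
    intro h hh
    apply commute_of_normalized (N := N) hTleN (by
      have := hcjle h _ _ hTleN
      rwa [hcjN] at this) hTN (hcjn h T hTN)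
    have h3 : N ≤ normalizer ((T ⊓ cj h T : Subgroup G) : Set G) := by
      intro n hn
      rw [mem_normalizer_iff]
      intro x
      have e1 := mem_normalizer_iff.1 (hTN hn) x
      have e2 := mem_normalizer_iff.1 (hcjn h T hTN hn) x
      rw [mem_inf, mem_inf, e1, e2]
    rcases hTmin _ h3 inf_le_left with h4 | h4
    · exact h4
    · exfalso
      have h5 : T ≤ cj h T := inf_eq_left.1 h4
      rcases hcjmin h T hTN h5 with h6 | h6
      · exact hTne h6
      · exact hh h6.symm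
  have hcomm := hcomm_of g hg
  have htT := htr T hTN hTne
  have htT' := htr T' hT'N (hcjne g)
  have hsemi : ∀ c : G, (∀ y ∈ T', c * y = y * c) → ∀ x : X, c • x = x → c = 1 := by
    intro c hc x hcx
    apply hfaith
    intro y
    obtain ⟨t, ht', rfl⟩ := htT' x y
    rw [← mul_smul, hc t ht', mul_smul, hcx]
  have hsemi' : ∀ c : G, (∀ y ∈ T, c * y = y * c) → ∀ x : X, c • x = x → c = 1 := by
    intro c hc x hcx
    apply hfaith
    intro y
    obtain ⟨t, ht', rfl⟩ := htT x y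
    rw [← mul_smul, hc t ht', mul_smul, hcx]
  have hTs : ∀ t ∈ T, ∀ x : X, t • x = x → t = 1 := fun t ht' => hsemi t (fun y hy => hcomm t ht' y hy)
  have hT's : ∀ t ∈ T', ∀ x : X, t • x = x → t = 1 := fun t ht' => hsemi' t (fun y hy => (hcomm y hy t ht').symm)
  have hCT : ∀ c : G, (∀ y ∈ T, c * y = y * c) → c ∈ T' := by
    intro c hc
    obtain ⟨t, ht', htc⟩ := htT' a (c • a)
    have h3 : t⁻¹ * c = 1 := by
      apply hsemi' _ _ a
      · rw [mul_smul, ← htc, inv_smul_smul]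
      · intro y hy
        have h4 := hcomm y hy t ht'
        have h5 := hc y hy
        rw [mul_assoc, h5, ← mul_assoc, ← mul_assoc]
        congr 1
        rw [inv_mul_eq_iff_eq_mul, ← mul_assoc, ← h4, mul_inv_cancel_right]
    rw [← inv_mul_eq_one.1 h3]; exact ht'
  -- `N = T T'`
  have hconjT : ∀ h : G, cj h T = T ∨ cj h T = T' := by
    intro h
    by_cases hh : cj h T = T
    · exact Or.inl hh
    right
    apply Subgroup.eq_of_le_of_card_ge
    · intro y hy
      exact hCT y (fun x hx => (hcomm_of h hh x hx y hy).symm)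
    · rw [hcjc h, hT', hcjc g]
  have hsup : (T ⊔ T').Normal := by
    constructor
    intro n hn h
    have h3 : cj h (T ⊔ T') ≤ T ⊔ T' := by
      show (T ⊔ T').map _ ≤ _
      rw [Subgroup.map_sup]
      apply sup_le
      · rcases hconjT h with h4 | h4
        · exact h4.le.trans le_sup_left
        · exact h4.le.trans le_sup_right
      · have h5 : cj h T' = cj (h * g) T := hcj1 h g T
        rcases hconjT (h * g) with h4 | h4
        · exact (h5.trans h4).le.trans le_sup_left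
        · exact (h5.trans h4).le.trans le_sup_right
    apply h3
    rw [hcjm]
    have : h⁻¹ * (h * n * h⁻¹) * h = n := by group
    rw [this]; exact hn
  have hNT : T ⊔ T' = N := by
    rcases hmin _ hsup (sup_le hTleN hT'le) with h3 | h3
    · exfalso; exact hTne (le_bot_iff.1 (by rw [← h3]; exact le_sup_left))
    · exact h3
  have hdec : ∀ n ∈ N, ∃ t ∈ T, ∃ t' ∈ T', n = t * t' := by
    intro n hn
    rw [← hNT] at hn
    have h3 : T' ≤ normalizer (T : Set G) := hT'le.trans hTN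
    rw [CfsgH1.mem_sup_of_le_normalizer' h3] at hn
    obtain ⟨t, ht', t', ht'', h4⟩ := hn
    exact ⟨t, ht', t', ht'', h4.symm⟩
  -- sizes of two point stabilizers
  let S : X → Set G := fun x => {n | n ∈ N ∧ n • a = a ∧ n • x = x}
  have hSle : ∀ x y : X, x ≠ a → y ≠ a → Nat.card (S x) ≤ Nat.card (S y) := by
    intro x y hx hy
    obtain ⟨h, h3, h4⟩ := h2 a x a y hx.symm hy.symm
    have h3' : h⁻¹ • a = a := by rw [inv_smul_eq_iff, h3]
    have h4' : h⁻¹ • y = x := by rw [inv_smul_eq_iff, h4]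
    refine Nat.card_le_card_of_injective (fun n => ⟨h * n * h⁻¹, hNn.conj_mem _ n.2.1 h, ?_, ?_⟩) ?_
    · rw [mul_smul, mul_smul, h3', n.2.2.1, h3]
    · rw [mul_smul, mul_smul, h4', n.2.2.2, h4]
    · intro n n' hnn
      have h5 := congrArg Subtype.val hnn
      simp only [mul_left_inj, mul_right_inj] at h5
      exact Subtype.ext h5
  have hcent : ∀ u : T, u ≠ 1 → Nat.card (centralizer ({u} : Set T)) = Nat.card (S ((u : G) • a)) := by
    intro u hu
    have hex : ∀ t : G, ∃ t' ∈ T', t' • a = t⁻¹ • a := fun t => htT' a (t⁻¹ • a)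
    choose f hf1 hf2 using hex
    refine Nat.card_eq_of_bijective (fun t => ⟨((t : T) : G) * f ((t : T) : G), ?_, ?_, ?_⟩) ⟨?_, ?_⟩
    · exact mul_mem (hTleN (t : T).2) (hT'le (hf1 _))
    · rw [mul_smul, hf2, smul_inv_smul]
    · have h3 : ((t : T) : G) * u = u * t := by
        have h5 := mem_centralizer_singleton_iff'.1 t.2
        exact (congrArg Subtype.val h5).symm
      rw [mul_smul, ← mul_smul (f _), ← hcomm u u.2 _ (hf1 _), mul_smul, hf2, ← mul_smul, ← mul_smul, h3, mul_inv_cancel_right]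
    · intro t1 t2 h12
      have h3 : ((t1 : T) : G) * f ((t1 : T) : G) = ((t2 : T) : G) * f ((t2 : T) : G) := congrArg Subtype.val h12
      have h4 : ((t2 : T) : G)⁻¹ * ((t1 : T) : G) = f ((t2 : T) : G) * (f ((t1 : T) : G))⁻¹ := by
        rw [inv_mul_eq_iff_eq_mul, ← mul_assoc, ← h3, mul_inv_cancel_right]
      have h5 : ((t2 : T) : G)⁻¹ * ((t1 : T) : G) = 1 := by
        have h6 : ((t2 : T) : G)⁻¹ * ((t1 : T) : G) ∈ T := mul_mem (inv_mem (t2 : T).2) (t1 : T).2
        have h7 : ((t2 : T) : G)⁻¹ * ((t1 : T) : G) ∈ T' := by rw [h4]; exact mul_mem (hf1 _) (inv_mem (hf1 _))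
        -- it lies in both
        by_contra hne
        -- T ∩ T' is N-invariant
        have h8 : N ≤ normalizer ((T ⊓ T' : Subgroup G) : Set G) := by
          intro n hn
          rw [mem_normalizer_iff]
          intro x
          have e1 := mem_normalizer_iff.1 (hTN hn) x
          have e2 := mem_normalizer_iff.1 (hT'N hn) x
          rw [mem_inf, mem_inf, e1, e2]
        rcases hTmin _ h8 inf_le_left with h9 | h9
        · have h10 : ((t2 : T) : G)⁻¹ * ((t1 : T) : G) ∈ T ⊓ T' := ⟨h6, h7⟩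
          rw [h9, mem_bot] at h10
          exact hne h10
        · have h10 : T ≤ T' := inf_eq_left.1 h9
          rcases hcjmin g T hTN h10 with h11 | h11
          · exact hTne h11
          · exact hg h11.symm
      apply Subtype.ext; apply Subtype.ext
      exact (inv_mul_eq_one.1 h5).symm
    · rintro ⟨n, hn, hna, hnu⟩
      obtain ⟨t, ht1, t', ht1', rfl⟩ := hdec n hn
      have h3 : t' • a = t⁻¹ • a := by
        rw [mul_smul] at hna
        rw [eq_inv_smul_iff, hna]
      have h4 : t' = f t := by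
        have h5 : (f t)⁻¹ * t' = 1 := by
          apply hT's _ (mul_mem (inv_mem (hf1 t)) ht1') a
          rw [mul_smul, h3, ← hf2 t, inv_smul_smul]
        exact (inv_mul_eq_one.1 h5).symm
      have h5 : t * u = u * t := by
        have h6 : (t * u * t⁻¹) • a = (u : G) • a := by
          have h7 : (t * t') • ((u : G) • a) = (t * u * t⁻¹) • a := by
            rw [mul_smul, ← mul_smul t', ← hcomm u u.2 t' ht1', mul_smul, h3, mul_smul, mul_smul]
          rw [← h7, hnu]
        have h7 : (u : G)⁻¹ * (t * u * t⁻¹) = 1 := by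
          apply hTs _ (mul_mem (inv_mem u.2) (mul_mem (mul_mem ht1 u.2) (inv_mem ht1))) a
          rw [mul_smul, h6, inv_smul_smul]
        have h8 := inv_mul_eq_one.1 h7
        rw [eq_mul_inv_iff_mul_eq] at h8
        exact h8.symm
      refine ⟨⟨⟨t, ht1⟩, ?_⟩, ?_⟩
      · rw [mem_centralizer_singleton_iff']
        exact Subtype.ext h5.symm
      · apply Subtype.ext
        show t * f t = t * t'
        rw [h4]
  -- conclusion
  obtain ⟨u0, hu0⟩ := Subgroup.ne_bot_iff_exists_ne_one.1 hTne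
  have hmove : ∀ u : T, u ≠ 1 → (u : G) • a ≠ a := fun u hu h => hu (Subtype.ext (hTs u u.2 a h))
  have habel := comm_of_centralizer_const (T := T) (Nat.card (S ((u0 : G) • a))) (fun u hu => by
    rw [hcent u hu]
    exact le_antisymm (hSle _ _ (hmove u hu) (hmove u0 hu0)) (hSle _ _ (hmove u0 hu0) (hmove u hu)))
  have h3 : T ≤ T' := fun x hx => hCT x (fun y hy => congrArg Subtype.val (habel ⟨x, hx⟩ ⟨y, hy⟩))
  rcases hcjmin g T hTN h3 with h11 | h11
  · exact hTne h11
  · exact hg h11.symm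

end

end CfsgH2
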