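import Mathlib
import Cfsg.Agent.H1.CopExtra
import Cfsg.Agent.H1.CoprimeSylow
import Cfsg.Agent.H1.SetMul

set_option autoImplicit false

open scoped Pointwise commutatorElement

/-! # Factorizations under coprime action (helper2 library) -/

namespace CfsgH2

open Subgroup CfsgH1

universe u
variable {G : Type u} [Group G]

/-- centralizers of invariant Sylow subgroups -/
theorem cent_sylow [Finite G] {A K Q : Subgroup G} (hAK : A ≤ normalizer (K : Set G))
    (hcop : (Nat.card A).Coprime (Nat.card K)) (hsolv : Group.IsSolvable A) {q : ℕ} [hq : Fact q.Prime]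
    (hQ : IsSylowOf q Q K) (hAQ : A ≤ normalizer (Q : Set G)) :
    IsSylowOf q (Q ⊓ centralizer (A : Set G)) (K ⊓ centralizer (A : Set G)) := by
  obtain ⟨S, hS⟩ := exists_isSylowOf q (K ⊓ centralizer (A : Set G))
  have hSle := isSylowOf_le hS
  have hSA : A ≤ normalizer (S : Set G) := by
    intro a ha
    rw [mem_normalizer_iff]
    intro s
    constructor
    · intro hs
      have h1 := mem_centralizer_iff.1 (hSle hs).2 a ha
      rw [h1, mul_inv_cancel_right]; exact hs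
    · intro hs
      have h1 := mem_centralizer_iff.1 (hSle hs).2 a ha
      have h2 : s = a * s * a⁻¹ := by
        have h3 : a * s = a * (a * s * a⁻¹) := by rw [h1]; group
        exact mul_left_cancel h3
      rw [h2]; exact hs
  obtain ⟨P, hP, hSP, hAP⟩ := coprime_sylow_contains hAK hcop (Or.inl hsolv) q S (hSle.trans inf_le_left) (isSylowOf_isPGroup hS) hSA
  obtain ⟨c, hc, hcP⟩ := (coprime_sylow hAK hcop (Or.inl hsolv) q).2 P Q hP hAP hQ hAQ
  have hcn : c ∈ normalizer ((K ⊓ centralizer (A : Set G) : Subgroup G) : Set G) := le_normalizer hc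
  have h1 := isSylowOf_conj hS hcn
  have h2 : MulAut.conj c • S ≤ Q ⊓ centralizer (A : Set G) := by
    apply le_inf
    · rw [← hcP]; exact conj_smul_mono c hSP
    · exact (isSylowOf_le h1).trans inf_le_right
  rw [isSylowOf_iff] at h1 ⊢
  refine ⟨inf_le_inf_right _ (isSylowOf_le hQ), (isSylowOf_isPGroup hQ).to_le inf_le_left, ?_⟩
  intro hd
  apply h1.2.2
  have h3 := Subgroup.relIndex_mul_relIndex _ _ _ h2 (inf_le_inf_right (centralizer (A : Set G)) (isSylowOf_le hQ))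
  rw [← h3]
  exact Dvd.dvd.mul_left hd _

/-- factorization of a `q`-group from the factorizations of centralizers -/
theorem fact_pgroup [Finite G] {A Q X Y : Subgroup G} {q : ℕ} [hq : Fact q.Prime] (hQ : IsPGroup q Q)
    (hAab : ∀ x ∈ A, ∀ y ∈ A, x * y = y * x) (hAnc : ¬ IsCyclic A) (hAQ : A ≤ normalizer (Q : Set G))
    (hcop : (Nat.card A).Coprime (Nat.card Q)) (hXQ : X ≤ Q) (hYQ : Y ≤ Q)
    (hC : ∀ a ∈ A, a ≠ 1 → ∀ c ∈ Q ⊓ centralizer {a}, ∃ x ∈ X, ∃ y ∈ Y, c = x * y) :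
    ∀ g ∈ Q, ∃ x ∈ X, ∃ y ∈ Y, g = x * y := by
  have key : ∀ (n : ℕ) (N : Subgroup G), Nat.card N = n → N ≤ Q → Q ≤ normalizer (N : Set G) → A ≤ normalizer (N : Set G) →
      (∀ g ∈ Q, ∃ x ∈ X, ∃ y ∈ Y, ∃ n ∈ N, g = x * y * n) → ∀ g ∈ Q, ∃ x ∈ X, ∃ y ∈ Y, g = x * y := by
    intro n
    induction n using Nat.strong_induction_on with
    | _ n ih =>
    intro N hNn hNQ hQN hAN hfac
    by_cases hN1 : N = ⊥
    · intro g hg
      obtain ⟨x, hx, y, hy, m, hm, rfl⟩ := hfac g hg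
      rw [hN1, mem_bot] at hm
      exact ⟨x, hx, y, hy, by rw [hm, mul_one]⟩
    have hlt : ⁅N, Q⁆ < N := commutator_lt_of_pgroup (hQ.to_le hNQ) hQ hQN hN1
    set M : Subgroup G := ⁅N, Q⁆ with hM
    have hQM : Q ≤ normalizer (M : Set G) := normalizer_commutator hQN le_normalizer
    have hAM : A ≤ normalizer (M : Set G) := normalizer_commutator hAN hAQ
    have hMQ : M ≤ Q := hlt.le.trans hNQ
    have hconjM : ∀ g ∈ Q, ∀ m ∈ M, g⁻¹ * m * g ∈ M := by
      intro g hg m hm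
      have := (mem_normalizer_iff.1 (hQM (inv_mem hg)) m).1 hm
      rwa [inv_inv] at this
    -- the set `X Y M`
    let S : Set G := {g | ∃ x ∈ X, ∃ y ∈ Y, ∃ m ∈ M, g = x * y * m}
    have hSc : ∀ a ∈ A, a ≠ 1 → ∀ c ∈ N ⊓ centralizer {a}, ∀ s ∈ S, s * c ∈ S := by
      rintro a ha ha1 c ⟨hcN, hca⟩ _ ⟨x, hx, y, hy, m, hm, rfl⟩
      obtain ⟨x', hx', y', hy', hc⟩ := hC a ha ha1 c ⟨hNQ hcN, hca⟩
      refine ⟨x * x', mul_mem hx hx', y' * y, mul_mem hy' hy, ⁅y⁻¹, c⁻¹⁆ * (c⁻¹ * m * c), ?_, ?_⟩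
      · apply mul_mem
        · rw [hM, commutator_comm]
          exact commutator_mem_commutator (inv_mem (hYQ hy)) (inv_mem hcN)
        · exact hconjM c (hNQ hcN) m hm
      · have h1 : x * y * m * c = x * c * y * (⁅y⁻¹, c⁻¹⁆ * (c⁻¹ * m * c)) := by
          rw [commutatorElement_def]; group
        rw [h1]
        nth_rewrite 1 [hc]
        simp only [mul_assoc]
    let W : Subgroup G :=
      { carrier := {n | (∀ s ∈ S, s * n ∈ S) ∧ (∀ s ∈ S, s * n⁻¹ ∈ S)}
        mul_mem' := by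
          rintro u v ⟨hu1, hu2⟩ ⟨hv1, hv2⟩
          refine ⟨fun s hs => ?_, fun s hs => ?_⟩
          · rw [← mul_assoc]; exact hv1 _ (hu1 _ hs)
          · rw [mul_inv_rev, ← mul_assoc]; exact hu2 _ (hv2 _ hs)
        one_mem' := ⟨fun s hs => by rw [mul_one]; exact hs, fun s hs => by rw [inv_one, mul_one]; exact hs⟩
        inv_mem' := by
          rintro u ⟨hu1, hu2⟩
          exact ⟨hu2, fun s hs => by rw [inv_inv]; exact hu1 s hs⟩ }
    have hNW : N ≤ W := by
      apply generated_by_centralizers_pgroup hAab hAnc hAN (Nat.Coprime.coprime_dvd_right (Subgroup.card_dvd_of_le hNQ) hcop) (hQ.to_le hNQ) W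
      intro a ha ha1 c hc
      exact ⟨hSc a ha ha1 c hc, hSc a ha ha1 c⁻¹ (inv_mem hc)⟩
    apply ih (Nat.card M) _ M rfl hMQ hQM hAM
    · intro g hg
      obtain ⟨x, hx, y, hy, m, hm, rfl⟩ := hfac g hg
      exact (hNW hm).1 (x * y) ⟨x, hx, y, hy, 1, one_mem _, by rw [mul_one]⟩
    · rw [← hNn]
      exact Set.ncard_lt_ncard (SetLike.coe_ssubset_coe.2 hlt) (Set.toFinite _)
  exact key (Nat.card Q) Q rfl le_rfl le_normalizer hAQ (fun g hg => ⟨1, one_mem _, 1, one_mem _, g, hg, by rw [one_mul, one_mul]⟩)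

theorem card_sylowOf [Finite G] {q : ℕ} [hq : Fact q.Prime] {S L : Subgroup G} (h : IsSylowOf q S L) :
    Nat.card S = q ^ (Nat.card L).factorization q := by
  rw [isSylowOf_iff] at h
  obtain ⟨k, hk⟩ := IsPGroup.iff_card.1 h.2.1
  have h2 : Nat.card S * S.relIndex L = Nat.card L := by
    have := (S.subgroupOf L).card_mul_index
    rwa [card_subgroupOf h.1] at this
  rw [hk]
  congr 1
  have hne : S.relIndex L ≠ 0 := fun h0 => h.2.2 (by rw [h0]; exact dvd_zero q)
  rw [← h2, Nat.factorization_mul Nat.card_pos.ne' hne, Finsupp.add_apply, Nat.factorization_eq_zero_of_not_dvd h.2.2, hk,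
    Nat.Prime.factorization_pow hq.out]
  simp

theorem centralizer_zpowers_eq (a : G) : centralizer (zpowers a : Set G) = centralizer ({a} : Set G) := by
  rw [zpowers_eq_closure, centralizer_closure]

/-- order formula for set products which are subgroups -/
theorem card_of_setMul_eq [Finite G] {L X Y : Subgroup G} (h : (L : Set G) = (X : Set G) * (Y : Set G)) :
    Nat.card L * Nat.card (X ⊓ Y : Subgroup G) = Nat.card X * Nat.card Y := by
  rw [← card_setMul_mul_card_inf X Y, ← h]; rfl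

theorem setMul_eq_of_card [Finite G] {L X Y : Subgroup G} (hX : X ≤ L) (hY : Y ≤ L)
    (h : Nat.card L * Nat.card (X ⊓ Y : Subgroup G) = Nat.card X * Nat.card Y) : (L : Set G) = (X : Set G) * (Y : Set G) := by
  have h1 := card_setMul_mul_card_inf X Y
  have h2 : Nat.card ((X : Set G) * (Y : Set G) : Set G) = Nat.card L := by
    apply Nat.eq_of_mul_eq_mul_right (Nat.card_pos (α := (X ⊓ Y : Subgroup G)))
    rw [h1, h]
  symm
  apply Set.eq_of_subset_of_ncard_le _ _ (Set.toFinite _)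
  · rintro _ ⟨x, hx, y, hy, rfl⟩
    exact mul_mem (hX hx) (hY hy)
  · exact h2.ge

theorem fact_coprime [Finite G] {p : ℕ} [hp : Fact p.Prime] {A K X Y : Subgroup G} (hAp : IsPGroup p A)
    (hAab : ∀ x ∈ A, ∀ y ∈ A, x * y = y * x) (hAnc : ¬ IsCyclic A) (hK : ¬ p ∣ Nat.card K)
    (hAK : A ≤ normalizer (K : Set G)) (hX : X ≤ K) (hY : Y ≤ K) (hAX : A ≤ normalizer (X : Set G))
    (hAY : A ≤ normalizer (Y : Set G)) (hCX : K ⊓ centralizer (A : Set G) ≤ normalizer (X : Set G))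
    (hfac : ∀ a ∈ A, a ≠ 1 → ((K ⊓ centralizer {a} : Subgroup G) : Set G) =
      ((X ⊓ centralizer {a} : Subgroup G) : Set G) * ((Y ⊓ centralizer {a} : Subgroup G) : Set G)) :
    (K : Set G) = (X : Set G) * (Y : Set G) := by
  have hAs : Group.IsSolvable A := isSolvable_of_abelian hAab
  have hcopK : (Nat.card A).Coprime (Nat.card K) := by
    obtain ⟨k, hk⟩ := IsPGroup.iff_card.1 hAp
    rw [hk]
    exact Nat.Coprime.pow_left _ ((Nat.Prime.coprime_iff_not_dvd hp.out).2 hK)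
  have hcop : ∀ L : Subgroup G, L ≤ K → (Nat.card A).Coprime (Nat.card L) := fun L hL =>
    Nat.Coprime.coprime_dvd_right (Subgroup.card_dvd_of_le hL) hcopK
  apply setMul_eq_of_card hX hY
  apply Nat.eq_of_factorization_eq (mul_ne_zero Nat.card_pos.ne' Nat.card_pos.ne') (mul_ne_zero Nat.card_pos.ne' Nat.card_pos.ne')
  intro q
  by_cases hqp : q.Prime
  swap
  · rw [Nat.factorization_eq_zero_of_not_prime _ hqp, Nat.factorization_eq_zero_of_not_prime _ hqp]
  haveI : Fact q.Prime := ⟨hqp⟩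
  -- the invariant Sylow subgroups
  have hAD : A ≤ normalizer ((X ⊓ Y : Subgroup G) : Set G) := by
    intro a ha
    rw [mem_normalizer_iff]
    intro h
    have e1 := mem_normalizer_iff.1 (hAX ha) h
    have e2 := mem_normalizer_iff.1 (hAY ha) h
    rw [mem_inf, mem_inf, e1, e2]
  have hDK : X ⊓ Y ≤ K := inf_le_left.trans hX
  obtain ⟨⟨QD, hQD, hAQD⟩, -⟩ := coprime_sylow hAD (hcop _ hDK) (Or.inl hAs) q
  obtain ⟨QY, hQY, hQDY, hAQY⟩ := coprime_sylow_contains hAY (hcop _ hY) (Or.inl hAs) q QD ((isSylowOf_le hQD).trans inf_le_right)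
    (isSylowOf_isPGroup hQD) hAQD
  obtain ⟨Q, hQ, hQYQ, hAQ⟩ := coprime_sylow_contains hAK hcopK (Or.inl hAs) q QY ((isSylowOf_le hQY).trans hY)
    (isSylowOf_isPGroup hQY) hAQY
  -- `Q ∩ X` is Sylow in `X`
  have hQX : IsSylowOf q (Q ⊓ X) X := by
    obtain ⟨⟨R, hR, hAR⟩, -⟩ := coprime_sylow hAX (hcop _ hX) (Or.inl hAs) q
    obtain ⟨Q1, hQ1, hRQ1, hAQ1⟩ := coprime_sylow_contains hAK hcopK (Or.inl hAs) q R ((isSylowOf_le hR).trans hX)
      (isSylowOf_isPGroup hR) hAR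
    obtain ⟨c, hc, hcQ⟩ := (coprime_sylow hAK hcopK (Or.inl hAs) q).2 Q1 Q hQ1 hAQ1 hQ hAQ
    have h1 := isSylowOf_conj hR (hCX hc)
    have h2 : MulAut.conj c • R ≤ Q ⊓ X := le_inf (by rw [← hcQ]; exact conj_smul_mono c hRQ1) (isSylowOf_le h1)
    rw [isSylowOf_iff] at h1 ⊢
    refine ⟨inf_le_right, (isSylowOf_isPGroup hQ).to_le inf_le_left, fun hd => h1.2.2 ?_⟩
    have h3 := Subgroup.relIndex_mul_relIndex _ _ _ h2 (inf_le_right : Q ⊓ X ≤ X)
    rw [← h3]; exact Dvd.dvd.mul_left hd _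
  have hQYs : IsSylowOf q (Q ⊓ Y) Y := by
    have h1 := hQY
    rw [isSylowOf_iff] at h1 ⊢
    refine ⟨inf_le_right, (isSylowOf_isPGroup hQ).to_le inf_le_left, fun hd => h1.2.2 ?_⟩
    have h3 := Subgroup.relIndex_mul_relIndex _ _ _ (le_inf hQYQ h1.1) (inf_le_right : Q ⊓ Y ≤ Y)
    rw [← h3]; exact Dvd.dvd.mul_left hd _
  have hQDs : IsSylowOf q (Q ⊓ (X ⊓ Y)) (X ⊓ Y) := by
    have h1 := hQD
    rw [isSylowOf_iff] at h1 ⊢
    refine ⟨inf_le_right, (isSylowOf_isPGroup hQ).to_le inf_le_left, fun hd => h1.2.2 ?_⟩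
    have h3 := Subgroup.relIndex_mul_relIndex _ _ _ (le_inf (hQDY.trans hQYQ) h1.1) (inf_le_right : Q ⊓ (X ⊓ Y) ≤ X ⊓ Y)
    rw [← h3]; exact Dvd.dvd.mul_left hd _
  have hninf : ∀ L : Subgroup G, A ≤ normalizer (L : Set G) → A ≤ normalizer ((Q ⊓ L : Subgroup G) : Set G) := by
    intro L hL a ha
    rw [mem_normalizer_iff]
    intro h
    have e1 := mem_normalizer_iff.1 (hAQ ha) h
    have e2 := mem_normalizer_iff.1 (hL ha) h
    rw [mem_inf, mem_inf, e1, e2]
  -- factorization in `Q`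
  have hQfac : (Q : Set G) = ((Q ⊓ X : Subgroup G) : Set G) * ((Q ⊓ Y : Subgroup G) : Set G) := by
    have h1 := fact_pgroup (A := A) (Q := Q) (X := Q ⊓ X) (Y := Q ⊓ Y) (isSylowOf_isPGroup hQ) hAab hAnc hAQ (hcop _ (isSylowOf_le hQ))
      inf_le_left inf_le_left (by
      intro a ha ha1
      -- centralizers
      have hza : zpowers a ≤ A := zpowers_le.2 ha
      have hcs : ∀ L : Subgroup G, L ≤ K → A ≤ normalizer (L : Set G) → IsSylowOf q (Q ⊓ L) L →
          Nat.card (Q ⊓ L ⊓ centralizer {a} : Subgroup G) = q ^ (Nat.card (L ⊓ centralizer {a} : Subgroup G)).factorization q := by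
        intro L hLK hAL hL
        have h3 := cent_sylow (A := zpowers a) (hza.trans hAL) (Nat.Coprime.coprime_dvd_left (Subgroup.card_dvd_of_le hza) (hcop L hLK))
          (isSolvable_of_abelian (fun x hx y hy => hAab x (hza hx) y (hza hy))) hL (hza.trans (hninf L hAL))
        rw [centralizer_zpowers_eq] at h3
        exact card_sylowOf h3
      have hQK : Q ⊓ K = Q := inf_eq_left.2 (isSylowOf_le hQ)
      have c1 := hcs K le_rfl hAK (by rw [hQK]; exact hQ)
      rw [hQK] at c1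
      have c2 := hcs X hX hAX hQX
      have c3 := hcs Y hY hAY hQYs
      have c4 := hcs (X ⊓ Y) hDK hAD hQDs
      have c5 := card_of_setMul_eq (hfac a ha ha1)
      have e1 : X ⊓ centralizer {a} ⊓ (Y ⊓ centralizer {a}) = X ⊓ Y ⊓ centralizer ({a} : Set G) := by
        rw [inf_inf_inf_comm, inf_idem]
      rw [e1] at c5
      have c6 := congrArg (fun n => n.factorization q) c5
      simp only [Nat.factorization_mul Nat.card_pos.ne' Nat.card_pos.ne', Finsupp.add_apply] at c6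
      have e2 : Q ⊓ X ⊓ centralizer {a} ⊓ (Q ⊓ Y ⊓ centralizer {a}) = Q ⊓ (X ⊓ Y) ⊓ centralizer ({a} : Set G) := by
        rw [inf_inf_inf_comm, inf_idem, inf_inf_inf_comm, inf_idem]
      have c7 : Nat.card (Q ⊓ centralizer {a} : Subgroup G) * Nat.card (Q ⊓ X ⊓ centralizer {a} ⊓ (Q ⊓ Y ⊓ centralizer {a}) : Subgroup G) =
          Nat.card (Q ⊓ X ⊓ centralizer {a} : Subgroup G) * Nat.card (Q ⊓ Y ⊓ centralizer {a} : Subgroup G) := by
        rw [e2, c1, c2, c3, c4, ← pow_add, ← pow_add, c6]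
      have c8 := setMul_eq_of_card (inf_le_inf_right _ inf_le_left) (inf_le_inf_right _ inf_le_left) c7
      intro c hc
      have hc' : c ∈ ((Q ⊓ centralizer {a} : Subgroup G) : Set G) := hc
      rw [c8] at hc'
      obtain ⟨x, hx, y, hy, hxy⟩ := hc'
      exact ⟨x, hx.1, y, hy.1, hxy.symm⟩)
    ext g
    constructor
    · intro hg
      obtain ⟨x, hx, y, hy, rfl⟩ := h1 g hg
      exact ⟨x, hx, y, hy, rfl⟩
    · rintro ⟨x, hx, y, hy, rfl⟩
      exact mul_mem hx.1 hy.1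
  have c1 := card_of_setMul_eq hQfac
  have e1 : Q ⊓ X ⊓ (Q ⊓ Y) = Q ⊓ (X ⊓ Y) := by rw [inf_inf_inf_comm, inf_idem]
  rw [e1, card_sylowOf hQ, card_sylowOf hQX, card_sylowOf hQYs, card_sylowOf hQDs, ← pow_add, ← pow_add] at c1
  have c2 := Nat.pow_right_injective hqp.two_le c1
  rw [Nat.factorization_mul Nat.card_pos.ne' Nat.card_pos.ne', Nat.factorization_mul Nat.card_pos.ne' Nat.card_pos.ne']
  exact c2

end CfsgH2
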