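import Mathlib

/-! Determinant arguments for automorphisms of elementary abelian groups of odd rank. -/

set_option autoImplicit false

namespace CfsgH2

section

variable {V : Type*} [CommGroup V] [Finite V] {p f : ℕ} 

/-- the linear map attached to an automorphism -/
noncomputable def autLin (p : ℕ) (hp : ∀ v : V, v ^ p = 1) (φ : MulAut V) : 
    letI : Module (ZMod p) (Additive V) := AddCommGroup.zmodModule (n := p) (fun x => hp x.toMul)
    Additive V →ₗ[ZMod p] Additive V :=
  letI : Module (ZMod p) (Additive V) := AddCommGroup.zmodModule (n := p) (fun x => hp x.toMul)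
  AddMonoidHom.toZModLinearMap p (MonoidHom.toAdditive φ.toMonoidHom)

theorem det_facts [hpp : Fact p.Prime] (hp2 : p ≠ 2) (hf : Odd f) (hp : ∀ v : V, v ^ p = 1) 
    (hcard : Nat.card V = p ^ f) : 
    ∃ δ : MulAut V →* ZMod p, (∀ φ : MulAut V, (∀ v, φ v = v⁻¹) → δ φ = -1) ∧ 
      ∀ (φ ψ : MulAut V), (∀ v, φ v = v → v = 1) → ψ * φ * ψ⁻¹ = φ⁻¹ → δ φ = -1 := by
  letI : Module (ZMod p) (Additive V) := AddCommGroup.zmodModule (n := p) (fun x => hp x.toMul)
  haveI : Finite (Additive V) := inferInstanceAs (Finite V)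
  have hfr : Module.finrank (ZMod p) (Additive V) = f := by
    have h1 : Nat.card (Additive V) = Nat.card (ZMod p) ^ Module.finrank (ZMod p) (Additive V) := 
      Module.natCard_eq_pow_finrank
    have h2 : Nat.card (Additive V) = p ^ f := hcard
    rw [h2, Nat.card_zmod] at h1
    exact (Nat.pow_right_injective hpp.out.two_le h1).symm
  let L : MulAut V →* (Additive V →ₗ[ZMod p] Additive V) := 
    { toFun := autLin p hp
      map_one' := by ext v; rfl
      map_mul' := by intro φ ψ; ext v; rfl }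
  have hLv : ∀ (φ : MulAut V) (v : Additive V), L φ v = Additive.ofMul (φ v.toMul) := fun φ v => rfl
  refine ⟨LinearMap.det.comp L, ?_, ?_⟩
  · intro φ hφ
    have h1 : L φ = (-1 : ZMod p) • (1 : Additive V →ₗ[ZMod p] Additive V) := by
      ext v
      rw [hLv, hφ]
      simp
    rw [MonoidHom.comp_apply, h1]
    rw [LinearMap.det_smul, hfr, hf.neg_one_pow]
    simp
  · intro φ ψ hfpf hconj
    rw [MonoidHom.comp_apply]
    have hdet : LinearMap.det (1 - L φ) ≠ 0 := by
      intro h
      have h1 := LinearMap.bot_lt_ker_of_det_eq_zero h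
      obtain ⟨v, hv, hv0⟩ := (Submodule.ne_bot_iff _).mp h1.ne'
      rw [LinearMap.mem_ker, LinearMap.sub_apply, sub_eq_zero] at hv
      exact hv0 (hfpf v.toMul hv.symm)
    have hP : L ψ * L ψ⁻¹ = 1 := by rw [← map_mul, mul_inv_cancel, map_one]
    have hY : L φ * L φ⁻¹ = 1 := by rw [← map_mul, mul_inv_cancel, map_one]
    have hY' : L φ⁻¹ * L φ = 1 := by rw [← map_mul, inv_mul_cancel, map_one]
    have h1 : L ψ * (1 - L φ) * L ψ⁻¹ = 1 - L φ⁻¹ := by
      rw [mul_sub, sub_mul, mul_one, hP, ← map_mul, ← map_mul, hconj]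
    have h2 : 1 - L φ⁻¹ = (-1 : ZMod p) • (L φ⁻¹ * (1 - L φ)) := by
      rw [mul_sub, hY', mul_one]
      simp
    have h3 : LinearMap.det (1 - L φ) = -(LinearMap.det (L φ⁻¹) * LinearMap.det (1 - L φ)) := by
      have e1 : LinearMap.det (L ψ * (1 - L φ) * L ψ⁻¹) = LinearMap.det (1 - L φ) := by
        rw [map_mul, map_mul, mul_comm (LinearMap.det (L ψ)), mul_assoc, ← map_mul, hP, map_one, mul_one]
      have e2 := e1
      rw [h1, h2, LinearMap.det_smul, hfr, hf.neg_one_pow, map_mul] at e2
      rw [neg_eq_neg_one_mul]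
      exact e2.symm
    have h4 : LinearMap.det (L φ⁻¹) = -1 := by
      have h5 : (1 + LinearMap.det (L φ⁻¹)) * LinearMap.det (1 - L φ) = 0 := by
        rw [add_mul, one_mul]
        nth_rewrite 1 [h3]
        ring
      rcases mul_eq_zero.mp h5 with h6 | h6
      · exact (neg_eq_of_add_eq_zero_right h6).symm
      · exact absurd h6 hdet
    have h6 : LinearMap.det (L φ) * LinearMap.det (L φ⁻¹) = 1 := by rw [← map_mul, hY, map_one]
    rw [h4] at h6
    have : -LinearMap.det (L φ) = 1 := by rw [← h6]; ring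
    rw [← this, neg_neg]

end

end CfsgH2
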