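import Mathlib

/-! The Dickson pair condition. -/

set_option autoImplicit false

namespace CfsgH2

/-- `n (q-1) ∣ q^n - 1` when the primes of `n` divide `q - 1` -/
theorem dickson_dvd {q : ℕ} (hq : 1 ≤ q) : ∀ n : ℕ, n ≠ 0 → (∀ r : ℕ, r.Prime → r ∣ n → r ∣ q - 1) → 
    n * (q - 1) ∣ q ^ n - 1 := by
  intro n
  induction n using Nat.strong_induction_on with
  | _ n ih =>
    intro hn h
    by_cases hn1 : n = 1
    · rw [hn1, one_mul, pow_one]
    · obtain ⟨r, hr, m, rfl⟩ := Nat.exists_prime_and_dvd hn1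
      have hm0 : m ≠ 0 := by rintro rfl; simp at hn
      have hm : m < r * m := by
        have := hr.one_lt
        nlinarith [Nat.pos_of_ne_zero hm0]
      have h1 := ih m hm hm0 (fun s hs hsm => h s hs (hsm.mul_left r))
      have hrq : r ∣ q - 1 := h r hr (dvd_mul_right r m)
      have hQ : r ∣ q ^ m - 1 := hrq.trans ((dvd_mul_left (q - 1) m).trans h1)
      have hQ1 : 1 ≤ q ^ m := Nat.one_le_pow _ _ hq
      have h2 : r ∣ ∑ i ∈ Finset.range r, (q ^ m) ^ i := by
        have h3 : (∑ i ∈ Finset.range r, (q ^ m) ^ i) ≡ ∑ i ∈ Finset.range r, 1 [MOD r] := by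
          rw [← ZMod.natCast_eq_natCast_iff]
          push_cast
          apply Finset.sum_congr rfl
          intro i _
          have h4 : ((q ^ m : ℕ) : ZMod r) = 1 := by
            have h5 : q ^ m ≡ 1 [MOD r] := ((Nat.modEq_iff_dvd' hQ1).mpr hQ).symm
            have h6 := (ZMod.natCast_eq_natCast_iff _ _ _).mpr h5
            rw [h6, Nat.cast_one]
          rw [Nat.cast_pow] at h4
          rw [h4, one_pow]
        rw [Finset.sum_const, Finset.card_range, smul_eq_mul, mul_one] at h3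
        exact (Nat.modEq_zero_iff_dvd.mp (h3.trans (Nat.modEq_zero_iff_dvd.mpr dvd_rfl)))
      have h3 : (∑ i ∈ Finset.range r, (q ^ m) ^ i) * (q ^ m - 1) = (q ^ m) ^ r - 1 := by
        have h4 := geom_sum_mul_add (q ^ m - 1) r
        rw [Nat.sub_add_cancel hQ1] at h4
        omega
      rw [mul_comm r m, pow_mul, ← h3, mul_comm m r, mul_assoc]
      exact mul_dvd_mul h2 h1

/-- two-power version -/
theorem dickson_two {Q : ℕ} (hQ : 4 ∣ Q + 1) : ∀ a : ℕ, (Q - 1) * 2 ^ (a + 2) ∣ Q ^ (2 ^ (a + 1)) - 1 := by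
  intro a
  induction a with
  | zero =>
    have h1 : Q ^ (2 ^ (0 + 1)) - 1 = (Q - 1) * (Q + 1) := by
      rw [zero_add, pow_one, pow_two, mul_comm (Q - 1), ← Nat.mul_self_sub_mul_self_eq Q 1]
      
    rw [h1]
    exact mul_dvd_mul dvd_rfl hQ
  | succ a ih =>
    have h1 : Q ^ (2 ^ (a + 1 + 1)) - 1 = (Q ^ (2 ^ (a + 1)) - 1) * (Q ^ (2 ^ (a + 1)) + 1) := by
      rw [pow_succ 2 (a + 1), pow_mul, pow_two, mul_comm (Q ^ (2 ^ (a + 1)) - 1), 
        ← Nat.mul_self_sub_mul_self_eq (Q ^ (2 ^ (a + 1))) 1]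
    rw [h1, pow_succ 2 (a + 2), ← mul_assoc]
    refine mul_dvd_mul ih ?_
    have hodd : Odd Q := by
      obtain ⟨c, hc⟩ := hQ
      exact ⟨2 * c - 1, by omega⟩
    have : Odd (Q ^ (2 ^ (a + 1))) := hodd.pow
    exact (this.add_odd odd_one).two_dvd


theorem padic_le_of_dvd {r a b : ℕ} [hr : Fact r.Prime] (hb : b ≠ 0) (h : a ∣ b) : 
    padicValNat r a ≤ padicValNat r b := by
  rw [← padicValNat_dvd_iff_le hb]
  exact pow_padicValNat_dvd.trans h

/-- minimality -/
theorem dickson_not_dvd {q m r : ℕ} (hq : 2 ≤ q) (hr : r.Prime) (hm : m ≠ 0) (hrq : r ∣ q - 1) 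
    (h4 : 4 ∣ r * m → 4 ∣ q - 1) : ¬ (r * m) * (q - 1) ∣ q ^ m - 1 := by
  intro h
  haveI := Fact.mk hr
  have hq1 : q - 1 ≠ 0 := by omega
  have hQ : 1 < q ^ m := Nat.one_lt_pow hm (by omega)
  have hQ0 : q ^ m - 1 ≠ 0 := by omega
  have hrq' : ¬ r ∣ q := by
    intro h1
    have h2 : r ∣ 1 := by
      have := Nat.dvd_sub h1 hrq
      have e : q - (q - 1) = 1 := by omega
      rwa [e] at this
    exact hr.one_lt.ne' (Nat.dvd_one.mp h2)
  have hle := padic_le_of_dvd (r := r) hQ0 h
  rw [padicValNat.mul (mul_ne_zero hr.ne_zero hm) hq1, padicValNat.mul hr.ne_zero hm, padicValNat.self hr.one_lt] at hle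
  by_cases hr2 : r = 2
  · subst hr2
    rcases Nat.even_or_odd m with hme | hmo
    · have h5 : 4 ∣ q - 1 := by
        apply h4
        obtain ⟨c, hc⟩ := hme
        exact ⟨c, by omega⟩
      have h6 := padicValNat.pow_two_sub_pow (x := q) (y := 1) (by omega) hrq hrq' hm hme
      rw [one_pow] at h6
      have h7 : padicValNat 2 (q + 1) = 1 := by
        have h8 : q + 1 = 2 * ((q + 1) / 2) := by omega
        have h9 : ¬ 2 ∣ (q + 1) / 2 := by omega
        rw [h8, padicValNat.mul (by norm_num) (by omega), padicValNat.self (by norm_num), padicValNat.eq_zero_of_not_dvd h9]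
      omega
    · -- m odd
      have h5 := geom_sum_mul_add (q - 1) m
      rw [Nat.sub_add_cancel (by omega : 1 ≤ q)] at h5
      have h6 : (∑ i ∈ Finset.range m, q ^ i) * (q - 1) = q ^ m - 1 := by omega
      rw [← h6] at h
      have h7 : 2 * m ∣ ∑ i ∈ Finset.range m, q ^ i := Nat.dvd_of_mul_dvd_mul_right (by omega) h
      have h8 : 2 ∣ ∑ i ∈ Finset.range m, q ^ i := (dvd_mul_right 2 m).trans h7
      have hqodd : Odd q := by
        rw [← Nat.not_even_iff_odd, even_iff_two_dvd]; exact hrq'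
      have h9 : Odd (∑ i ∈ Finset.range m, q ^ i) := by
        rw [Finset.odd_sum_iff_odd_card_odd]
        have : (Finset.range m).filter (fun i => Odd (q ^ i)) = Finset.range m := by
          apply Finset.filter_true_of_mem
          intro i _
          exact hqodd.pow
        rw [this, Finset.card_range]
        exact hmo
      rw [← Nat.not_even_iff_odd, even_iff_two_dvd] at h9
      exact h9 h8
  · have hodd : Odd r := hr.odd_of_ne_two hr2
    have h6 := padicValNat.pow_sub_pow (x := q) (y := 1) (p := r) hodd (by omega) hrq hrq' hm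
    rw [one_pow] at h6
    omega


theorem modEq_one_iff {q M k : ℕ} (hq : 1 ≤ q) : q ^ k ≡ 1 [MOD M] ↔ M ∣ q ^ k - 1 := by
  rw [Nat.ModEq.comm]
  exact Nat.modEq_iff_dvd' (Nat.one_le_pow _ _ hq)

theorem modEq_one_iff_order {q M k : ℕ} : q ^ k ≡ 1 [MOD M] ↔ orderOf (q : ZMod M) ∣ k := by
  rw [orderOf_dvd_iff_pow_eq_one, ← ZMod.natCast_eq_natCast_iff]
  push_cast
  rfl

theorem dvd_of_not_pow {r m o a : ℕ} (hr : r.Prime) (ho : o ∣ r * m) (ho0 : o ≠ 0) (ha : r ^ a ∣ r * m) 
    (h : ¬ r ^ a ∣ o) : o ∣ m := by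
  obtain ⟨b, o', hro', rfl⟩ := Nat.exists_eq_pow_mul_and_not_dvd ho0 r hr.ne_one
  have hba : b < a := by
    by_contra hc
    push Not at hc
    exact h ((pow_dvd_pow r hc).mul_right o')
  obtain ⟨a', rfl⟩ : ∃ a', a = a' + 1 := ⟨a - 1, by omega⟩
  have h1 : r ^ a' ∣ m := by
    rw [pow_succ'] at ha
    exact Nat.dvd_of_mul_dvd_mul_left hr.pos ha
  have h2 : r ^ b ∣ m := (pow_dvd_pow r (by omega)).trans h1
  have hc : Nat.Coprime o' r := (Nat.Coprime.symm ((Nat.Prime.coprime_iff_not_dvd hr).mpr hro'))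
  have h3 : o' ∣ m := by
    have : o' ∣ r * m := (dvd_mul_left o' (r ^ b)).trans ho
    exact Nat.Coprime.dvd_of_dvd_mul_left hc this
  exact Nat.Coprime.mul_dvd_of_dvd_of_dvd (Nat.Coprime.pow_left b hc.symm) h2 h3

theorem dickson_iff (q n : ℕ) (hq : 2 ≤ q) (hn : 1 < n) : 
    ((∀ r : ℕ, r.Prime → r ∣ n → r ∣ q - 1) ∧ (4 ∣ n → 4 ∣ q - 1)) ↔ (q ^ n ≡ 1 [MOD n * (q - 1)] ∧ 
      ∀ i : ℕ, 0 < i → i < n → ¬ q ^ i ≡ 1 [MOD n * (q - 1)]) := by
  constructor
  · rintro ⟨H1, H2⟩
    have h0 : q ^ n ≡ 1 [MOD n * (q - 1)] := (modEq_one_iff (by omega)).mpr (dickson_dvd (by omega) n (by omega) H1)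
    refine ⟨h0, ?_⟩
    intro i hi hin h
    rw [modEq_one_iff_order] at h h0
    obtain ⟨c, hc⟩ := h0
    have hd : orderOf (q : ZMod (n * (q - 1))) ≤ i := Nat.le_of_dvd hi h
    have hc1 : c ≠ 1 := by rintro rfl; omega
    obtain ⟨r, hr, c', rfl⟩ := Nat.exists_prime_and_dvd hc1
    have hn' : n = r * (orderOf (q : ZMod (n * (q - 1))) * c') := hc.trans (mul_left_comm _ _ _)
    obtain ⟨m, hm⟩ : ∃ m, m = orderOf (q : ZMod (n * (q - 1))) * c' := ⟨_, rfl⟩
    have h2 : q ^ m ≡ 1 [MOD n * (q - 1)] := by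
      rw [modEq_one_iff_order, hm]; exact dvd_mul_right _ _
    rw [← hm] at hn'
    have hm0 : m ≠ 0 := by rintro rfl; omega
    rw [modEq_one_iff (by omega)] at h2
    have h3 := dickson_not_dvd (q := q) (m := m) hq hr hm0 (H1 r hr (by rw [hn']; exact dvd_mul_right _ _)) 
      (fun h4 => H2 (by rw [hn']; exact h4))
    rw [hn'] at h2
    exact h3 h2
  · rintro ⟨h0, hmin⟩
    have hdvd := (modEq_one_iff (by omega)).mp h0
    have hM : n * (q - 1) ≠ 0 := mul_ne_zero (by omega) (by omega)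
    have hq1 : 1 ≤ q ^ n := Nat.one_le_pow _ _ (by omega)
    have H1 : ∀ r : ℕ, r.Prime → r ∣ n → r ∣ q - 1 := by
      by_contra hcon
      push Not at hcon
      obtain ⟨r0, hr0, hr0n, hr0q⟩ := hcon
      obtain ⟨r, hrm, hrmax⟩ := Finset.exists_max_image (n.primeFactors.filter (fun r => ¬ r ∣ q - 1)) id 
        ⟨r0, by rw [Finset.mem_filter, Nat.mem_primeFactors]; exact ⟨⟨hr0, hr0n, by omega⟩, hr0q⟩⟩
      rw [Finset.mem_filter, Nat.mem_primeFactors] at hrm
      obtain ⟨⟨hr, hrn, -⟩, hrq⟩ := hrm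
      haveI := Fact.mk hr
      obtain ⟨m, hnm⟩ := hrn
      have hm0 : m ≠ 0 := by rintro rfl; omega
      have hmn : m < n := by
        have := hr.one_lt
        rw [hnm]; nlinarith [Nat.pos_of_ne_zero hm0]
      obtain ⟨a, ha⟩ : ∃ a, a = padicValNat r n := ⟨_, rfl⟩
      have ha1 : 1 ≤ a := by
        rw [ha, ← padicValNat_dvd_iff_le (by omega), pow_one, hnm]
        exact dvd_mul_right _ _
      refine hmin m (Nat.pos_of_ne_zero hm0) hmn ((modEq_one_iff (by omega)).mpr ?_)
      rw [Nat.dvd_iff_prime_pow_dvd_dvd]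
      intro s k hs hsk
      rw [← modEq_one_iff (by omega), modEq_one_iff_order]
      have hon : orderOf (q : ZMod (s ^ k)) ∣ n := by
        rw [← modEq_one_iff_order, modEq_one_iff (by omega)]
        exact hsk.trans hdvd
      have ho0 : orderOf (q : ZMod (s ^ k)) ≠ 0 := by
        rintro h; rw [h, zero_dvd_iff] at hon; omega
      rw [hnm] at hon
      refine dvd_of_not_pow hr hon ho0 (a := a) (by rw [← hnm, ha]; exact pow_padicValNat_dvd) ?_
      intro hra
      have hro : r ∣ orderOf (q : ZMod (s ^ k)) := (dvd_pow_self r (by omega)).trans hra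
      rcases Nat.eq_zero_or_pos k with hk | hk
      · have h1 : orderOf (q : ZMod (s ^ k)) ∣ 1 := by
          rw [← modEq_one_iff_order, modEq_one_iff (by omega), hk, pow_zero]
          exact one_dvd _
        exact hr.one_lt.ne' (Nat.dvd_one.mp (hro.trans h1))
      · have hsM : s ∣ n * (q - 1) := (dvd_pow_self s (by omega)).trans hsk
        have hsq : ¬ s ∣ q := by
          intro h1
          have h2 : s ∣ q ^ n := h1.trans (dvd_pow_self q (by omega))
          have h3 := Nat.dvd_sub h2 (hsM.trans hdvd)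
          have e : q ^ n - (q ^ n - 1) = 1 := by omega
          rw [e] at h3
          exact hs.one_lt.ne' (Nat.dvd_one.mp h3)
        have hphi : orderOf (q : ZMod (s ^ k)) ∣ s ^ (k - 1) * (s - 1) := by
          rw [← Nat.totient_prime_pow hs hk, ← modEq_one_iff_order]
          exact Nat.ModEq.pow_totient (Nat.Coprime.pow_right k ((Nat.Prime.coprime_iff_not_dvd hs).mpr hsq).symm)
        by_cases hsr : s = r
        · subst hsr
          have hkn : s ^ k ∣ n := by
            refine Nat.Coprime.dvd_of_dvd_mul_right ?_ hsk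
            exact Nat.Coprime.pow_left k ((Nat.Prime.coprime_iff_not_dvd hs).mpr hrq)
          have hka : k ≤ a := by rw [ha, ← padicValNat_dvd_iff_le (by omega)]; exact hkn
          have h1 : s ^ k ∣ s ^ (k - 1) * (s - 1) := (pow_dvd_pow s hka).trans (hra.trans hphi)
          have h2 : s ^ (k - 1) * s ∣ s ^ (k - 1) * (s - 1) := by
            rwa [← pow_succ, Nat.sub_add_cancel hk]
          have h3 := Nat.dvd_of_mul_dvd_mul_left (pow_pos hs.pos _) h2
          have h4 := Nat.le_of_dvd (by have := hs.one_lt; omega) h3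
          have := hs.one_lt
          omega
        · by_cases hsq1 : s ∣ q - 1
          · have h1 : orderOf (q : ZMod (s ^ k)) ∣ s ^ k := by
              rw [← modEq_one_iff_order, modEq_one_iff (by omega)]
              refine (dvd_mul_right (s ^ k) (q - 1)).trans (dickson_dvd (by omega) (s ^ k) (pow_ne_zero k hs.ne_zero) ?_)
              intro u hu hus
              rw [(Nat.prime_dvd_prime_iff_eq hu hs).mp (hu.dvd_of_dvd_pow hus)]
              exact hsq1
            exact hsr ((Nat.prime_dvd_prime_iff_eq hr hs).mp (hr.dvd_of_dvd_pow (hro.trans h1))).symm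
          · have hsn : s ∣ n := by
              rcases (Nat.Prime.dvd_mul hs).mp hsM with h1 | h1
              · exact h1
              · exact absurd h1 hsq1
            have hle := hrmax s (by rw [Finset.mem_filter, Nat.mem_primeFactors]; exact ⟨⟨hs, hsn, by omega⟩, hsq1⟩)
            simp only [id] at hle
            rcases (Nat.Prime.dvd_mul hr).mp (hro.trans hphi) with h1 | h1
            · exact hsr ((Nat.prime_dvd_prime_iff_eq hr hs).mp (hr.dvd_of_dvd_pow h1)).symm
            · have := Nat.le_of_dvd (by have := hs.one_lt; omega) h1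
              have := hs.one_lt
              omega
    refine ⟨H1, ?_⟩
    intro h4
    by_contra hq4
    have h2q : 2 ∣ q - 1 := H1 2 Nat.prime_two ((by norm_num : 2 ∣ 4).trans h4)
    have hq3 : q % 4 = 3 := by omega
    obtain ⟨a, w, hw, hnw⟩ := Nat.exists_eq_two_pow_mul_odd (n := n) (by omega)
    have ha : 2 ≤ a := by
      by_contra hc
      have ha' : a = 0 ∨ a = 1 := by omega
      obtain ⟨c, hc'⟩ := hw
      rcases ha' with rfl | rfl
      · rw [pow_zero, one_mul] at hnw; omega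
      · rw [pow_one] at hnw; omega
    obtain ⟨b, rfl⟩ : ∃ b, a = b + 2 := ⟨a - 2, by omega⟩
    have hw0 : w ≠ 0 := by rintro rfl; exact absurd hw (by decide)
    have h1 := dickson_dvd (q := q) (by omega) w hw0 (fun r hr hrw => H1 r hr (by rw [hnw]; exact hrw.mul_left _))
    have hQ4 : 4 ∣ q ^ w + 1 := by
      obtain ⟨c, rfl⟩ := hw
      have h5 : q ^ (2 * c + 1) % 4 = 3 := by
        rw [pow_succ, pow_mul, Nat.mul_mod, Nat.pow_mod, Nat.pow_mod q 2 4, hq3]
        norm_num
      omega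
    have h2 := dickson_two hQ4 b
    rw [← pow_mul] at h2
    refine hmin (w * 2 ^ (b + 1)) (by positivity) ?_ ((modEq_one_iff (by omega)).mpr ?_)
    · rw [hnw, pow_succ 2 (b + 1)]
      have : 0 < w * 2 ^ (b + 1) := by positivity
      nlinarith
    · refine dvd_trans ?_ h2
      rw [hnw]
      have : 2 ^ (b + 2) * w * (q - 1) = (w * (q - 1)) * 2 ^ (b + 2) := by ring
      rw [this]
      exact mul_dvd_mul h1 dvd_rfl

end CfsgH2
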