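import Mathlib
import Cfsg.Agent.H1.FrobComp
import Cfsg.Agent.H1.Hall
import Cfsg.Agent.H2.Fitting
import Cfsg.Agent.H2.SolvCent

set_option autoImplicit false

/-! # Element orders and three primes (helper2 library) -/

open Subgroup Cfsg

universe u

namespace CfsgH2

/-- commuting elements of different prime parts -/
theorem exists_order_mul_of_comm {G : Type u} [Group G] [Finite G] {h k : G} (hc : h * k = k * h) {s t : ℕ} (hs : s.Prime) (ht : t.Prime)
    (hst : s ≠ t) (hsh : s ∣ orderOf h) (htk : t ∣ orderOf k) : ∃ g : G, orderOf g = s * t := by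
  have e1 : orderOf (h ^ (orderOf h / s)) = s := orderOf_pow_orderOf_div (orderOf_pos h).ne' hsh
  have e2 : orderOf (k ^ (orderOf k / t)) = t := orderOf_pow_orderOf_div (orderOf_pos k).ne' htk
  have hc' : Commute h k := hc
  refine ⟨h ^ (orderOf h / s) * k ^ (orderOf k / t), ?_⟩
  rw [(hc'.pow_pow _ _).orderOf_mul_eq_mul_orderOf_of_coprime, e1, e2]
  rw [e1, e2]
  exact (Nat.coprime_primes hs ht).2 hst

/-- a solvable group of operators acting fixed point freely has elements of order `s t` -/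
theorem fpf_pair {G : Type u} [Group G] [Finite G] {H K : Subgroup G} (hHK : H ≤ normalizer (K : Set G)) (hK : K ≠ ⊥)
    (hcop : (Nat.card H).Coprime (Nat.card K)) (hHs : Group.IsSolvable H)
    (hfpf : ∀ e ∈ H, e ≠ 1 → ∀ k ∈ K, e * k = k * e → k = 1) (hH : H ≠ ⊥) :
    ∃ s : ℕ, s.Prime ∧ s ∣ Nat.card H ∧ ∀ t : ℕ, t.Prime → t ∣ Nat.card H → t ≠ s →
      ∃ g : G, orderOf g = s * t := by
  haveI : Nontrivial H := (Subgroup.nontrivial_iff_ne_bot H).2 hH
  obtain ⟨M, hMn, hMb, -, hMab, s, hs, hMs, hMp⟩ := CfsgH1.exists_minNormal_pgroup (G := H)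
  haveI : Fact s.Prime := ⟨hs⟩
  let V : Subgroup G := M.map H.subtype
  have hinj : Function.Injective H.subtype := Subtype.val_injective
  have hVH : V ≤ H := by rintro _ ⟨v, hv, rfl⟩; exact v.2
  have hVab : ∀ a ∈ V, ∀ b ∈ V, a * b = b * a := by
    rintro _ ⟨a, ha, rfl⟩ _ ⟨b, hb, rfl⟩
    rw [← map_mul, ← map_mul, hMab a ha b hb]
  have hVcyc := CfsgH1.isCyclic_of_fpf_conj (hVH.trans hHK) hK
    (Nat.Coprime.coprime_dvd_left (Subgroup.card_dvd_of_le hVH) hcop)
    (Or.inl (CfsgH1.isSolvable_of_abelian hVab)) (Or.inl hVab) (fun e he he1 => hfpf e (hVH he) he1)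
  have hVcard : Nat.card V = Nat.card M := Nat.card_congr (M.equivMapOfInjective _ hinj).symm.toEquiv
  have hMcard1 : Nat.card M ≠ 1 := by rw [Ne, Subgroup.card_eq_one]; exact hMb
  have hcardV : Nat.card V = s := by
    obtain ⟨g, hg⟩ := hVcyc.exists_generator
    have h1 : orderOf g = Nat.card V := orderOf_eq_card_of_forall_mem_zpowers hg
    have h2 : orderOf g ∣ s := by
      apply orderOf_dvd_of_pow_eq_one
      apply Subtype.ext
      obtain ⟨m, hm, hm'⟩ := g.2
      show (g : G) ^ s = 1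
      rw [← hm', ← map_pow, hMs m hm, map_one]
    rcases (Nat.dvd_prime hs).1 h2 with h3 | h3
    · exact absurd (by rw [← hVcard, ← h1, h3]) hMcard1
    · rw [← h1, h3]
  have hsH : s ∣ Nat.card H := by rw [← hcardV]; exact Subgroup.card_dvd_of_le hVH
  refine ⟨s, hs, hsH, ?_⟩
  intro t ht htd hts
  haveI : Fact t.Prime := ⟨ht⟩
  obtain ⟨y, hy⟩ := exists_prime_orderOf_dvd_card' (G := H) t htd
  have hyG : orderOf (y : G) = t := by rw [← hy]; exact Subgroup.orderOf_coe y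
  -- E = V ⟨y⟩
  have hyN : zpowers (y : G) ≤ normalizer (V : Set G) := by
    rw [zpowers_le]
    have h1 : H ≤ normalizer (V : Set G) := by
      intro g hg
      rw [mem_normalizer_iff]
      intro v
      constructor
      · rintro ⟨m, hm, rfl⟩
        exact ⟨⟨g, hg⟩ * m * ⟨g, hg⟩⁻¹, hMn.conj_mem m hm ⟨g, hg⟩, rfl⟩
      · rintro ⟨m, hm, hm'⟩
        refine ⟨⟨g, hg⟩⁻¹ * m * ⟨g, hg⟩, ?_, ?_⟩
        · have := hMn.conj_mem m hm (⟨g, hg⟩⁻¹)
          rwa [inv_inv] at this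
        · have h2 : (m : G) = g * v * g⁻¹ := hm'
          show g⁻¹ * (m : G) * g = v
          rw [h2]; group
    exact h1 y.2
  have hzc : Nat.card (zpowers (y : G)) = t := by rw [Nat.card_zpowers, hyG]
  have hdisj : Disjoint V (zpowers (y : G)) := by
    apply Subgroup.disjoint_of_coprime_natCard
    rw [hcardV, hzc]
    exact (Nat.coprime_primes hs ht).2 (Ne.symm hts)
  have hEc : Nat.card (V ⊔ zpowers (y : G) : Subgroup G) = s * t := by
    rw [sup_comm, CfsgH1.card_sup_of_disjoint hyN hdisj.symm.eq_bot, hcardV, hzc, mul_comm]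
  have hEH : V ⊔ zpowers (y : G) ≤ H := sup_le hVH (by rw [zpowers_le]; exact y.2)
  have hEs : Group.IsSolvable (V ⊔ zpowers (y : G) : Subgroup G) := by
    exact isSolvable_sup hyN (CfsgH1.isSolvable_of_abelian hVab) inferInstance
  have hEcyc := CfsgH1.isCyclic_of_fpf_conj (hEH.trans hHK) hK
    (Nat.Coprime.coprime_dvd_left (Subgroup.card_dvd_of_le hEH) hcop)
    (Or.inl hEs) (Or.inr ⟨s, t, hs, ht, hEc⟩) (fun e he he1 => hfpf e (hEH he) he1)
  obtain ⟨g, hg⟩ := hEcyc.exists_generator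
  refine ⟨(g : G), ?_⟩
  rw [← hEc, ← orderOf_eq_card_of_forall_mem_zpowers hg, Subgroup.orderOf_coe]

/-- three primes in a solvable group -/
theorem three_primes {G : Type u} [Group G] [Finite G] [hG : Group.IsSolvable G] {p q r : ℕ} (hp : p.Prime) (hq : q.Prime)
    (hr : r.Prime) (hpq : p ≠ q) (hpr : p ≠ r) (hqr : q ≠ r) (hpd : p ∣ Nat.card G) (hqd : q ∣ Nat.card G) (hrd : r ∣ Nat.card G) :
    ∃ s t : ℕ, s ∈ ({p, q, r} : Set ℕ) ∧ t ∈ ({p, q, r} : Set ℕ) ∧ s ≠ t ∧ ∃ g : G, orderOf g = s * t := by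
  obtain ⟨L, hL1, hL2, -⟩ := CfsgH1.hallD_of_solvable (G := G) ({p, q, r} : Set ℕ)
  have hmem : ∀ s : ℕ, s.Prime → s ∈ ({p, q, r} : Set ℕ) → s ∣ Nat.card L := by
    intro s hs hsm
    have h1 : s ∣ Nat.card L * L.index := by
      rw [L.card_mul_index]
      rcases hsm with rfl | rfl | rfl
      · exact hpd
      · exact hqd
      · exact hrd
    rcases hs.dvd_mul.1 h1 with h2 | h2
    · exact h2
    · exact absurd hsm (hL2 s hs h2)
  have hprime : ∀ s ∈ ({p, q, r} : Set ℕ), s.Prime := by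
    rintro s (rfl | rfl | rfl) <;> assumption
  haveI : Nontrivial L := by
    rw [← Finite.one_lt_card_iff_nontrivial]
    have := Nat.le_of_dvd Nat.card_pos (hmem p hp (Or.inl rfl))
    exact lt_of_lt_of_le hp.one_lt this
  suffices h : ∃ s t : ℕ, s ∈ ({p, q, r} : Set ℕ) ∧ t ∈ ({p, q, r} : Set ℕ) ∧ s ≠ t ∧ ∃ g : L, orderOf g = s * t by
    obtain ⟨s, t, h1, h2, h3, g, hg⟩ := h
    exact ⟨s, t, h1, h2, h3, (g : G), by rw [Subgroup.orderOf_coe, hg]⟩
  obtain ⟨M, hMn, hMb, -, -, s, hs, -, hMp⟩ := CfsgH1.exists_minNormal_pgroup (G := L)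
  haveI : Fact s.Prime := ⟨hs⟩
  have hMc1 : Nat.card M ≠ 1 := by rw [Ne, Subgroup.card_eq_one]; exact hMb
  obtain ⟨k, hk⟩ := IsPGroup.iff_card.1 hMp
  have hsM : s ∣ Nat.card M := by
    rw [hk]
    apply dvd_pow_self
    rintro rfl
    rw [pow_zero] at hk
    exact hMc1 hk
  have hsL : s ∣ Nat.card L := hsM.trans (Subgroup.card_subgroup_dvd_card M)
  have hsmem : s ∈ ({p, q, r} : Set ℕ) := hL1 s hs hsL
  obtain ⟨H, hH1, hH2, -⟩ := CfsgH1.hallD_of_solvable (G := L) ({p, q, r} \ {s} : Set ℕ)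
  have hmemH : ∀ t : ℕ, t ∈ ({p, q, r} : Set ℕ) → t ≠ s → t ∣ Nat.card H := by
    intro t ht hts
    have h1 : t ∣ Nat.card H * H.index := by
      rw [H.card_mul_index]; exact hmem t (hprime t ht) ht
    rcases (hprime t ht).dvd_mul.1 h1 with h2 | h2
    · exact h2
    · exact absurd ⟨ht, by simpa using hts⟩ (hH2 t (hprime t ht) h2)
  by_cases hfpf : ∀ e ∈ H, e ≠ 1 → ∀ k ∈ M, e * k = k * e → k = 1
  · have hcop : (Nat.card H).Coprime (Nat.card M) := by
      apply hH1.coprime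
      rw [hk]
      apply CfsgH1.PiNum.pow hs
      simp
    have hHb : H ≠ ⊥ := by
      rintro rfl
      obtain ⟨t, ht, hts⟩ : ∃ t ∈ ({p, q, r} : Set ℕ), t ≠ s := by
        by_cases h : p = s
        · exact ⟨q, Or.inr (Or.inl rfl), fun h' => hpq (h.trans h'.symm)⟩
        · exact ⟨p, Or.inl rfl, h⟩
      have := hmemH t ht hts
      rw [Subgroup.card_bot] at this
      exact (hprime t ht).one_lt.ne' (Nat.dvd_one.1 this)
    obtain ⟨u, hu, hud, hu2⟩ := fpf_pair (le_normalizer_of_normal : H ≤ normalizer (M : Set L)) hMb hcop inferInstance hfpf hHb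
    obtain ⟨hu3, hu4⟩ := hH1 u hu hud
    obtain ⟨t, ht, hts, htu⟩ : ∃ t ∈ ({p, q, r} : Set ℕ), t ≠ s ∧ t ≠ u := by
      by_contra hcon
      push Not at hcon
      have c1 := hcon p (Or.inl rfl)
      have c2 := hcon q (Or.inr (Or.inl rfl))
      have c3 := hcon r (Or.inr (Or.inr rfl))
      by_cases h1 : p = s
      · have d2 := c2 (fun h => hpq (h1.trans h.symm))
        have d3 := c3 (fun h => hpr (h1.trans h.symm))
        exact hqr (d2.trans d3.symm)
      · have d1 := c1 h1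
        by_cases h2 : q = s
        · exact hpr (d1.trans (c3 (fun h => hqr (h2.trans h.symm))).symm)
        · exact hpq (d1.trans (c2 h2).symm)
    obtain ⟨g, hg⟩ := hu2 t (hprime t ht) (hmemH t ht hts) htu
    exact ⟨u, t, hu3, ht, Ne.symm htu, g, hg⟩
  · push Not at hfpf
    obtain ⟨e, he, he1, k, hk, hek, hk1⟩ := hfpf
    obtain ⟨t, ht, htd⟩ := Nat.exists_prime_and_dvd (n := orderOf e) (by rwa [Ne, orderOf_eq_one_iff])
    have htH : t ∣ Nat.card H := htd.trans (by
      have := orderOf_dvd_natCard (⟨e, he⟩ : H)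
      rwa [Subgroup.orderOf_mk] at this)
    obtain ⟨ht2, ht3⟩ := hH1 t ht htH
    have hts : t ≠ s := by simpa using ht3
    have hsk : s ∣ orderOf k := by
      obtain ⟨j, hj⟩ := (IsPGroup.iff_orderOf.1 hMp) ⟨k, hk⟩
      rw [Subgroup.orderOf_mk] at hj
      rw [hj]
      apply dvd_pow_self
      rintro rfl
      rw [pow_zero] at hj
      exact hk1 (orderOf_eq_one_iff.1 hj)
    obtain ⟨g, hg⟩ := exists_order_mul_of_comm hek ht hs hts htd hsk
    exact ⟨t, s, ht2, hsmem, hts, g, hg⟩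

/-- EPPO: commuting elements are of the same prime type -/
theorem eppo_prime_eq {G : Type u} [Group G] [Finite G] (hpp : ∀ g : G, g ≠ 1 → IsPrimePow (orderOf g))
    {h k : G} (hc : h * k = k * h) {s t : ℕ} (hs : s.Prime) (ht : t.Prime)
    (hsh : s ∣ orderOf h) (htk : t ∣ orderOf k) : s = t := by
  by_contra hst
  obtain ⟨g, hg⟩ := exists_order_mul_of_comm hc hs ht hst hsh htk
  have hg1 : g ≠ 1 := by
    rintro rfl
    rw [orderOf_one] at hg
    exact hs.one_lt.ne' (Nat.eq_one_of_mul_eq_one_right hg.symm)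
  have h1 := hpp g hg1
  rw [hg] at h1
  obtain ⟨p, n, hp, -, hpn⟩ := h1
  have hp' := hp.nat_prime
  have e1 : s = p := (Nat.prime_dvd_prime_iff_eq hs hp').1 (hs.dvd_of_dvd_pow (by rw [hpn]; exact Dvd.intro _ rfl))
  have e2 : t = p := (Nat.prime_dvd_prime_iff_eq ht hp').1 (ht.dvd_of_dvd_pow (by rw [hpn]; exact Dvd.intro_left _ rfl))
  exact hst (e1.trans e2.symm)

/-- a solvable EPPO group has at most two primes -/
theorem eppo_solv_card {G : Type u} [Group G] [Finite G] [hG : Group.IsSolvable G]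
    (hpp : ∀ g : G, g ≠ 1 → IsPrimePow (orderOf g)) : (Nat.card G).primeFactors.card ≤ 2 := by
  by_contra hcon
  push Not at hcon
  obtain ⟨p, hp, q, hq, r, hr, hpq, hpr, hqr⟩ := Finset.two_lt_card.1 hcon
  have hp' := Nat.prime_of_mem_primeFactors hp
  have hq' := Nat.prime_of_mem_primeFactors hq
  have hr' := Nat.prime_of_mem_primeFactors hr
  obtain ⟨s, t, hs, ht, hst, g, hg⟩ := three_primes (G := G) hp' hq' hr' hpq hpr hqr (Nat.dvd_of_mem_primeFactors hp)
    (Nat.dvd_of_mem_primeFactors hq) (Nat.dvd_of_mem_primeFactors hr)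
  have hprime : ∀ s ∈ ({p, q, r} : Set ℕ), s.Prime := by
    rintro s (rfl | rfl | rfl) <;> assumption
  have hs' := hprime s hs
  have ht' := hprime t ht
  apply hst
  exact eppo_prime_eq hpp (rfl : g * g = g * g) hs' ht' (by rw [hg]; exact Dvd.intro _ rfl) (by rw [hg]; exact Dvd.intro_left _ rfl)

end CfsgH2
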