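import Mathlib
import Cfsg.Agent.H2.ThreePrimes
import Cfsg.Agent.H2.MinNorm
import Cfsg.Agent.H2.Kazarin
import Cfsg.Agent.H1.Fit
import Cfsg.Agent.H2.PLayer

set_option autoImplicit false

/-! # Nonsolvable groups with elements of prime power order (helper2 library) -/

open Subgroup Cfsg

universe u

namespace CfsgH2

theorem eppo_comm {G : Type u} [Group G] [Finite G] (hpp : ∀ g : G, g ≠ 1 → IsPrimePow (orderOf g))
    {H K : Subgroup G} (hc : ∀ x ∈ H, ∀ y ∈ K, x * y = y * x) {s t : ℕ} (hs : s.Prime) (ht : t.Prime)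
    (hsh : s ∣ Nat.card H) (htk : t ∣ Nat.card K) : s = t := by
  haveI : Fact s.Prime := ⟨hs⟩
  haveI : Fact t.Prime := ⟨ht⟩
  obtain ⟨x, hx⟩ := exists_prime_orderOf_dvd_card' (G := H) s hsh
  obtain ⟨y, hy⟩ := exists_prime_orderOf_dvd_card' (G := K) t htk
  exact eppo_prime_eq hpp (hc x x.2 y y.2) hs ht (by rw [Subgroup.orderOf_coe, hx]) (by rw [Subgroup.orderOf_coe, hy])

theorem eppo_min_simple {G : Type u} [Group G] [Finite G] [Nontrivial G] (hpp : ∀ g : G, g ≠ 1 → IsPrimePow (orderOf g))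
    (hrad : ∀ N : Subgroup G, N.Normal → Group.IsSolvable N → N = ⊥) :
    ∃ M : Subgroup G, M.Normal ∧ IsSimpleGroup ↥M ∧ ¬ IsMulCommutative ↥M ∧
      ∀ N : Subgroup G, N.Normal → N ≠ ⊥ → M ≤ N := by
  obtain ⟨N, hNn, hNb, hNmin⟩ := CfsgH1.exists_minNormal (G := G)
  obtain ⟨M, m, hMs, hMN, hNM, hm, ⟨e⟩⟩ := min_normal_power N hNb hNmin
  have hMna : ¬ IsMulCommutative M := by
    intro hM
    apply hNb
    apply hrad N hNn
    apply Group.isSolvable_of_comm
    intro a b
    apply e.injective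
    rw [map_mul, map_mul]
    ext i
    simp only [Pi.mul_apply]
    rw [hM.is_comm.comm]
  have hm1 : m = 1 := by
    by_contra hne
    have hm2 : 2 ≤ m := by omega
    obtain ⟨s, hs, hs2, hsd⟩ := exists_prime_ne_dvd hMna Nat.prime_two
    obtain ⟨t, ht, ht2, htd⟩ := exists_prime_ne_dvd hMna hs
    haveI : Fact s.Prime := ⟨hs⟩
    haveI : Fact t.Prime := ⟨ht⟩
    obtain ⟨x, hx⟩ := exists_prime_orderOf_dvd_card' (G := M) s hsd
    obtain ⟨y, hy⟩ := exists_prime_orderOf_dvd_card' (G := M) t htd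
    let i0 : Fin m := ⟨0, by omega⟩
    let i1 : Fin m := ⟨1, by omega⟩
    have hi : i0 ≠ i1 := by simp [i0, i1]
    let a : Fin m → M := Pi.mulSingle i0 x
    let b : Fin m → M := Pi.mulSingle i1 y
    have hab : a * b = b * a := by
      exact (Pi.mulSingle_commute (f := fun _ : Fin m => (M : Type u)) hi x y)
    have h1 : orderOf a = s := by
      rw [← hx]
      exact orderOf_injective (MonoidHom.mulSingle (fun _ : Fin m => (M : Type u)) i0)
        (Pi.mulSingle_injective (M := fun _ : Fin m => (M : Type u)) i0) x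
    have h2 : orderOf b = t := by
      rw [← hy]
      exact orderOf_injective (MonoidHom.mulSingle (fun _ : Fin m => (M : Type u)) i1)
        (Pi.mulSingle_injective (M := fun _ : Fin m => (M : Type u)) i1) y
    have h3 : orderOf ((e.symm a : N) : G) = s := by
      rw [Subgroup.orderOf_coe, MulEquiv.orderOf_eq, h1]
    have h4 : orderOf ((e.symm b : N) : G) = t := by
      rw [Subgroup.orderOf_coe, MulEquiv.orderOf_eq, h2]
    have h5 : ((e.symm a : N) : G) * (e.symm b : N) = (e.symm b : N) * (e.symm a : N) := by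
      have := congrArg e.symm hab
      rw [map_mul, map_mul] at this
      exact congrArg Subtype.val this
    exact ht2 (eppo_prime_eq hpp h5 hs ht (by rw [h3]) (by rw [h4])).symm
  subst hm1
  have e' : N ≃* M := e.trans (MulEquiv.funUnique (Fin 1) M)
  haveI := hMs
  have hNs : IsSimpleGroup N := by
    haveI : Nontrivial N := (Subgroup.nontrivial_iff_ne_bot N).2 hNb
    exact IsSimpleGroup.isSimpleGroup_of_surjective e'.symm.toMonoidHom e'.symm.surjective
  have hNna : ¬ IsMulCommutative N := by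
    intro hN
    apply hMna
    refine ⟨⟨fun a b => ?_⟩⟩
    apply e'.symm.injective
    rw [map_mul, map_mul, hN.is_comm.comm]
  refine ⟨N, hNn, hNs, hNna, ?_⟩
  intro L hL hLb
  haveI := hL
  haveI := hNn
  rcases hNmin (L ⊓ N) inferInstance inf_le_right with h | h
  · exfalso
    have hcomm := commute_of_normalized (N := (⊤ : Subgroup G)) (K := L) (L := N) le_top le_top
      (by rw [Subgroup.normalizer_eq_top]) (by rw [Subgroup.normalizer_eq_top]) h
    obtain ⟨s, hs, hsd⟩ := Nat.exists_prime_and_dvd (n := Nat.card L) (by rw [Ne, Subgroup.card_eq_one]; exact hLb)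
    obtain ⟨t, ht, hts, htd⟩ := exists_prime_ne_dvd hNna hs
    exact hts (eppo_comm hpp hcomm hs ht hsd htd).symm
  · rw [← h]; exact inf_le_left

theorem fpf_unique {G : Type u} [Group G] [Finite G] {H K : Subgroup G} (hHK : H ≤ normalizer (K : Set G)) (hK : K ≠ ⊥)
    (hcop : (Nat.card H).Coprime (Nat.card K)) (hfpf : ∀ e ∈ H, e ≠ 1 → ∀ k ∈ K, e * k = k * e → k = 1)
    {q : ℕ} [hq : Fact q.Prime] (hH : IsPGroup q H) {z z' : G} (hz : z ∈ H) (hz' : z' ∈ H) (h1 : orderOf z = q)
    (h2 : orderOf z' = q) : zpowers z = zpowers z' := by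
  have key := CfsgH1.frob_sylow_unique hHK hK hcop hfpf (p := q) (P := (⊤ : Subgroup H)) (hH.to_subgroup _)
  have hc : ∀ x : G, x ∈ H → orderOf x = q →
      Nat.card (((zpowers x).subgroupOf H).subgroupOf (⊤ : Subgroup H)) = q := by
    intro x hx hxo
    rw [Nat.card_congr (Subgroup.subgroupOfEquivOfLe (le_top : (zpowers x).subgroupOf H ≤ ⊤)).toEquiv,
      Nat.card_congr (Subgroup.subgroupOfEquivOfLe (by rw [zpowers_le]; exact hx : zpowers x ≤ H)).toEquiv,
      Nat.card_zpowers, hxo]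
  have h3 := key _ _ (hc z hz h1) (hc z' hz' h2)
  have hz2 : zpowers z ≤ H := by rw [zpowers_le]; exact hz
  have hz2' : zpowers z' ≤ H := by rw [zpowers_le]; exact hz'
  apply le_antisymm
  · intro x hx
    have h4 : (⟨⟨x, hz2 hx⟩, mem_top _⟩ : (⊤ : Subgroup H)) ∈ ((zpowers z).subgroupOf H).subgroupOf (⊤ : Subgroup H) := by
      rw [mem_subgroupOf, mem_subgroupOf]; exact hx
    rw [h3, mem_subgroupOf, mem_subgroupOf] at h4
    exact h4
  · intro x hx
    have h4 : (⟨⟨x, hz2' hx⟩, mem_top _⟩ : (⊤ : Subgroup H)) ∈ ((zpowers z').subgroupOf H).subgroupOf (⊤ : Subgroup H) := by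
      rw [mem_subgroupOf, mem_subgroupOf]; exact hx
    rw [← h3, mem_subgroupOf, mem_subgroupOf] at h4
    exact h4

/-- the normalizer of a cyclic group with nilpotent (solvable) centralizer is solvable -/
theorem normalizer_zpowers_solvable {G : Type u} [Group G] {z : G} (h : Group.IsSolvable (centralizer (zpowers z : Set G))) :
    Group.IsSolvable (normalizer (zpowers z : Set G)) := by
  have h1 := Subgroup.normalizerMonoidHom_ker (zpowers z)
  letI : CommGroup (MulAut (zpowers z)) :=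
    (IsCyclic.mulAutMulEquiv (zpowers z)).toMonoidHom.commGroupOfInjective (IsCyclic.mulAutMulEquiv (zpowers z)).injective
  haveI : Group.IsSolvable (MulAut (zpowers z)) := Group.isSolvable_of_comm (fun a b => by
    apply (IsCyclic.mulAutMulEquiv (zpowers z)).injective
    rw [map_mul, map_mul, mul_comm])
  haveI := h
  exact Group.isSolvable_of_ker_le_range (Subgroup.inclusion (Subgroup.centralizer_le_normalizer _))
    (Subgroup.normalizerMonoidHom (zpowers z)) (by
      rw [h1, Subgroup.inclusion_range])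

/-- the solvable radical of a nonsolvable EPPO group -/
theorem eppo_radical {G : Type u} [Group G] [Finite G] (hns : ¬ Group.IsSolvable G)
    (hpp : ∀ g : G, g ≠ 1 → IsPrimePow (orderOf g))
    (R : Subgroup G) [R.Normal] (hRs : Group.IsSolvable ↥R) (hRmax : ∀ N : Subgroup G, N.Normal → Group.IsSolvable ↥N → N ≤ R) :
    ∃ p : ℕ, p.Prime ∧ IsPGroup p ↥R := by
  by_cases hR : R = ⊥
  · refine ⟨2, Nat.prime_two, ?_⟩
    subst hR
    exact IsPGroup.of_bot
  -- a nontrivial normal p-subgroup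
  have hF : ∀ (X : Type u) [Group X] [Finite X] (N : Subgroup X), N.Normal → N ≠ ⊥ → Group.IsSolvable N →
      ∃ p : ℕ, p.Prime ∧ pCore p X ≠ ⊥ := by
    intro X _ _ N hN hNb hNs
    haveI := hN
    have h1 := CfsgH1.solvable_normal_centralizer_fitting_le (G := X) hNs
    by_contra hcon
    push Not at hcon
    have h2 : fittingSubgroup X = ⊥ := by
      rw [fittingSubgroup_eq_iSup_pCore, iSup_eq_bot]
      intro p
      exact hcon p (Nat.prime_of_mem_primeFactors p.2)
    have h3 : centralizer ((⊥ : Subgroup X) : Set X) = ⊤ := by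
      rw [eq_top_iff]
      intro x _
      rw [mem_centralizer_iff]
      intro y hy
      rw [SetLike.mem_coe, mem_bot] at hy
      subst hy; simp
    rw [h2, h3, inf_top_eq] at h1
    exact hNb (le_bot_iff.1 h1)
  obtain ⟨p, hp, hpc⟩ := hF G R inferInstance hR hRs
  haveI : Fact p.Prime := ⟨hp⟩
  set P0 := pCore p G with hP0
  have hP0p : IsPGroup p P0 := isPGroup_pCore p
  haveI hP0s : Group.IsSolvable P0 := CfsgH1.isSolvable_of_isPGroup hP0p
  have hP0R : P0 ≤ R := hRmax P0 inferInstance hP0s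
  refine ⟨p, hp, ?_⟩
  by_cases hRP : R = P0
  · rw [hRP]; exact hP0p
  exfalso
  have hRq : R.map (QuotientGroup.mk' P0) ≠ ⊥ := by
    intro h
    rw [Subgroup.map_eq_bot_iff, QuotientGroup.ker_mk'] at h
    exact hRP (le_antisymm h hP0R)
  haveI : (R.map (QuotientGroup.mk' P0)).Normal := Subgroup.Normal.map inferInstance _ (QuotientGroup.mk'_surjective P0)
  obtain ⟨q, hq, hqc⟩ := hF (G ⧸ P0) _ this hRq (CfsgH1.isSolvable_map' _ hRs)
  haveI : Fact q.Prime := ⟨hq⟩
  have hqp : q ≠ p := by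
    rintro rfl
    exact hqc (pCore_quotient_pCore q)
  set Kq := pCore q (G ⧸ P0) with hKq
  have hKqp : IsPGroup q Kq := isPGroup_pCore q
  set K := Kq.comap (QuotientGroup.mk' P0) with hK
  haveI hKn : K.Normal := inferInstance
  have hmap : K.map (QuotientGroup.mk' P0) = Kq := Subgroup.map_comap_eq_self_of_surjective (QuotientGroup.mk'_surjective P0) _
  have hqK : q ∣ Nat.card K := by
    have h1 : q ∣ Nat.card Kq := by
      obtain ⟨n, hn⟩ := IsPGroup.iff_card.1 hKqp
      rw [hn]
      apply dvd_pow_self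
      rintro rfl
      rw [pow_zero, Subgroup.card_eq_one] at hn
      exact hqc hn
    have h2 : Nat.card Kq ∣ Nat.card K := by
      rw [← hmap]; exact Subgroup.card_map_dvd _ _
    exact h1.trans h2
  obtain ⟨Q⟩ : Nonempty (Sylow q K) := inferInstance
  have hQb : (Q : Subgroup K) ≠ ⊥ := Q.ne_bot_of_dvd_card hqK
  set Q1 : Subgroup G := (Q : Subgroup K).map K.subtype with hQ1
  have hQ1K : Q1 ≤ K := by rintro _ ⟨x, hx, rfl⟩; exact x.2
  have hQ1p : IsPGroup q Q1 := Q.2.map _
  have hQ1b : Q1 ≠ ⊥ := by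
    intro h
    rw [hQ1, Subgroup.map_eq_bot_iff, Subgroup.ker_subtype, le_bot_iff] at h
    exact hQb h
  have hfr := Sylow.normalizer_sup_eq_top Q
  have hP0K : P0 ≤ K := by
    intro x hx
    rw [hK, mem_comap, QuotientGroup.mk'_apply, (QuotientGroup.eq_one_iff x).2 hx]
    exact Kq.one_mem
  have hKle : K ≤ P0 ⊔ Q1 := by
    rw [← Subgroup.relIndex_eq_one]
    have h1 : (P0 ⊔ Q1).relIndex K ∣ P0.relIndex K := Subgroup.relIndex_dvd_of_le_left _ le_sup_left
    have h2 : (P0 ⊔ Q1).relIndex K ∣ Q1.relIndex K := Subgroup.relIndex_dvd_of_le_left _ le_sup_right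
    have h3 : Q1.relIndex K = (Q : Subgroup K).index := by
      rw [Subgroup.relIndex, hQ1, Subgroup.subgroupOf, Subgroup.comap_map_eq_self_of_injective K.subtype_injective]
    have h4 : ¬ q ∣ Q1.relIndex K := by rw [h3]; exact Q.not_dvd_index
    have h5 : IsPGroup q (K ⧸ P0.subgroupOf K) := by
      intro x
      obtain ⟨y, rfl⟩ := QuotientGroup.mk_surjective x
      have hy : ((y : G) : G ⧸ P0) ∈ Kq := y.2
      obtain ⟨k, hk⟩ := hKqp ⟨_, hy⟩
      refine ⟨k, ?_⟩
      rw [← QuotientGroup.mk_pow, QuotientGroup.eq_one_iff, mem_subgroupOf]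
      have h6 : (((y : G) : G ⧸ P0)) ^ q ^ k = 1 := congrArg Subtype.val hk
      rw [← QuotientGroup.mk_pow, QuotientGroup.eq_one_iff] at h6
      exact h6
    obtain ⟨n, hn⟩ := IsPGroup.iff_card.1 h5
    have h7 : P0.relIndex K = q ^ n := hn
    rw [h7] at h1
    obtain ⟨m, -, hm⟩ := (Nat.dvd_prime_pow hq).1 h1
    rw [hm]
    rcases Nat.eq_zero_or_pos m with h8 | h8
    · rw [h8, pow_zero]
    · exfalso
      apply h4
      refine dvd_trans ?_ h2
      rw [hm]
      exact dvd_pow_self q h8.ne'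
  have hfpf : ∀ e ∈ Q1, e ≠ 1 → ∀ k ∈ P0, e * k = k * e → k = 1 := by
    intro e he he1 k hk hek
    by_contra hk1
    have h1 : q ∣ orderOf e := by
      obtain ⟨n, hn⟩ := IsPGroup.iff_orderOf.1 hQ1p ⟨e, he⟩
      rw [Subgroup.orderOf_mk] at hn
      rw [hn]; apply dvd_pow_self
      rintro rfl
      rw [pow_zero, orderOf_eq_one_iff] at hn
      exact he1 hn
    have h2 : p ∣ orderOf k := by
      obtain ⟨n, hn⟩ := IsPGroup.iff_orderOf.1 hP0p ⟨k, hk⟩
      rw [Subgroup.orderOf_mk] at hn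
      rw [hn]; apply dvd_pow_self
      rintro rfl
      rw [pow_zero, orderOf_eq_one_iff] at hn
      exact hk1 hn
    exact hqp (eppo_prime_eq hpp hek hq hp h1 h2)
  have hcop : (Nat.card Q1).Coprime (Nat.card P0) := by
    obtain ⟨a, ha⟩ := IsPGroup.iff_card.1 hQ1p
    obtain ⟨b, hb⟩ := IsPGroup.iff_card.1 hP0p
    rw [ha, hb]
    exact Nat.Coprime.pow _ _ ((Nat.coprime_primes hq hp).2 hqp)
  have hqQ1 : q ∣ Nat.card Q1 := by
    obtain ⟨n, hn⟩ := IsPGroup.iff_card.1 hQ1p
    rw [hn]
    apply dvd_pow_self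
    rintro rfl
    rw [pow_zero, Subgroup.card_eq_one] at hn
    exact hQ1b hn
  obtain ⟨z, hz⟩ := exists_prime_orderOf_dvd_card' (G := Q1) q hqQ1
  have hzo : orderOf (z : G) = q := by rw [Subgroup.orderOf_coe, hz]
  have hNle : normalizer (Q1 : Set G) ≤ normalizer (zpowers (z : G) : Set G) := by
    intro g hg
    have h1 : g * z * g⁻¹ ∈ Q1 := (mem_normalizer_iff.1 hg z).1 z.2
    have h2 : orderOf (g * (z : G) * g⁻¹) = q := by
      rw [← hzo]
      exact orderOf_injective (MulAut.conj g).toMonoidHom (MulAut.conj g).injective z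
    have h3 := fpf_unique (le_normalizer_of_normal : Q1 ≤ normalizer (P0 : Set G)) hpc hcop hfpf hQ1p z.2 h1 hzo h2
    rw [mem_normalizer_iff]
    intro x
    constructor
    · rintro ⟨k, rfl⟩
      rw [h3]
      exact ⟨k, by simp⟩
    · intro hx
      rw [h3] at hx
      obtain ⟨k, hk⟩ := hx
      refine ⟨k, ?_⟩
      have h4 : (g * (z : G) * g⁻¹) ^ k = g * x * g⁻¹ := hk
      rw [conj_zpow] at h4
      exact mul_left_cancel (mul_right_cancel h4)
  have hCs : Group.IsSolvable (centralizer (zpowers (z : G) : Set G)) := by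
    apply CfsgH1.isSolvable_of_isPGroup (p := q)
    rw [IsPGroup.iff_orderOf]
    intro x
    refine ⟨_, Nat.eq_prime_pow_of_unique_prime_dvd (orderOf_pos x).ne' (fun {r} hr hd => ?_)⟩
    have h1 : (x : G) * z = z * x := ((mem_centralizer_iff.1 x.2) z (mem_zpowers _)).symm
    rw [← Subgroup.orderOf_coe] at hd
    exact eppo_prime_eq hpp h1 hr hq hd (by rw [hzo])
  have hNs := normalizer_zpowers_solvable hCs
  have hNQs : Group.IsSolvable (normalizer (Q1 : Set G)) := by
    haveI := hNs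
    exact Group.isSolvable_of_isSolvable_injective (f := Subgroup.inclusion hNle) (Subgroup.inclusion_injective hNle)
  have h1 := isSolvable_sup (le_normalizer_of_normal : normalizer (Q1 : Set G) ≤ normalizer (P0 : Set G)) hP0s hNQs
  have h2 : P0 ⊔ normalizer (Q1 : Set G) = ⊤ := by
    rw [eq_top_iff, ← hfr]
    refine sup_le le_sup_right (hKle.trans (sup_le_sup_left le_normalizer _))
  rw [h2] at h1
  apply hns
  haveI := h1
  exact Group.isSolvable_of_isSolvable_injective (f := (Subgroup.topEquiv (G := G)).symm.toMonoidHom)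
    (Subgroup.topEquiv (G := G)).symm.injective

end CfsgH2
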