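import Cfsg.Agent.H2.BalanceAux

/-! # The extended 2-layer (helper2 library) -/

set_option autoImplicit false

namespace CfsgH2
open Cfsg Subgroup
open scoped commutatorElement Pointwise

variable {G : Type*} [Group G]

instance pPrimePCore_characteristic {p : ℕ} [Finite G] : (pPrimePCore p G).Characteristic := by
  rw [Subgroup.characteristic_iff_map_le]
  intro φ
  have hφ : ∀ e : G ≃* G, ∀ x ∈ pPrimePCore p G, e x ∈ pPrimePCore p G := by
    intro e x hx
    let ē : (G ⧸ pPrimeCore p G) ≃* (G ⧸ pPrimeCore p G) :=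
      QuotientGroup.congr _ _ e (pPrimeCore_map_equiv p e)
    have h1 : QuotientGroup.mk' (pPrimeCore p G) x ∈ pCore p (G ⧸ pPrimeCore p G) := hx
    have h2 := pCore_map_equiv p ē
    change QuotientGroup.mk' (pPrimeCore p G) (e x) ∈ pCore p (G ⧸ pPrimeCore p G)
    rw [← h2]
    exact ⟨_, h1, rfl⟩
  rintro _ ⟨x, hx, rfl⟩
  exact hφ φ x hx

/-- `O(C_X(T))` inside `X`. -/
def coreCent (T : Subgroup G) : Subgroup G :=
  (oddCore (centralizer (T : Set G))).map (centralizer (T : Set G)).subtype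

theorem centralizer_map_conj (T : Subgroup G) (g : G) :
    centralizer ((T.map (MulAut.conj g).toMonoidHom : Subgroup G) : Set G) =
      (centralizer (T : Set G)).map (MulAut.conj g).toMonoidHom := by
  have key : ∀ (T : Subgroup G) (g : G), (centralizer (T : Set G)).map (MulAut.conj g).toMonoidHom ≤
      centralizer ((T.map (MulAut.conj g).toMonoidHom : Subgroup G) : Set G) := by
    rintro T g _ ⟨c, hc, rfl⟩
    rw [mem_centralizer_iff]
    rintro _ ⟨t, ht, rfl⟩
    rw [← map_mul, ← map_mul, mem_centralizer_iff.mp hc t ht]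
  apply le_antisymm _ (key T g)
  have h1 := Subgroup.map_mono (f := (MulAut.conj g).toMonoidHom) (key (T.map (MulAut.conj g).toMonoidHom) g⁻¹)
  rwa [← map_conj_mul, mul_inv_cancel, map_conj_one, ← map_conj_mul, inv_mul_cancel, map_conj_one] at h1

theorem pPrimeCore_map_conj {p : ℕ} (H : Subgroup G) (g : G) :
    ((pPrimeCore p H).map H.subtype).map (MulAut.conj g).toMonoidHom =
      (pPrimeCore p (H.map (MulAut.conj g).toMonoidHom)).map (H.map (MulAut.conj g).toMonoidHom).subtype := by
  let e : H ≃* H.map (MulAut.conj g).toMonoidHom := H.equivMapOfInjective _ (MulAut.conj g).injective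
  rw [← pPrimeCore_map_equiv p e, Subgroup.map_map, Subgroup.map_map]
  rfl

theorem coreCent_map_conj (T : Subgroup G) (g : G) :
    coreCent (T.map (MulAut.conj g).toMonoidHom) = (coreCent T).map (MulAut.conj g).toMonoidHom := by
  unfold coreCent
  rw [pPrimeCore_map_conj]
  have h := centralizer_map_conj T g
  have : ∀ M N : Subgroup G, M = N → (pPrimeCore 2 M).map M.subtype = (pPrimeCore 2 N).map N.subtype := by
    rintro M _ rfl; rfl
  exact this _ _ h

/-- `L_{2'}(X) O_{2',2}(X)`. -/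
abbrev VV (G : Type*) [Group G] : Subgroup G := pLayer 2 G ⊔ pPrimePCore 2 G

theorem extendedTwoLayer_eq_sup_coreCent : extendedTwoLayer G = pLayer 2 G ⊔ oddCore G ⊔
    ⨆ T : Sylow 2 (VV G), coreCent ((T : Subgroup (VV G)).map (VV G).subtype) := rfl

/-- For one Sylow 2-subgroup `T` of `V`, `V = (L_{2'}(X) O(X)) T`. -/
theorem VV_eq [Finite G] (T : Sylow 2 (VV G)) :
    (pLayer 2 G ⊔ oddCore G) ⊔ ((T : Subgroup (VV G)).map (VV G).subtype) = VV G := by
  haveI : Fact (Nat.Prime 2) := ⟨Nat.prime_two⟩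
  set R := pLayer 2 G ⊔ oddCore G with hR
  have hRn : R.Normal := inferInstance
  have hRV : R ≤ VV G := sup_le le_sup_left (pPrimeCore_le_pPrimePCore.trans le_sup_right)
  rw [sup_comm]
  refine sylow_map_sup_eq (V := VV G) (O := R) hRV ?_ T
  -- the image of `V` in `G/R` is a quotient of `O_{2',2}/O(X)`
  have h1 : (VV G).map (QuotientGroup.mk' R) = (pPrimePCore 2 G).map (QuotientGroup.mk' R) := by
    rw [VV, Subgroup.map_sup]
    have : (pLayer 2 G).map (QuotientGroup.mk' R) = ⊥ := by
      rw [Subgroup.map_eq_bot_iff, QuotientGroup.ker_mk']; exact le_sup_left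
    rw [this, bot_sup_eq]
  rw [h1]
  rintro ⟨_, x, hx, rfl⟩
  obtain ⟨k, hk⟩ := isPGroup_pCore (G := G ⧸ pPrimeCore 2 G) 2 ⟨_, hx⟩
  refine ⟨k, Subtype.ext ?_⟩
  rw [Subgroup.coe_pow, Subgroup.coe_one]
  change (QuotientGroup.mk' R x) ^ 2 ^ k = 1
  rw [← map_pow]
  apply (QuotientGroup.eq_one_iff _).mpr
  apply (le_sup_right : oddCore G ≤ R)
  apply (QuotientGroup.eq_one_iff _).mp
  have := congrArg Subtype.val hk
  rw [Subgroup.coe_pow, Subgroup.coe_one] at this
  change QuotientGroup.mk' (pPrimeCore 2 G) _ = 1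
  rw [map_pow]; exact this

theorem extendedTwoLayer_eq [Finite G] (T : Sylow 2 (VV G)) :
    extendedTwoLayer G = pLayer 2 G ⊔ oddCore G ⊔ coreCent ((T : Subgroup (VV G)).map (VV G).subtype) := by
  haveI : Fact (Nat.Prime 2) := ⟨Nat.prime_two⟩
  rw [extendedTwoLayer_eq_sup_coreCent]
  apply le_antisymm
  · refine sup_le le_sup_left (iSup_le fun T' => ?_)
    set R := pLayer 2 G ⊔ oddCore G with hR
    have hRn : R.Normal := inferInstance
    obtain ⟨v, hv⟩ := MulAction.exists_smul_eq (VV G) T T'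
    have hT' : (T' : Subgroup (VV G)).map (VV G).subtype =
        ((T : Subgroup (VV G)).map (VV G).subtype).map (MulAut.conj (v : G)).toMonoidHom := by
      rw [← hv, Sylow.coe_subgroup_smul]
      change ((T : Subgroup (VV G)).map (MulAut.conj v).toMonoidHom).map (VV G).subtype = _
      rw [Subgroup.map_map, Subgroup.map_map]
      rfl
    rw [hT']
    set T₁ := (T : Subgroup (VV G)).map (VV G).subtype with hT₁
    have hvV : (v : G) ∈ R ⊔ T₁ := by rw [VV_eq]; exact v.2
    rw [Subgroup.mem_sup_of_normal_left] at hvV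
    obtain ⟨r, hr, t, ht, hrt⟩ := hvV
    rw [← hrt, map_conj_mul, mem_normalizer_iff_map_conj.mp (Subgroup.le_normalizer ht), coreCent_map_conj]
    rintro _ ⟨w, hw, rfl⟩
    have h1 : (MulAut.conj r).toMonoidHom w = (r * (w * r⁻¹ * w⁻¹)) * w := by
      simp [MulAut.conj_apply, mul_assoc]
    rw [h1]
    exact mul_mem ((le_sup_left : R ≤ _) (R.mul_mem hr (hRn.conj_mem _ (R.inv_mem hr) w)))
      ((le_sup_right : coreCent T₁ ≤ _) hw)
  · refine sup_le le_sup_left (le_trans (le_iSup
      (fun T : Sylow 2 (VV G) => coreCent ((T : Subgroup (VV G)).map (VV G).subtype)) T) le_sup_right)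

theorem extendedTwoLayer_normal [Finite G] : (extendedTwoLayer G).Normal := by
  have key : ∀ g : G, (extendedTwoLayer G).map (MulAut.conj g).toMonoidHom ≤ extendedTwoLayer G := by
    intro g
    rw [extendedTwoLayer_eq_sup_coreCent, Subgroup.map_sup, map_conj_of_normal, Subgroup.map_iSup]
    refine sup_le le_sup_left (iSup_le fun T => ?_)
    rw [← coreCent_map_conj]
    have hV : (VV G).Normal := inferInstance
    -- the conjugate Sylow subgroup
    let e : VV G ≃* VV G := MulAut.conjNormal g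
    let T' : Sylow 2 (VV G) := T.comapOfInjective e.symm.toMonoidHom e.symm.injective
      (by rw [MonoidHom.range_eq_top_of_surjective _ e.symm.surjective]; exact le_top)
    have hT' : (T' : Subgroup (VV G)).map (VV G).subtype =
        ((T : Subgroup (VV G)).map (VV G).subtype).map (MulAut.conj g).toMonoidHom := by
      have h1 : (T' : Subgroup (VV G)) = (T : Subgroup (VV G)).map e.toMonoidHom := by
        exact (Subgroup.map_equiv_eq_comap_symm e (T : Subgroup (VV G))).symm
      rw [h1, Subgroup.map_map, Subgroup.map_map]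
      rfl
    rw [← hT']
    exact le_trans (le_iSup
      (fun T : Sylow 2 (VV G) => coreCent ((T : Subgroup (VV G)).map (VV G).subtype)) T') le_sup_right
  refine ⟨fun n hn g => key g ⟨n, hn, rfl⟩⟩

/-- (for `L*`) `L* = L_{2'}(X) F` with `F = O(X) O(C_X(T))` of odd order normalized by a Sylow 2-subgroup. -/
theorem extendedTwoLayer_exists [Finite G] : ∃ F : Subgroup G, Odd (Nat.card ↥F) ∧
    (∃ S : Sylow 2 G, (S : Subgroup G) ≤ Subgroup.normalizer (F : Set G)) ∧
    extendedTwoLayer G = pLayer 2 G ⊔ F := by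
  haveI : Fact (Nat.Prime 2) := ⟨Nat.prime_two⟩
  obtain ⟨S⟩ : Nonempty (Sylow 2 G) := inferInstance
  have hS : CfsgH8.IsSyl 2 (S : Subgroup G) ⊤ := ⟨le_top, S.isPGroup', by
    rw [Subgroup.relIndex_top_right]; exact S.not_dvd_index⟩
  have hVn : (VV G).Normal := inferInstance
  have hT : CfsgH8.IsSyl 2 ((S : Subgroup G) ⊓ VV G) (VV G) := hS.inf_normal le_top (by
    rw [Subgroup.normalizer_eq_top])
  obtain ⟨-, T, hT'⟩ := CfsgH8.isSyl_iff_sylow.mp hT
  have hTmap : (T : Subgroup (VV G)).map (VV G).subtype = (S : Subgroup G) ⊓ VV G := by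
    rw [hT', Subgroup.map_subgroupOf_eq_of_le inf_le_right]
  set T₁ := (S : Subgroup G) ⊓ VV G with hT₁
  set W := coreCent T₁ with hW
  have hWodd : (Nat.card W).Coprime 2 := by
    rw [hW, coreCent, Subgroup.card_map_of_injective (Subgroup.subtype_injective _)]
    exact coprime_card_pPrimeCore 2
  have hFodd : (Nat.card (oddCore G ⊔ W : Subgroup G)).Coprime 2 := by
    have h1 := CfsgH1.card_sup_mul_card_inf (H := W) (K := oddCore G) (CfsgH1.le_normalizer_of_normal _ _)
    have h2 : Nat.card (oddCore G ⊔ W : Subgroup G) ∣ Nat.card W * Nat.card (oddCore G) := by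
      rw [sup_comm]; exact ⟨_, h1.symm⟩
    exact Nat.Coprime.coprime_dvd_left h2 (hWodd.mul_left (coprime_card_pPrimeCore 2))
  refine ⟨oddCore G ⊔ W, ?_, ⟨S, ?_⟩, ?_⟩
  · exact Nat.coprime_two_right.mp hFodd
  · have hST : (S : Subgroup G) ≤ normalizer (T₁ : Set G) :=
      CfsgH1.le_normalizer_inf Subgroup.le_normalizer (by rw [Subgroup.normalizer_eq_top]; exact le_top)
    refine CfsgH1.le_normalizer_sup (CfsgH1.le_normalizer_of_normal _ _) ?_
    intro s hs
    rw [mem_normalizer_iff_map_conj, hW, ← coreCent_map_conj, mem_normalizer_iff_map_conj.mp (hST hs)]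
  · rw [extendedTwoLayer_eq T, hTmap, sup_assoc]

/-- each 2-component is normal in `L*_{2'}(X)`. -/
theorem extendedTwoLayer_le_normalizer [Finite G] {K : Subgroup G} (hK : IsPComponent 2 K) :
    extendedTwoLayer G ≤ normalizer (K : Set G) := by
  haveI : Fact (Nat.Prime 2) := ⟨Nat.prime_two⟩
  obtain ⟨T⟩ : Nonempty (Sylow 2 (VV G)) := inferInstance
  rw [extendedTwoLayer_eq T]
  refine sup_le (sup_le (IsPComponent.pLayer_le_normalizer hK) (IsPComponent.pPrimeCore_le_normalizer hK)) ?_
  intro w hw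
  apply IsPComponent.mem_normalizer_of_mem hK
  set π := QuotientGroup.mk' (pPrimeCore 2 G) with hπ
  set T₁ := (T : Subgroup (VV G)).map (VV G).subtype with hT₁
  set Kb := K.map π with hKb
  have hKbc : IsComponent Kb := hK.2.1
  rw [mem_normalizer_iff_map_conj]
  by_contra hne
  have hcomm := IsComponent.commutator_eq_bot_of_ne (IsComponent.map_conj hKbc (π w)) hKbc hne
  -- `T₁ ∩ K` is a Sylow 2-subgroup of `K`
  have hT₁s : CfsgH8.IsSyl 2 T₁ (VV G) := by
    rw [CfsgH8.isSyl_iff_sylow]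
    refine ⟨Subgroup.map_subtype_le _, T, ?_⟩
    rw [hT₁, Subgroup.subgroupOf, Subgroup.comap_map_eq_self_of_injective (Subgroup.subtype_injective _)]
  have hKV : K ≤ VV G := (IsPComponent.le_pLayer hK).trans le_sup_left
  have hLs : CfsgH8.IsSyl 2 (T₁ ⊓ pLayer 2 G) (pLayer 2 G) :=
    hT₁s.inf_normal le_sup_left (CfsgH1.le_normalizer_of_normal _ _)
  have hKs : CfsgH8.IsSyl 2 (T₁ ⊓ pLayer 2 G ⊓ K) K :=
    hLs.inf_normal (IsPComponent.le_pLayer hK) (IsPComponent.pLayer_le_normalizer hK)
  -- its image is central in `Kb`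
  have hcent : ∀ t ∈ T₁ ⊓ pLayer 2 G ⊓ K, ∀ k ∈ Kb, π t * k = k * π t := by
    intro t ht k hk
    have h1 : π t ∈ Kb.map (MulAut.conj (π w)).toMonoidHom := by
      refine ⟨π t, ⟨t, ht.2, rfl⟩, ?_⟩
      have h2 : w ∈ centralizer (T₁ : Set G) := Subgroup.map_subtype_le _ hw
      have h3 : w * t * w⁻¹ = t := by
        rw [← mem_centralizer_iff.mp h2 t ht.1.1]; group
      change π w * π t * (π w)⁻¹ = π t
      rw [← map_inv, ← map_mul, ← map_mul, h3]
    exact commutator_eq_bot_iff_forall.mp hcomm _ h1 k hk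
  have hdvd : 2 ∣ (center Kb).index :=
    IsQuasisimple.dvd_index_center hKbc.2 Nat.prime_two
      (IsComponent.dvd_card_of_pPrimeCore_eq_bot Nat.prime_two (pPrimeCore_quotient_pPrimeCore 2) hKbc)
  let φ : K →* Kb := π.subgroupMap K
  have hφ : Function.Surjective φ := π.subgroupMap_surjective K
  have h4 : (center Kb).index = ((center Kb).comap φ).index := (Subgroup.index_comap_of_surjective _ hφ).symm
  have h5 : (T₁ ⊓ pLayer 2 G ⊓ K).subgroupOf K ≤ (center Kb).comap φ := by
    intro t ht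
    rw [mem_comap, mem_center_iff]
    intro k
    exact Subtype.ext (hcent t ht k k.2).symm
  rw [h4] at hdvd
  exact hKs.2.2 (hdvd.trans (Subgroup.index_dvd_of_le h5))

end CfsgH2
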