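import Mathlib
import Cfsg.Agent.H1.Basic

set_option autoImplicit false

/-! # Explicit linear groups (helper2 library) -/

namespace CfsgH2

open Subgroup Matrix

abbrev Q4 := ℕ × ℕ × ℕ × ℕ

def mulQ (p : ℕ) (x y : Q4) : Q4 :=
  ((x.1 * y.1 + x.2.1 * y.2.2.1) % p, (x.1 * y.2.1 + x.2.1 * y.2.2.2) % p,
    (x.2.2.1 * y.1 + x.2.2.2 * y.2.2.1) % p, (x.2.2.1 * y.2.1 + x.2.2.2 * y.2.2.2) % p)

def oneQ : Q4 := (1, 0, 0, 1)

def buildQ (p : ℕ) (gens : List Q4) (par : List (ℕ × ℕ)) : List Q4 :=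
  par.foldl (fun acc kj => acc ++ [mulQ p (gens.getD kj.1 oneQ) (acc.getD kj.2 oneQ)]) [oneQ]

def fpQ (p : ℕ) (l : Q4) : Bool := ((l.1 + p - 1) * (l.2.2.2 + p - 1)) % p != (l.2.1 * l.2.2.1) % p

variable {p : ℕ} [hp : Fact p.Prime]

def codeM (M : Matrix (Fin 2) (Fin 2) (ZMod p)) : Q4 := ((M 0 0).val, (M 0 1).val, (M 1 0).val, (M 1 1).val)

theorem codeM_mul (M N : Matrix (Fin 2) (Fin 2) (ZMod p)) : codeM (M * N) = mulQ p (codeM M) (codeM N) := by
  have key : ∀ a b c d : ZMod p, (a * b + c * d).val = (a.val * b.val + c.val * d.val) % p := by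
    intro a b c d
    rw [ZMod.val_add, ZMod.val_mul, ZMod.val_mul, ← Nat.add_mod]
  simp only [codeM, mulQ, Matrix.mul_apply, Fin.sum_univ_two, key]

theorem codeM_inj {M N : Matrix (Fin 2) (Fin 2) (ZMod p)} (h : codeM M = codeM N) : M = N := by
  simp only [codeM, Prod.mk.injEq] at h
  ext i j
  fin_cases i <;> fin_cases j
  · exact ZMod.val_injective p h.1
  · exact ZMod.val_injective p h.2.1
  · exact ZMod.val_injective p h.2.2.1
  · exact ZMod.val_injective p h.2.2.2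

theorem codeM_one : codeM (1 : Matrix (Fin 2) (Fin 2) (ZMod p)) = oneQ := by
  haveI : Fact (1 < p) := ⟨hp.out.one_lt⟩
  simp [codeM, oneQ, ZMod.val_one]

abbrev GL2 (p : ℕ) [Fact p.Prime] := Matrix.GeneralLinearGroup (Fin 2) (ZMod p)

def codeG (g : GL2 p) : Q4 := codeM (g : Matrix (Fin 2) (Fin 2) (ZMod p))

theorem codeG_mul (g h : GL2 p) : codeG (g * h) = mulQ p (codeG g) (codeG h) := codeM_mul _ _

theorem codeG_one : codeG (1 : GL2 p) = oneQ := codeM_one

theorem codeG_inj {g h : GL2 p} (e : codeG g = codeG h) : g = h := Units.ext (codeM_inj e)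

theorem buildQ_mem (K : Subgroup (GL2 p)) (gens : List Q4) (hg : ∀ x ∈ gens, ∃ k ∈ K, codeG k = x) (par : List (ℕ × ℕ)) :
    ∀ x ∈ buildQ p gens par, ∃ k ∈ K, codeG k = x := by
  have hget : ∀ (l : List Q4) (n : ℕ), (∀ x ∈ l, ∃ k ∈ K, codeG k = x) → ∃ k ∈ K, codeG k = l.getD n oneQ := by
    intro l n hl
    by_cases h : n < l.length
    · rw [List.getD_eq_getElem _ _ h]
      exact hl _ (List.getElem_mem h)
    · rw [List.getD_eq_default _ _ (not_lt.1 h)]
      exact ⟨1, one_mem _, codeG_one⟩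
  have main : ∀ (par : List (ℕ × ℕ)) (acc : List Q4), (∀ x ∈ acc, ∃ k ∈ K, codeG k = x) →
      ∀ x ∈ par.foldl (fun acc kj => acc ++ [mulQ p (gens.getD kj.1 oneQ) (acc.getD kj.2 oneQ)]) acc, ∃ k ∈ K, codeG k = x := by
    intro par
    induction par with
    | nil => intro acc hacc x hx; exact hacc x hx
    | cons kj par ih =>
      intro acc hacc
      apply ih
      intro x hx
      rw [List.mem_append, List.mem_singleton] at hx
      rcases hx with hx | rfl
      · exact hacc x hx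
      · obtain ⟨a, ha, hae⟩ := hget gens kj.1 hg
        obtain ⟨b, hb, hbe⟩ := hget acc kj.2 hacc
        exact ⟨a * b, mul_mem ha hb, by rw [codeG_mul, hae, hbe]⟩
  apply main par [oneQ]
  intro x hx
  rw [List.mem_singleton] at hx
  exact ⟨1, one_mem _, by rw [codeG_one, hx]⟩

theorem closure_code (S : Set (GL2 p)) (L : List Q4) (h1 : oneQ ∈ L) (hcl : ∀ g ∈ S, ∀ l ∈ L, mulQ p (codeG g) l ∈ L) :
    ∀ x ∈ Subgroup.closure S, codeG x ∈ L := by
  -- the finite set
  have hfin : Set.Finite {x : GL2 p | codeG x ∈ L} := Set.toFinite _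
  have hinv : ∀ g ∈ S, ∀ x : GL2 p, codeG x ∈ L → codeG (g⁻¹ * x) ∈ L := by
    intro g hg x hx
    have hmaps : Set.MapsTo (fun y => g * y) {x : GL2 p | codeG x ∈ L} {x : GL2 p | codeG x ∈ L} := by
      intro y hy
      show codeG (g * y) ∈ L
      rw [codeG_mul]
      exact hcl g hg _ hy
    have hsurj := ((hfin.injOn_iff_bijOn_of_mapsTo hmaps).1 (fun a _ b _ h => mul_left_cancel h)).surjOn
    obtain ⟨y, hy, hyx⟩ := hsurj hx
    have hyx' : g * y = x := hyx
    rw [← hyx', inv_mul_cancel_left]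
    exact hy
  intro x hx
  induction hx using Subgroup.closure_induction_left with
  | one => rw [codeG_one]; exact h1
  | mul_left g hg y hy ih => rw [codeG_mul]; exact hcl g hg _ ih
  | inv_mul_cancel g hg y hy ih => exact hinv g hg y ih

theorem closure_card (S : Set (GL2 p)) (gens : List Q4) (par : List (ℕ × ℕ)) (hgS : ∀ x ∈ gens, ∃ k ∈ S, codeG k = x)
    (hSg : ∀ g ∈ S, codeG g ∈ gens)
    (hcheck : (gens.all fun g => (buildQ p gens par).all fun l => (buildQ p gens par).contains (mulQ p g l)) = true)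
    (hone : (buildQ p gens par).contains oneQ = true) (hnd : (buildQ p gens par).Nodup) :
    Nat.card (Subgroup.closure S) = (buildQ p gens par).length := by
  set L := buildQ p gens par with hL
  have hsub := closure_code S L (List.contains_iff_mem.1 hone) (by
    intro g hg l hl
    have h1 := List.all_eq_true.1 hcheck _ (hSg g hg)
    exact List.contains_iff_mem.1 (List.all_eq_true.1 h1 l hl))
  have hmem := buildQ_mem (Subgroup.closure S) gens (by
    intro x hx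
    obtain ⟨k, hk, hkx⟩ := hgS x hx
    exact ⟨k, Subgroup.subset_closure hk, hkx⟩) par
  rw [← List.toFinset_card_of_nodup hnd, ← Fintype.card_coe, ← Nat.card_eq_fintype_card]
  refine Nat.card_eq_of_bijective (fun x => ⟨codeG (x : GL2 p), List.mem_toFinset.2 (hsub x x.2)⟩) ⟨?_, ?_⟩
  · intro x y hxy
    exact Subtype.ext (codeG_inj (congrArg Subtype.val hxy))
  · rintro ⟨x, hx⟩
    obtain ⟨k, hk, hkx⟩ := hmem x (List.mem_toFinset.1 hx)
    exact ⟨⟨k, hk⟩, Subtype.ext hkx⟩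

theorem no_fixed (K : Subgroup (GL2 p)) (L : List Q4) (hKL : ∀ x ∈ K, codeG x ∈ L)
    (hcheck : (L.all fun l => l == oneQ || fpQ p l) = true) :
    ∀ x ∈ K, ∀ v : Fin 2 → ZMod p, v ≠ 0 → (x : Matrix (Fin 2) (Fin 2) (ZMod p)) *ᵥ v = v → x = 1 := by
  intro x hx v hv hfix
  have h1 := List.all_eq_true.1 hcheck _ (hKL x hx)
  rw [Bool.or_eq_true, beq_iff_eq] at h1
  rcases h1 with h1 | h1
  · apply codeG_inj; rw [h1, codeG_one]
  exfalso
  have h2 : ((x : Matrix (Fin 2) (Fin 2) (ZMod p)) - 1) *ᵥ v = 0 := by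
    rw [Matrix.sub_mulVec, hfix, Matrix.one_mulVec, sub_self]
  have h3 := Matrix.exists_mulVec_eq_zero_iff.1 ⟨v, hv, h2⟩
  rw [Matrix.det_fin_two] at h3
  simp only [Matrix.sub_apply, Matrix.one_apply_eq, ne_eq, zero_ne_one, not_false_eq_true, Matrix.one_apply_ne, one_ne_zero, sub_zero] at h3
  set M := (x : Matrix (Fin 2) (Fin 2) (ZMod p)) with hM
  have h4 : (((M 0 0).val + p - 1 : ℕ) : ZMod p) * (((M 1 1).val + p - 1 : ℕ) : ZMod p) = ((M 0 1).val : ZMod p) * ((M 1 0).val : ZMod p) := by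
    have hc : ∀ a : ZMod p, ((a.val + p - 1 : ℕ) : ZMod p) = a - 1 := by
      intro a
      rw [Nat.cast_sub (by have := hp.out.one_lt; omega), Nat.cast_add, ZMod.natCast_self, ZMod.natCast_zmod_val]
      simp
    rw [hc, hc, ZMod.natCast_zmod_val, ZMod.natCast_zmod_val]
    linear_combination h3
  have h5 : (((M 0 0).val + p - 1) * ((M 1 1).val + p - 1)) % p = ((M 0 1).val * (M 1 0).val) % p := by
    have h6 : ((((M 0 0).val + p - 1) * ((M 1 1).val + p - 1) : ℕ) : ZMod p) = (((M 0 1).val * (M 1 0).val : ℕ) : ZMod p) := by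
      rw [Nat.cast_mul, Nat.cast_mul]; exact h4
    exact (ZMod.natCast_eq_natCast_iff' _ _ _).1 h6
  have h6 : fpQ p (codeG x) = false := by
    unfold fpQ codeG codeM
    rw [bne_eq_false_iff_eq]
    exact h5
  rw [h6] at h1
  exact absurd h1 (by decide)

/-- regularity -/
theorem regular_of_card (K : Subgroup (GL2 p)) (hc : Nat.card K = p ^ 2 - 1)
    (hf : ∀ x ∈ K, ∀ v : Fin 2 → ZMod p, v ≠ 0 → (x : Matrix (Fin 2) (Fin 2) (ZMod p)) *ᵥ v = v → x = 1) :
    ∀ v w : Fin 2 → ZMod p, v ≠ 0 → w ≠ 0 → ∃! h : K, Matrix.mulVec ((h : GL2 p) : Matrix (Fin 2) (Fin 2) (ZMod p)) v = w := by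
  intro v w hv hw
  have hne : ∀ (x : GL2 p) (v : Fin 2 → ZMod p), v ≠ 0 → (x : Matrix (Fin 2) (Fin 2) (ZMod p)) *ᵥ v ≠ 0 := by
    intro x v hv h
    apply hv
    have h1 : ((x⁻¹ : GL2 p) : Matrix (Fin 2) (Fin 2) (ZMod p)) *ᵥ ((x : Matrix (Fin 2) (Fin 2) (ZMod p)) *ᵥ v) = v := by
      rw [Matrix.mulVec_mulVec, ← Units.val_mul, inv_mul_cancel, Units.val_one, Matrix.one_mulVec]
    rw [h, Matrix.mulVec_zero] at h1
    exact h1.symm
  have hinj : Function.Injective (fun h : K => (⟨((h : GL2 p) : Matrix (Fin 2) (Fin 2) (ZMod p)) *ᵥ v, hne h v hv⟩ : {u : Fin 2 → ZMod p // u ≠ 0})) := by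
    intro x y hxy
    have h1 : ((x : GL2 p) : Matrix (Fin 2) (Fin 2) (ZMod p)) *ᵥ v = ((y : GL2 p) : Matrix (Fin 2) (Fin 2) (ZMod p)) *ᵥ v := congrArg Subtype.val hxy
    have h2 := hf ((y : GL2 p)⁻¹ * x) (mul_mem (inv_mem y.2) x.2) v hv (by
      rw [Units.val_mul, ← Matrix.mulVec_mulVec, h1, Matrix.mulVec_mulVec, ← Units.val_mul, inv_mul_cancel, Units.val_one, Matrix.one_mulVec])
    exact Subtype.ext (inv_mul_eq_one.1 h2).symm
  have hcard : Nat.card K = Nat.card {u : Fin 2 → ZMod p // u ≠ 0} := by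
    classical
    rw [hc, Nat.card_eq_fintype_card, Fintype.card_subtype_compl, Fintype.card_subtype_eq, Fintype.card_fun, ZMod.card, Fintype.card_fin]
  have hbij := (Nat.bijective_iff_injective_and_card _).2 ⟨hinj, hcard⟩
  obtain ⟨h, hh⟩ := hbij.2 ⟨w, hw⟩
  refine ⟨h, congrArg Subtype.val hh, ?_⟩
  intro h' hh'
  apply hinj
  rw [hh]
  exact Subtype.ext hh'

def par5 : List (ℕ × ℕ) := [(0, 0), (1, 0), (2, 0), (0, 1), (1, 1), (2, 1), (0, 2), (2, 2), (1, 3), (2, 3), (0, 4), (1, 4), (2, 4), (1, 6), (2, 6), (2, 7), (2, 8), (0, 9), (2, 9), (2, 13), (2, 14), (2, 16), (2, 18)]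
def par120 : List (ℕ × ℕ) := [(0, 0), (1, 0), (0, 1), (1, 1), (0, 2), (1, 2), (0, 3), (1, 3), (0, 4), (1, 4), (1, 5), (0, 6), (1, 7), (0, 8), (1, 8), (1, 9), (0, 10), (0, 11), (1, 11), (1, 12), (0, 13), (1, 13), (1, 14), (0, 15), (0, 16), (1, 16), (1, 17), (1, 18), (0, 19), (0, 20), (1, 20), (1, 21), (0, 22), (0, 23), (1, 23), (1, 24), (1, 25), (0, 26), (0, 27), (1, 27), (1, 28), (1, 29), (1, 30), (0, 32), (1, 32), (1, 33), (1, 34), (0, 35), (0, 36), (1, 36), (1, 37), (1, 38), (1, 39), (0, 41), (0, 42), (1, 42), (1, 43), (1, 44), (0, 45), (0, 46), (1, 46), (1, 47), (1, 48), (1, 49), (0, 51), (0, 52), (1, 52), (1, 53), (1, 54), (1, 55), (0, 57), (1, 58), (1, 59), (1, 60), (0, 62), (0, 63), (1, 63), (1, 64), (1, 65), (1, 66), (0, 68), (0, 69), (1, 69), (1, 70), (1, 71), (0, 72), (0, 73), (1, 73), (1, 74), (1, 75), (1, 76), (0, 78), (0, 79), (1, 79), (1, 80), (1, 81), (1, 82), (0, 84), (0, 85), (1, 86), (1, 87), (0, 90), (1, 90), (1,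 91), (1, 92), (0, 95), (0, 96), (1, 97), (1, 98), (1, 99), (0, 100), (1, 100), (1, 101), (0, 105), (1, 106), (1, 107), (0, 108), (0, 109), (1, 110)]

theorem card5 : (buildQ 5 [(2, 0, 0, 3), (0, 4, 1, 0), (1, 2, 1, 3)] par5).length = 24 := by decide +kernel
theorem card11 : (buildQ 11 [(0, 10, 1, 0), (2, 4, 1, 8)] par120).length = 120 := by decide +kernel
theorem card59 : (buildQ 59 [(0, 58, 1, 0), (9, 15, 49, 49)] par120).length = 120 := by decide +kernel

theorem nd5 : (buildQ 5 [(2, 0, 0, 3), (0, 4, 1, 0), (1, 2, 1, 3)] par5).Nodup := by decide +kernel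
theorem nd11 : (buildQ 11 [(0, 10, 1, 0), (2, 4, 1, 8)] par120).Nodup := by decide +kernel
theorem nd59 : (buildQ 59 [(0, 58, 1, 0), (9, 15, 49, 49)] par120).Nodup := by decide +kernel

theorem cl5 : ([(2, 0, 0, 3), (0, 4, 1, 0), (1, 2, 1, 3)].all fun g => (buildQ 5 [(2, 0, 0, 3), (0, 4, 1, 0), (1, 2, 1, 3)] par5).all fun l =>
    (buildQ 5 [(2, 0, 0, 3), (0, 4, 1, 0), (1, 2, 1, 3)] par5).contains (mulQ 5 g l)) = true := by decide +kernel
theorem cl11 : ([(0, 10, 1, 0), (2, 4, 1, 8)].all fun g => (buildQ 11 [(0, 10, 1, 0), (2, 4, 1, 8)] par120).all fun l =>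
    (buildQ 11 [(0, 10, 1, 0), (2, 4, 1, 8)] par120).contains (mulQ 11 g l)) = true := by decide +kernel
theorem cl59 : ([(0, 58, 1, 0), (9, 15, 49, 49)].all fun g => (buildQ 59 [(0, 58, 1, 0), (9, 15, 49, 49)] par120).all fun l =>
    (buildQ 59 [(0, 58, 1, 0), (9, 15, 49, 49)] par120).contains (mulQ 59 g l)) = true := by decide +kernel


theorem fp5 : ((buildQ 5 [(2, 0, 0, 3), (0, 4, 1, 0), (1, 2, 1, 3)] par5).all fun l => l == oneQ || fpQ 5 l) = true := by decide +kernel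
theorem fp11 : ((buildQ 11 [(0, 10, 1, 0), (2, 4, 1, 8)] par120).all fun l => l == oneQ || fpQ 11 l) = true := by decide +kernel
theorem fp59 : ((buildQ 59 [(0, 58, 1, 0), (9, 15, 49, 49)] par120).all fun l => l == oneQ || fpQ 59 l) = true := by decide +kernel

/-- order and absence of fixed vectors for an explicit group -/
theorem closure_main (S : Set (GL2 p)) (gens : List Q4) (par : List (ℕ × ℕ)) (hgS : ∀ x ∈ gens, ∃ k ∈ S, codeG k = x)
    (hSg : ∀ g ∈ S, codeG g ∈ gens)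
    (hcheck : (gens.all fun g => (buildQ p gens par).all fun l => (buildQ p gens par).contains (mulQ p g l)) = true)
    (hone : (buildQ p gens par).contains oneQ = true) (hnd : (buildQ p gens par).Nodup)
    (hfp : ((buildQ p gens par).all fun l => l == oneQ || fpQ p l) = true) :
    Nat.card (Subgroup.closure S) = (buildQ p gens par).length ∧
    ∀ x ∈ Subgroup.closure S, ∀ v : Fin 2 → ZMod p, v ≠ 0 → (x : Matrix (Fin 2) (Fin 2) (ZMod p)) *ᵥ v = v → x = 1 := by
  refine ⟨closure_card S gens par hgS hSg hcheck hone hnd, ?_⟩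
  apply no_fixed _ (buildQ p gens par) _ hfp
  exact closure_code S _ (List.contains_iff_mem.1 hone) (by
    intro g hg l hl
    have h1 := List.all_eq_true.1 hcheck _ (hSg g hg)
    exact List.contains_iff_mem.1 (List.all_eq_true.1 h1 l hl))

end CfsgH2
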