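import Cfsg.Agent.H2.LocBal3

/-! p'-subgroups of cores of centralizers of elements of order p act on components. -/

set_option autoImplicit false

namespace CfsgH2

open Subgroup Cfsg
open scoped commutatorElement

variable {Q : Type*} [Group Q] {p : ℕ}

theorem comm_of_pow_comm {x : Q} {m : ℕ} (hx : x ^ (p ^ m) = 1) {n : ℕ} (hn : n.Coprime p) {e : Q} 
    (h : x ^ n * e = e * x ^ n) : x * e = e * x := by
  have h1 : n.Coprime (orderOf x) := by
    have h2 : orderOf x ∣ p ^ m := orderOf_dvd_of_pow_eq_one hx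
    exact Nat.Coprime.coprime_dvd_right h2 (Nat.Coprime.pow_right m hn)
  obtain ⟨k, hk⟩ := exists_pow_eq_self_of_coprime h1
  have h2 : Commute (x ^ n) e := h
  have h3 := h2.pow_left k
  rw [hk] at h3
  exact h3

variable [hp : Fact p.Prime] [Finite Q]

theorem pcomp_sylow_not_central {E : Subgroup Q} (hE : IsComponent E) (hO : pPrimeCore p Q = ⊥)
    (S : Sylow p E) : ¬ (S : Subgroup E) ≤ center E := by
  intro hS
  have h1 := IsComponent.dvd_card_of_pPrimeCore_eq_bot hp.out hO hE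
  have h2 := IsQuasisimple.dvd_index_center hE.2 hp.out h1
  exact S.not_dvd_index (h2.trans (index_dvd_of_le hS))

theorem pcomp_exists_pelem {E : Subgroup Q} (hE : IsComponent E) (hO : pPrimeCore p Q = ⊥) :
    ∃ x ∈ E, (∃ m : ℕ, x ^ (p ^ m) = 1) ∧ ∃ e ∈ E, x * e ≠ e * x := by
  obtain ⟨S⟩ : Nonempty (Sylow p E) := inferInstance
  have h1 := pcomp_sylow_not_central hE hO S
  rw [SetLike.not_le_iff_exists] at h1
  obtain ⟨x, hx, hxc⟩ := h1
  rw [mem_center_iff] at hxc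
  push Not at hxc
  obtain ⟨e, he⟩ := hxc
  obtain ⟨m, hm⟩ := S.isPGroup' ⟨x, hx⟩
  refine ⟨x, x.2, ⟨m, ?_⟩, e, e.2, ?_⟩
  · have := congrArg (fun w : S => ((w : E) : Q)) hm
    exact this
  · intro h2
    exact he (Subtype.ext h2.symm)

theorem pcomp_exists_elem {Ea : Subgroup Q} (hE : IsComponent Ea) (hO : pPrimeCore p Q = ⊥) {t : Q}
    (ht : t ^ p = 1) (htn' : t ∈ normalizer (Ea : Set Q)) : 
    ∃ x ∈ Ea, (∃ m : ℕ, x ^ (p ^ m) = 1) ∧ (∃ e ∈ Ea, x * e ≠ e * x) ∧ 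
      (∀ e ∈ Ea, (x⁻¹ * (t * x * t⁻¹)) * e = e * (x⁻¹ * (t * x * t⁻¹))) ∧ 
      ∃ m : ℕ, (x⁻¹ * (t * x * t⁻¹)) ^ (p ^ m) = 1 := by
  have ht2 : IsPGroup p (zpowers t) := by
    rintro ⟨y, hy⟩
    obtain ⟨k, rfl⟩ := mem_zpowers_iff.mp hy
    refine ⟨1, Subtype.ext ?_⟩
    change (t ^ k) ^ (p ^ 1) = 1
    rw [pow_one, ← zpow_natCast, ← zpow_mul, mul_comm, zpow_mul]
    have : t ^ (p : ℤ) = 1 := by rw [zpow_natCast, ht]
    rw [this, one_zpow]
  have htE : ∀ e ∈ Ea, t * e * t⁻¹ ∈ Ea := fun e he => (mem_normalizer_iff.mp htn' e).mp he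
  have htn : zpowers t ≤ normalizer (Ea : Set Q) := by rwa [zpowers_le]
  -- a Sylow 2-subgroup of ⟨Ea, t⟩ containing t
  let T : Subgroup Q := Ea ⊔ zpowers t
  have hTn : T ≤ normalizer (Ea : Set Q) := sup_le le_normalizer htn
  have hET : Ea ≤ T := le_sup_left
  have htT : t ∈ T := (le_sup_right : zpowers t ≤ T) (mem_zpowers t)
  obtain ⟨P, hP⟩ := (ht2.of_equiv (subgroupOfEquivOfLe (le_sup_right : zpowers t ≤ T)).symm).exists_le_sylow
  have htP : (⟨t, htT⟩ : T) ∈ P := hP (mem_subgroupOf.mpr (mem_zpowers t))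
  have hEn : (Ea.subgroupOf T).Normal := (normal_subgroupOf_iff_le_normalizer hET).mpr hTn
  -- its intersection with Ea is a Sylow subgroup of Ea
  have hex : ∃ x₀ ∈ Ea, (∃ hx : x₀ ∈ T, (⟨x₀, hx⟩ : T) ∈ P) ∧ ∃ e ∈ Ea, x₀ * e ≠ e * x₀ := by
    by_contra hcon
    push Not at hcon
    -- pick a Sylow 2-subgroup of Ea; it is conjugate into P
    obtain ⟨S⟩ : Nonempty (Sylow p Ea) := inferInstance
    apply pcomp_sylow_not_central hE hO S
    intro s hs
    -- S mapped into T is a 2-subgroup, contained in a Sylow conjugate of P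
    have hSp : IsPGroup p ((S : Subgroup Ea).map (inclusion hET)) := S.isPGroup'.map _
    obtain ⟨R, hR⟩ := hSp.exists_le_sylow
    obtain ⟨g, hg⟩ := MulAction.exists_smul_eq T R P
    have hsQ : inclusion hET s ∈ R := hR ⟨s, hs, rfl⟩
    have hgP : g * inclusion hET s * g⁻¹ ∈ P := by
      rw [← hg, Sylow.smul_def]
      exact ⟨inclusion hET s, hsQ, rfl⟩
    have hgE : (g : Q) * s * (g : Q)⁻¹ ∈ Ea := CfsgH1.le_normalizer_iff_conj.mp hTn g g.2 s s.2
    have h1 := hcon _ hgE ⟨(g * inclusion hET s * g⁻¹).2, hgP⟩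
    rw [mem_center_iff]
    intro e
    apply Subtype.ext
    have h2 := h1 ((g : Q) * (e : Q) * (g : Q)⁻¹) (CfsgH1.le_normalizer_iff_conj.mp hTn g g.2 e e.2)
    have h3 : (g : Q) * ((s : Q) * (e : Q)) * (g : Q)⁻¹ = (g : Q) * ((e : Q) * (s : Q)) * (g : Q)⁻¹ := by
      calc (g : Q) * ((s : Q) * (e : Q)) * (g : Q)⁻¹ = ((g : Q) * (s : Q) * (g : Q)⁻¹) * ((g : Q) * (e : Q) * (g : Q)⁻¹) := by group
        _ = ((g : Q) * (e : Q) * (g : Q)⁻¹) * ((g : Q) * (s : Q) * (g : Q)⁻¹) := h2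
        _ = _ := by group
    exact (mul_left_cancel (mul_right_cancel h3)).symm
  obtain ⟨x₀, hx₀E, ⟨hx₀T, hx₀P⟩, hx₀⟩ := hex
  -- iterate commutation with t
  let τ : P := ⟨⟨t, htT⟩, htP⟩
  have hnil : Group.IsNilpotent P := P.isPGroup'.isNilpotent
  let f : ℕ → P := fun n => Nat.rec ⟨⟨x₀, hx₀T⟩, hx₀P⟩ (fun _ x => ⁅x⁻¹, τ⁆) n
  have hf0 : f 0 = ⟨⟨x₀, hx₀T⟩, hx₀P⟩ := rfl
  have hfs : ∀ n, f (n + 1) = ⁅(f n)⁻¹, τ⁆ := fun n => rfl
  have hflcs : ∀ n, f n ∈ (⊤ : Subgroup P).lowerCentralSeries n := by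
    intro n
    induction n with
    | zero => exact mem_top _
    | succ n ih =>
      rw [hfs, Subgroup.lowerCentralSeries_succ]
      exact commutator_mem_commutator (inv_mem ih) (mem_top _)
  obtain ⟨M, hM⟩ := Subgroup.nilpotent_iff_lowerCentralSeries.mp hnil
  have hfM : f M = 1 := by
    have := hflcs M
    rw [hM] at this
    exact mem_bot.mp this
  have hfE : ∀ n, (f n).1.1 ∈ Ea := by
    intro n
    induction n with
    | zero => exact hx₀E
    | succ n ih =>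
      have h1 : (f (n + 1)).1.1 = (f n).1.1⁻¹ * (t * (f n).1.1 * t⁻¹) := by
        rw [hfs, commutatorElement_def]
        change (f n).1.1⁻¹ * t * (f n).1.1⁻¹⁻¹ * t⁻¹ = _
        group
      rw [h1]
      exact Ea.mul_mem (Ea.inv_mem ih) (htE _ ih)
  -- the last non-central one
  have hex2 : ∃ n, ∀ e ∈ Ea, (f n).1.1 * e = e * (f n).1.1 := ⟨M, fun e _ => by
    rw [hfM]; change 1 * e = e * 1; group⟩
  classical
  set n := Nat.find hex2 with hn
  have hn1 := Nat.find_spec hex2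
  have hn0 : n ≠ 0 := by
    intro h0
    obtain ⟨e, he, hne⟩ := hx₀
    rw [← hn, h0] at hn1
    exact hne (hn1 e he)
  obtain ⟨k, hk⟩ := Nat.exists_eq_succ_of_ne_zero hn0
  have hk2 := Nat.find_min hex2 (show k < Nat.find hex2 by rw [← hn]; omega)
  push Not at hk2
  have h1 : (f (k + 1)).1.1 = (f k).1.1⁻¹ * (t * (f k).1.1 * t⁻¹) := by
    rw [hfs, commutatorElement_def]
    change (f k).1.1⁻¹ * t * (f k).1.1⁻¹⁻¹ * t⁻¹ = _
    group
  have h2el : ∀ w : P, ∃ m : ℕ, w.1.1 ^ (p ^ m) = 1 := by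
    intro w
    obtain ⟨m, hm⟩ := P.isPGroup' w
    refine ⟨m, ?_⟩
    have := congrArg (fun w : P => w.1.1) hm
    exact this
  refine ⟨(f k).1.1, hfE k, h2el _, hk2, ?_, ?_⟩
  · rw [← h1]
    have : k + 1 = Nat.find hex2 := by rw [← hn, hk]
    rw [this]; exact hn1
  · rw [← h1]; exact h2el _

theorem pcomp_mem_pCore {E : Subgroup Q} (hE : IsComponent E) {e : Q} (hz : e ∈ E)
    (hc : ∀ g ∈ E, e * g = g * e) {m : ℕ} (hm : e ^ (p ^ m) = 1) : e ∈ pCore p Q := by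
  have hle : zpowers e ≤ E := by rwa [zpowers_le]
  have h1 : (zpowers e).IsSubnormal := by
    refine IsSubnormal.step _ E hle hE.1 ?_
    rw [normal_subgroupOf_iff_le_normalizer hle]
    intro g hg
    have hge : g * e = e * g := (hc g hg).symm
    refine (CfsgH1.le_normalizer_iff_conj (H := zpowers g)).mpr ?_ (mem_zpowers g)
    intro a ha x hx
    obtain ⟨i, rfl⟩ := mem_zpowers_iff.mp ha
    obtain ⟨k, rfl⟩ := mem_zpowers_iff.mp hx
    have h2 : Commute (g ^ i) (e ^ k) := ((show Commute g e from hge).zpow_left i).zpow_right k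
    rw [h2.eq, mul_inv_cancel_right]
    exact hx
  have h2 : IsPGroup p (zpowers e) := by
    rintro ⟨y, hy⟩
    obtain ⟨k, rfl⟩ := mem_zpowers_iff.mp hy
    refine ⟨m, Subtype.ext ?_⟩
    change (e ^ k) ^ (p ^ m) = 1
    rw [← zpow_natCast, ← zpow_mul, mul_comm, zpow_mul, zpow_natCast, hm, one_zpow]
  exact IsSubnormal.le_pCore h1 h2 (mem_zpowers e)

section core

variable {t : Q}

theorem cpc_pow {o : Q} (ho : o ∈ centralizerPPrimeCore p t) : o ^ Nat.card (centralizerPPrimeCore p t) = 1 := by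
  have h1 : (⟨o, ho⟩ : centralizerPPrimeCore p t) ^ Nat.card (centralizerPPrimeCore p t) = 1 := pow_card_eq_one'
  exact congrArg Subtype.val h1

theorem cpc_comm {y : Q} (hy : y ∈ centralizerPPrimeCore p t) : t * y = y * t := 
  mem_centralizer_singleton_iff'.mp (centralizerPPrimeCore_le _ hy)

theorem cpc_conj {c y : Q} (hc : t * c = c * t) (hy : y ∈ centralizerPPrimeCore p t) : 
    c * y * c⁻¹ ∈ centralizerPPrimeCore p t :=
  CfsgH1.le_normalizer_iff_conj.mp (centralizer_le_normalizer_centralizerPPrimeCore t) c 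
    (mem_centralizer_singleton_iff'.mpr hc) y hy

theorem pcomp_comm {E F : Subgroup Q} (hE : IsComponent E) (hF : IsComponent F) (hne : E ≠ F) : 
    ∀ x ∈ E, ∀ y ∈ F, Commute x y := by
  intro x hx y hy
  have h1 := commutator_eq_bot_iff_le_centralizer.mp (IsComponent.commutator_eq_bot_of_ne hE hF hne)
  exact (mem_centralizer_iff.mp (h1 hx) y hy).symm

/-- elements of the core centralise a component centralised by `t` -/
theorem pcomp_centralised (hO : pPrimeCore p Q = ⊥)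
    {E : Subgroup Q} (hE : IsComponent E) (hEt : ∀ e ∈ E, t * e = e * t) {y : Q} 
    (hy : y ∈ centralizerPPrimeCore p t) : ∀ k ∈ E, y * k = k * y := by
  have hEC : E ≤ centralizer ({t} : Set Q) := fun e he => mem_centralizer_singleton_iff'.mpr (hEt e he)
  have h1 : IsComponent (E.subgroupOf (centralizer ({t} : Set Q))) := IsComponent.subgroupOf hE hEC
  rcases IsComponent.le_or_commutator_eq_bot_of_normal h1 
    (N := pPrimeCore p (centralizer ({t} : Set Q))) inferInstance with h | h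
  · exfalso
    have h2 := IsComponent.dvd_card_of_pPrimeCore_eq_bot hp.out hO hE
    rw [← Nat.card_congr (subgroupOfEquivOfLe hEC).toEquiv] at h2
    have h3 := h2.trans (card_dvd_of_le h)
    have h4 := coprime_card_pPrimeCore p (G := centralizer ({t} : Set Q))
    exact (Nat.Prime.coprime_iff_not_dvd hp.out).mp h4.symm h3
  · obtain ⟨y', hy', rfl⟩ := hy
    intro k hk
    have h2 := commutator_eq_bot_iff_le_centralizer.mp h (show (⟨k, hEC hk⟩ : centralizer ({t} : Set Q)) ∈ _ from mem_subgroupOf.mpr hk)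
    exact congrArg Subtype.val (mem_centralizer_iff.mp h2 y' hy')

/-- elements of the core normalise a component normalised by `t` -/
theorem pcomp_fixed (hO : pPrimeCore p Q = ⊥) (ht : orderOf t = p)
    {Ea : Subgroup Q} (hE : IsComponent Ea) (hEt : t ∈ normalizer (Ea : Set Q)) {y : Q} 
    (hy : y ∈ centralizerPPrimeCore p t) : Ea.map (MulAut.conj y).toMonoidHom = Ea := by
  by_contra hne
  have hty := cpc_comm hy
  have htp : t ^ p = 1 := by rw [← ht]; exact pow_orderOf_eq_one t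
  have hE1 : IsComponent (Ea.map (MulAut.conj y).toMonoidHom) := IsComponent.map_conj hE y
  have hE2 : IsComponent (Ea.map (MulAut.conj (y * y)).toMonoidHom) := IsComponent.map_conj hE (y * y)
  have htE : ∀ e ∈ Ea, t * e * t⁻¹ ∈ Ea := fun e he => (mem_normalizer_iff.mp hEt e).mp he
  obtain ⟨x, hx, ⟨m, hm⟩, ⟨e, he, hxe⟩, hzc, m', hzm⟩ := pcomp_exists_elem hE hO htp hEt
  obtain ⟨z, hz⟩ : ∃ z, z = x⁻¹ * (t * x * t⁻¹) := ⟨_, rfl⟩
  rw [← hz] at hzc hzm
  have hzE : z ∈ Ea := by rw [hz]; exact Ea.mul_mem (Ea.inv_mem hx) (htE x hx)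
  have hzO : z ∈ pCore p Q := pcomp_mem_pCore hE hzE hzc hzm
  have hyz : z * y = y * z := mem_centralizer_iff.mp (centralizerPPrimeCore_le_centralizer_pCore ht hy) z hzO
  have hxt : t * x * t⁻¹ = x * z := by rw [hz]; group
  obtain ⟨u, hu⟩ : ∃ u, u = x * (y * x⁻¹ * y⁻¹) := ⟨_, rfl⟩
  have hut : t * u * t⁻¹ = u := by
    calc t * u * t⁻¹ = (t * x * t⁻¹) * ((t * y) * x⁻¹ * (t * y)⁻¹) := by rw [hu]; group
      _ = (t * x * t⁻¹) * (y * (t * x * t⁻¹)⁻¹ * y⁻¹) := by rw [hty]; group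
      _ = x * z * (y * z⁻¹) * x⁻¹ * y⁻¹ := by rw [hxt]; group
      _ = x * z * (z⁻¹ * y) * x⁻¹ * y⁻¹ := by
          congr 3
          rw [eq_inv_mul_iff_mul_eq, ← mul_assoc, hyz]; group
      _ = u := by rw [hu]; group
  have huO : u⁻¹ * y * u * y⁻¹ ∈ centralizerPPrimeCore p t := by
    have h0 : t * u⁻¹ = u⁻¹ * t := by
      have : Commute t u := mul_inv_eq_iff_eq_mul.mp hut
      exact this.inv_right.eq
    have h1 := cpc_conj h0 hy
    rw [inv_inv] at h1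
    exact mul_mem h1 (inv_mem hy)
  have hx1 : y * x * y⁻¹ ∈ Ea.map (MulAut.conj y).toMonoidHom := conj_mem_map hx
  have hx2 : (y * y) * x * (y * y)⁻¹ ∈ Ea.map (MulAut.conj (y * y)).toMonoidHom := conj_mem_map hx
  obtain ⟨x1, hx1d⟩ : ∃ x1, x1 = y * x * y⁻¹ := ⟨_, rfl⟩
  obtain ⟨x2, hx2d⟩ : ∃ x2, x2 = (y * y) * x * (y * y)⁻¹ := ⟨_, rfl⟩
  rw [← hx1d] at hx1
  rw [← hx2d] at hx2
  have hEE1 : ∀ a ∈ Ea, ∀ b ∈ Ea.map (MulAut.conj y).toMonoidHom, Commute a b := 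
    pcomp_comm hE hE1 (Ne.symm hne)
  have c1 : x * x1 = x1 * x := hEE1 x hx _ hx1
  have c2 : x1 * x⁻¹ = x⁻¹ * x1 := by
    rw [eq_inv_mul_iff_mul_eq, ← mul_assoc, c1]; group
  have h1 : u⁻¹ * y * u * y⁻¹ = x⁻¹ * (x1 * x1 * x2⁻¹) := by
    calc u⁻¹ * y * u * y⁻¹ = (x1 * x⁻¹) * (x1 * x2⁻¹) := by rw [hu, hx1d, hx2d]; group
      _ = x⁻¹ * (x1 * x1 * x2⁻¹) := by rw [c2]; group
  rw [h1] at huO
  have h2 := cpc_pow huO
  have hcop := coprime_card_centralizerPPrimeCore (p := p) t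
  obtain ⟨M, hM⟩ : ∃ M, M = Nat.card (centralizerPPrimeCore p t) := ⟨_, rfl⟩
  rw [← hM] at h2 hcop
  by_cases hne2 : Ea.map (MulAut.conj (y * y)).toMonoidHom = Ea
  · -- E2 = E
    have hp2 : p ≠ 2 := by
      rintro rfl
      apply hne
      refine fix_of_sq_fix ?_ hne2
      have h3 : orderOf y ∣ M := by
        rw [hM]; exact orderOf_dvd_of_pow_eq_one (cpc_pow hy)
      have h4 := Nat.Coprime.coprime_dvd_left h3 hcop
      exact Nat.coprime_two_right.mp h4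
    rw [hne2] at hx2
    have c3 : Commute (x⁻¹ * x2⁻¹) (x1 * x1) := 
      (hEE1 _ (Ea.mul_mem (Ea.inv_mem hx) (Ea.inv_mem hx2)) _ hx1).mul_right 
        (hEE1 _ (Ea.mul_mem (Ea.inv_mem hx) (Ea.inv_mem hx2)) _ hx1)
    have c4 : x1 * x1 * x2⁻¹ = x2⁻¹ * (x1 * x1) := by
      have : Commute x2⁻¹ (x1 * x1) := (hEE1 _ (Ea.inv_mem hx2) _ hx1).mul_right (hEE1 _ (Ea.inv_mem hx2) _ hx1)
      exact this.eq.symm
    have h3 : x⁻¹ * (x1 * x1 * x2⁻¹) = (x⁻¹ * x2⁻¹) * (x1 * x1) := by rw [c4, mul_assoc]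
    rw [h3, c3.mul_pow] at h2
    have h4 : x1 ^ (2 * M) = ((x⁻¹ * x2⁻¹) ^ M)⁻¹ := by
      rw [pow_mul, pow_two]
      exact eq_inv_of_mul_eq_one_right h2
    have h5 : ((x⁻¹ * x2⁻¹) ^ M)⁻¹ ∈ Ea := 
      Ea.inv_mem (Ea.pow_mem (Ea.mul_mem (Ea.inv_mem hx) (Ea.inv_mem hx2)) M)
    have hye : y * e * y⁻¹ ∈ Ea.map (MulAut.conj y).toMonoidHom := conj_mem_map he
    have h6 : x1 ^ (2 * M) * (y * e * y⁻¹) = (y * e * y⁻¹) * x1 ^ (2 * M) := by
      rw [h4]
      exact (hEE1 _ h5 _ hye).eq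
    have h7 : x1 ^ (p ^ m) = 1 := by
      rw [hx1d, conj_pow, hm]; group
    have h8 := comm_of_pow_comm h7 (Nat.Coprime.mul_left ((Nat.coprime_primes Nat.prime_two hp.out).mpr hp2.symm) hcop) h6
    apply hxe
    rw [hx1d] at h8
    have h9 : y * (x * e) * y⁻¹ = y * (e * x) * y⁻¹ := by
      calc y * (x * e) * y⁻¹ = y * x * y⁻¹ * (y * e * y⁻¹) := by group
        _ = y * e * y⁻¹ * (y * x * y⁻¹) := h8
        _ = _ := by group
    exact mul_left_cancel (mul_right_cancel h9)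
  · have hcr : ∀ e ∈ Ea, Commute e (x1 * x1 * x2⁻¹) := by
      intro e he
      have c1 : Commute e x1 := hEE1 e he _ hx1
      have c2 : Commute e x2 := pcomp_comm hE hE2 (Ne.symm hne2) e he _ hx2
      exact (c1.mul_right c1).mul_right c2.inv_right
    rw [(hcr x hx).inv_left.mul_pow, inv_pow, inv_mul_eq_one] at h2
    apply hxe
    refine comm_of_pow_comm hm hcop ?_
    rw [h2]
    exact ((hcr e he).symm.pow_left _).eq

end core

end CfsgH2
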