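import Cfsg.Agent.H2.LocBal4

/-! Components moved by an element of order p. -/

set_option autoImplicit false

namespace CfsgH2

open Subgroup Cfsg
open scoped commutatorElement

variable {Q : Type*} [Group Q] {p : ℕ}

/-- partial norm `k (a k a⁻¹) ⋯ (a^(n-1) k a^-(n-1))` -/
def nrm (a : Q) : ℕ → Q → Q
  | 0, _ => 1
  | n + 1, k => nrm a n k * (a ^ n * k * (a ^ n)⁻¹)

theorem nrm_succ (a : Q) (n : ℕ) (k : Q) : nrm a (n + 1) k = nrm a n k * (a ^ n * k * (a ^ n)⁻¹) := rfl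

theorem nrm_succ' (a : Q) (n : ℕ) (k : Q) : nrm a (n + 1) k = k * (a * nrm a n k * a⁻¹) := by
  induction n with
  | zero => 
    rw [nrm_succ]
    change 1 * (a ^ 0 * k * (a ^ 0)⁻¹) = k * (a * 1 * a⁻¹)
    simp
  | succ n ih =>
    rw [nrm_succ a (n + 1) k]
    conv_lhs => rw [ih]
    rw [nrm_succ a n k, pow_succ']
    group

theorem nrm_conj {a y : Q} (h : a * y = y * a) (n : ℕ) (k : Q) : nrm a n (y * k * y⁻¹) = y * nrm a n k * y⁻¹ := by
  induction n with
  | zero => 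
    change 1 = y * 1 * y⁻¹
    group
  | succ n ih =>
    rw [nrm_succ, nrm_succ, ih]
    have h1 : a ^ n * y = y * a ^ n := ((show Commute a y from h).pow_left n).eq
    have h2 : a ^ n * (y * k * y⁻¹) * (a ^ n)⁻¹ = y * (a ^ n * k * (a ^ n)⁻¹) * y⁻¹ := by
      calc a ^ n * (y * k * y⁻¹) * (a ^ n)⁻¹ = (a ^ n * y) * k * (a ^ n * y)⁻¹ := by group
        _ = (y * a ^ n) * k * (y * a ^ n)⁻¹ := by rw [h1]
        _ = _ := by group
    rw [h2]; group

section

variable {a : Q} {E : Subgroup Q} 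

theorem nrm_comm (hcomm : ∀ i j, i < j → j < p → ∀ x ∈ E, ∀ y ∈ E, 
    Commute (a ^ i * x * (a ^ i)⁻¹) (a ^ j * y * (a ^ j)⁻¹)) {n j : ℕ} (hnj : n ≤ j) (hj : j < p) {l e : Q} (hl : l ∈ E) 
    (he : e ∈ E) : Commute (nrm a n l) (a ^ j * e * (a ^ j)⁻¹) := by
  induction n with
  | zero => exact Commute.one_left _
  | succ n ih =>
    rw [nrm_succ]
    exact (ih (by omega)).mul_left (hcomm n j (by omega) hj l hl e he)

theorem nrm_mul (hcomm : ∀ i j, i < j → j < p → ∀ x ∈ E, ∀ y ∈ E, 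
    Commute (a ^ i * x * (a ^ i)⁻¹) (a ^ j * y * (a ^ j)⁻¹)) {n : ℕ} (hn : n ≤ p) {k l : Q} (hk : k ∈ E) 
    (hl : l ∈ E) : nrm a n (k * l) = nrm a n k * nrm a n l := by
  induction n with
  | zero => 
    change 1 = 1 * 1
    group
  | succ n ih =>
    rw [nrm_succ, nrm_succ, nrm_succ, ih (by omega)]
    have h1 := (nrm_comm hcomm (le_refl n) (by omega) hl hk).eq
    calc nrm a n k * nrm a n l * (a ^ n * (k * l) * (a ^ n)⁻¹) 
        = nrm a n k * (nrm a n l * (a ^ n * k * (a ^ n)⁻¹)) * (a ^ n * l * (a ^ n)⁻¹) := by group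
      _ = nrm a n k * ((a ^ n * k * (a ^ n)⁻¹) * nrm a n l) * (a ^ n * l * (a ^ n)⁻¹) := by rw [h1]
      _ = _ := by group

theorem nrm_tail_comm (hcomm : ∀ i j, i < j → j < p → ∀ x ∈ E, ∀ y ∈ E, 
    Commute (a ^ i * x * (a ^ i)⁻¹) (a ^ j * y * (a ^ j)⁻¹)) (hp : 0 < p) (ha : a ^ p = 1) {k e : Q} (hk : k ∈ E) 
    (he : e ∈ E) : Commute (a * nrm a (p - 1) k * a⁻¹) e := by
  have h1 := nrm_comm hcomm (le_refl (p - 1)) (by omega) hk he
  have h2 : Commute (a * nrm a (p - 1) k * a⁻¹) (a * (a ^ (p - 1) * e * (a ^ (p - 1))⁻¹) * a⁻¹) := by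
    have := congrArg (fun w => a * w * a⁻¹) h1.eq
    change _ * _ = _ * _
    calc a * nrm a (p - 1) k * a⁻¹ * (a * (a ^ (p - 1) * e * (a ^ (p - 1))⁻¹) * a⁻¹) 
        = a * (nrm a (p - 1) k * (a ^ (p - 1) * e * (a ^ (p - 1))⁻¹)) * a⁻¹ := by group
      _ = a * ((a ^ (p - 1) * e * (a ^ (p - 1))⁻¹) * nrm a (p - 1) k) * a⁻¹ := this
      _ = _ := by group
  have h3 : a * (a ^ (p - 1) * e * (a ^ (p - 1))⁻¹) * a⁻¹ = e := by
    calc a * (a ^ (p - 1) * e * (a ^ (p - 1))⁻¹) * a⁻¹ = (a * a ^ (p - 1)) * e * (a * a ^ (p - 1))⁻¹ := by group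
      _ = (a ^ p) * e * (a ^ p)⁻¹ := by rw [← pow_succ', Nat.sub_add_cancel hp]
      _ = e := by rw [ha]; group
  rwa [h3] at h2

theorem nrm_eq_mul (hp : 0 < p) (k : Q) : nrm a p k = k * (a * nrm a (p - 1) k * a⁻¹) := by
  obtain ⟨n, rfl⟩ : ∃ n, p = n + 1 := ⟨p - 1, by omega⟩
  rw [nrm_succ', Nat.add_sub_cancel]

theorem nrm_comm_a (hcomm : ∀ i j, i < j → j < p → ∀ x ∈ E, ∀ y ∈ E, 
    Commute (a ^ i * x * (a ^ i)⁻¹) (a ^ j * y * (a ^ j)⁻¹)) (hp : 0 < p) (ha : a ^ p = 1) {k : Q} (hk : k ∈ E) : 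
    a * nrm a p k = nrm a p k * a := by
  have h1 : nrm a (p + 1) k = nrm a p k * k := by
    rw [nrm_succ, ha]; group
  rw [nrm_succ'] at h1
  have h2 : a * nrm a p k * a⁻¹ = k⁻¹ * (nrm a p k * k) := by rw [← h1]; group
  have h3 : nrm a p k * k = k * nrm a p k := by
    rw [nrm_eq_mul hp]
    have := (nrm_tail_comm hcomm hp ha hk hk).eq
    rw [mul_assoc, this]
  rw [h3, inv_mul_cancel_left] at h2
  exact mul_inv_eq_iff_eq_mul.mp h2

end

variable [hp : Fact p.Prime] [Finite Q]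

/-- elements of the core centralise a component moved by `t` -/
theorem pcomp_moved {t : Q} (hO : pPrimeCore p Q = ⊥) (ht : orderOf t = p)
    {Ea : Subgroup Q} (hE : IsComponent Ea) (hEt : t ∉ normalizer (Ea : Set Q)) {y : Q} 
    (hy : y ∈ centralizerPPrimeCore p t) : ∀ k ∈ Ea, y * k = k * y := by
  have hty := cpc_comm hy
  have htp : t ^ p = 1 := by rw [← ht]; exact pow_orderOf_eq_one t
  have hp0 := hp.out.pos
  have hmap : ∀ g : Q, Ea.map (MulAut.conj g).toMonoidHom = Ea ↔ g ∈ normalizer (Ea : Set Q) := fun g =>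
    mem_normalizer_iff_map_conj.symm
  have hcomp : ∀ g : Q, IsComponent (Ea.map (MulAut.conj g).toMonoidHom) := fun g => IsComponent.map_conj hE g
  -- powers of t outside the normaliser
  have htpow : ∀ n : ℕ, n.Coprime p → t ^ n ∉ normalizer (Ea : Set Q) := by
    intro n hn h
    have h1 : n.Coprime (orderOf t) := by rw [ht]; exact hn
    obtain ⟨k, hk⟩ := exists_pow_eq_self_of_coprime h1
    apply hEt
    rw [← hk]
    exact pow_mem h k
  have hcommG : ∀ g h : Q, g⁻¹ * h ∉ normalizer (Ea : Set Q) → ∀ x ∈ Ea, ∀ y ∈ Ea, 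
      Commute (g * x * g⁻¹) (h * y * h⁻¹) := by
    intro g h hgh x hx y hy
    refine pcomp_comm (hcomp g) (hcomp h) ?_ _ (conj_mem_map hx) _ (conj_mem_map hy)
    intro heq
    apply hgh
    rw [← hmap, ← map_conj_conj, ← heq, map_conj_conj, inv_mul_cancel, map_conj_one_eq]
  have hcomm : ∀ i j, i < j → j < p → ∀ x ∈ Ea, ∀ y ∈ Ea, 
    Commute (t ^ i * x * (t ^ i)⁻¹) (t ^ j * y * (t ^ j)⁻¹) := by
    intro i j hij hj
    refine hcommG _ _ ?_
    have h1 : (t ^ i)⁻¹ * t ^ j = t ^ (j - i) := by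
      rw [inv_mul_eq_iff_eq_mul, ← pow_add]; congr 1; omega
    rw [h1]
    refine htpow _ ?_
    rw [Nat.coprime_comm, Nat.Prime.coprime_iff_not_dvd hp.out]
    intro hd
    have := Nat.le_of_dvd (by omega) hd
    omega
  have hcop := coprime_card_centralizerPPrimeCore (p := p) t
  obtain ⟨M, hM⟩ : ∃ M, M = Nat.card (centralizerPPrimeCore p t) := ⟨_, rfl⟩
  rw [← hM] at hcop
  have hpowM : ∀ o ∈ centralizerPPrimeCore p t, o ^ M = 1 := fun o ho => by rw [hM]; exact cpc_pow ho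
  have hna : ∀ k ∈ Ea, t * nrm t p k = nrm t p k * t := fun k hk => nrm_comm_a hcomm hp0 htp hk
  have hnone : nrm t p 1 = 1 := by
    have := nrm_mul hcomm le_rfl Ea.one_mem Ea.one_mem
    rw [mul_one] at this
    exact (mul_eq_left.mp this.symm)
  have hninv : ∀ k ∈ Ea, nrm t p k⁻¹ = (nrm t p k)⁻¹ := by
    intro k hk
    have := nrm_mul hcomm le_rfl hk (Ea.inv_mem hk)
    rw [mul_inv_cancel, hnone] at this
    exact eq_inv_of_mul_eq_one_right this.symm
  have hcomO : ∀ k ∈ Ea, nrm t p k * (y * (nrm t p k)⁻¹ * y⁻¹) ∈ centralizerPPrimeCore p t := by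
    intro k hk
    have h1 := cpc_conj (hna k hk) hy
    have h2 := mul_mem h1 (inv_mem hy)
    have h3 : nrm t p k * (y * (nrm t p k)⁻¹ * y⁻¹) = nrm t p k * y * (nrm t p k)⁻¹ * y⁻¹ := by group
    rw [h3]; exact h2
  obtain ⟨x, hx, ⟨m, hm⟩, e, he, hxe⟩ := pcomp_exists_pelem hE hO
  -- y normalises Ea
  have hyE : y ∈ normalizer (Ea : Set Q) := by
    by_contra hyE
    have hyj : ∀ j, j < p → y * t ^ j ∉ normalizer (Ea : Set Q) := by
      intro j hj h
      rcases Nat.eq_zero_or_pos j with h0 | h0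
      · rw [h0, pow_zero, mul_one] at h
        exact hyE h
      · have h1 := pow_mem h M
        have h2 : Commute y (t ^ j) := (show Commute t y from hty).symm.pow_right j
        rw [h2.mul_pow, hpowM y hy, one_mul, ← pow_mul] at h1
        refine htpow _ ?_ h1
        refine Nat.Coprime.mul_left ?_ hcop
        rw [Nat.coprime_comm, Nat.Prime.coprime_iff_not_dvd hp.out]
        intro hd
        have := Nat.le_of_dvd h0 hd
        omega
    -- Ea commutes with y nrm(k) y⁻¹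
    have hcy : ∀ n, n ≤ p → ∀ k ∈ Ea, ∀ e ∈ Ea, Commute e (y * nrm t n k * y⁻¹) := by
      intro n hn k hk e he
      induction n with
      | zero =>
        change Commute e (y * 1 * y⁻¹)
        rw [mul_one, mul_inv_cancel]
        exact Commute.one_right _
      | succ n ih =>
        rw [nrm_succ]
        have h1 : y * (nrm t n k * (t ^ n * k * (t ^ n)⁻¹)) * y⁻¹ = 
            (y * nrm t n k * y⁻¹) * ((y * t ^ n) * k * (y * t ^ n)⁻¹) := by group
        rw [h1]
        refine (ih (by omega)).mul_right ?_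
        have h2 := hcommG 1 (y * t ^ n) (by rw [inv_one, one_mul]; exact hyj n (by omega)) e he k hk
        rwa [one_mul, inv_one, mul_one] at h2
    have h1 := hpowM _ (hcomO x hx)
    obtain ⟨r, hr⟩ : ∃ r, r = (t * nrm t (p - 1) x * t⁻¹) * (y * (nrm t p x)⁻¹ * y⁻¹) := ⟨_, rfl⟩
    have hcr : ∀ e ∈ Ea, Commute e r := by
      intro e he
      rw [hr]
      refine (nrm_tail_comm hcomm hp0 htp hx he).symm.mul_right ?_
      have h2 := (hcy p le_rfl x hx e he).inv_right
      have h3 : (y * nrm t p x * y⁻¹)⁻¹ = y * (nrm t p x)⁻¹ * y⁻¹ := by group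
      rwa [h3] at h2
    have h2 : nrm t p x * (y * (nrm t p x)⁻¹ * y⁻¹) = x * r := by
      conv_lhs => rw [nrm_eq_mul hp0 x]
      rw [hr, nrm_eq_mul hp0 x]
      group
    rw [h2, (hcr x hx).mul_pow] at h1
    apply hxe
    refine comm_of_pow_comm hm hcop ?_
    rw [eq_inv_of_mul_eq_one_left h1]
    exact ((hcr e he).symm.pow_left _).inv_left.eq
  let D : Subgroup Q := 
    { carrier := {k | k ∈ Ea ∧ nrm t p k ∈ centralizerPPrimeCore p t}
      mul_mem' := by
        rintro a b ⟨ha, ha'⟩ ⟨hb, hb'⟩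
        refine ⟨Ea.mul_mem ha hb, ?_⟩
        rw [nrm_mul hcomm le_rfl ha hb]
        exact mul_mem ha' hb'
      one_mem' := ⟨Ea.one_mem, by rw [hnone]; exact one_mem _⟩
      inv_mem' := by
        rintro a ⟨ha, ha'⟩
        refine ⟨Ea.inv_mem ha, ?_⟩
        rw [hninv a ha]
        exact inv_mem ha' }
  have hDE : D ≤ Ea := fun k hk => hk.1
  have hDmem : ∀ k, k ∈ D ↔ k ∈ Ea ∧ nrm t p k ∈ centralizerPPrimeCore p t := fun k => Iff.rfl
  have hDn : ∀ e ∈ Ea, ∀ d ∈ D, e * d * e⁻¹ ∈ D := by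
    rintro e he d ⟨hd, hd'⟩
    refine ⟨Ea.mul_mem (Ea.mul_mem he hd) (Ea.inv_mem he), ?_⟩
    rw [nrm_mul hcomm le_rfl (Ea.mul_mem he hd) (Ea.inv_mem he), nrm_mul hcomm le_rfl he hd, hninv e he]
    exact cpc_conj (hna e he) hd'
  have hdich : D = Ea ∨ ∀ d ∈ D, ∀ e ∈ Ea, d * e = e * d := by
    have : (D.subgroupOf Ea).Normal := by
      rw [normal_subgroupOf_iff_le_normalizer hDE, CfsgH1.le_normalizer_iff_conj]
      exact hDn
    rcases IsQuasisimple.normal_eq_top_or_le_center hE.2 (D.subgroupOf Ea) with h1 | h1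
    · left
      exact le_antisymm hDE (subgroupOf_eq_top.mp h1)
    · right
      intro d hd e he
      have := mem_center_iff.mp (h1 (show (⟨d, hDE hd⟩ : Ea) ∈ D.subgroupOf Ea from mem_subgroupOf.mpr hd)) ⟨e, he⟩
      exact (congrArg Subtype.val this).symm
  rcases hdich with h | h
  · exfalso
    have hxD : x ∈ D := by rw [h]; exact hx
    have h1 := hpowM _ hxD.2
    rw [nrm_eq_mul hp0, (nrm_tail_comm hcomm hp0 htp hx hx).symm.mul_pow] at h1
    apply hxe
    refine comm_of_pow_comm hm hcop ?_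
    rw [eq_inv_of_mul_eq_one_left h1]
    exact ((nrm_tail_comm hcomm hp0 htp hx he).pow_left _).inv_left.eq
  · refine centralizes_of_comm_central (IsComponent.commutator_self hE) ?_
    intro k hk
    have hyk : y * k⁻¹ * y⁻¹ ∈ Ea := (mem_normalizer_iff.mp hyE _).mp (Ea.inv_mem hk)
    have hwE : k * (y * k⁻¹ * y⁻¹) ∈ Ea := Ea.mul_mem hk hyk
    refine ⟨hwE, h _ ⟨hwE, ?_⟩⟩
    rw [nrm_mul hcomm le_rfl hk hyk, nrm_conj hty, hninv k hk]
    exact hcomO k hk

theorem delta_eq_bot {k : ℕ} (hk : 1 ≤ k) (hO : pPrimeCore p Q = ⊥) 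
    (hloc : ∀ E : Subgroup Q, IsComponent E → IsLocallyKBalanced p k (E ⧸ center E))
    (A : Subgroup Q) (hA : IsElementaryAbelian p A) (hAk : Nat.card A = p ^ k) : signalizerDelta p A = ⊥ := by
  by_contra hne
  have hneA : A ≠ ⊥ := by
    rintro rfl
    rw [card_bot] at hAk
    have := Nat.one_lt_pow (by omega : k ≠ 0) hp.out.one_lt
    omega
  obtain ⟨t, ht, ht1⟩ := exists_mem_ne_one hneA
  have hord : ∀ a ∈ A, a ≠ 1 → orderOf a = p := fun a ha ha1 => orderOf_eq_prime (hA.2 a ha) ha1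
  have hYle : ∀ a ∈ A, a ≠ 1 → signalizerDelta p A ≤ centralizerPPrimeCore p a := by
    intro a ha ha1
    exact iInf_le (fun a : {a : Q // a ∈ A ∧ a ≠ 1} => centralizerPPrimeCore p (a : Q)) ⟨a, ha, ha1⟩
  -- a component not centralised by Δ
  obtain ⟨E, hE, hEY⟩ : ∃ E : Subgroup Q, IsComponent E ∧ 
      ¬ (signalizerDelta p A ≤ centralizer (E : Set Q)) := by
    by_contra hcon
    push Not at hcon
    have h1 : signalizerDelta p A ≤ centralizer (generalizedFittingSubgroup Q : Set Q) := by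
      rw [le_centralizer_iff]
      refine sup_le (sSup_le fun L hL => ?_) ?_
      · rw [le_centralizer_iff]; exact hcon L hL
      · rw [fittingSubgroup_eq_pCore_of_pPrimeCore_eq_bot hO, le_centralizer_iff]
        exact (hYle t ht ht1).trans (centralizerPPrimeCore_le_centralizer_pCore (hord t ht ht1))
    have h2 := h1.trans centralizer_generalizedFittingSubgroup_le_fittingSubgroup
    rw [fittingSubgroup_eq_pCore_of_pPrimeCore_eq_bot hO] at h2
    apply hne
    exact eq_bot_of_isPGroup_of_coprime (p := p) ((isPGroup_pCore p).to_le h2) 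
      (Nat.Coprime.coprime_dvd_left (card_dvd_of_le (hYle t ht ht1)) (coprime_card_centralizerPPrimeCore t))
  have hAE : A ≤ normalizer (E : Set Q) := by
    intro a ha
    by_cases ha1 : a = 1
    · rw [ha1]; exact one_mem _
    · by_contra hna
      apply hEY
      intro y hy
      refine mem_centralizer_iff.mpr ?_
      intro k hk
      exact (pcomp_moved hO (hord a ha ha1) hE hna (hYle a ha ha1 hy) k hk).symm
  have hYE : signalizerDelta p A ≤ normalizer (E : Set Q) := by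
    intro y hy
    rw [mem_normalizer_iff_map_conj]
    exact pcomp_fixed hO (hord t ht ht1) hE (hAE ht) (hYle t ht ht1 hy)
  apply hEY
  intro y hy
  refine mem_centralizer_iff.mpr ?_
  intro e he
  refine (loc_bal_centralizes hO hA hAk hk le_rfl hE hAE hYE ?_ (hloc E hE) y hy e he).symm
  intro a ha ha1 hc
  apply hEY
  intro y hy
  refine mem_centralizer_iff.mpr ?_
  intro k hk
  exact (pcomp_centralised hO hE hc (hYle a ha ha1 hy) k hk).symm

end CfsgH2
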