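import Mathlib
import Cfsg.Agent.H2.Misc16

/-! # Small statements, part 18 (helper2 library): presentations and the multiplier -/

set_option autoImplicit false

namespace CfsgH2

open Subgroup Cfsg
open scoped Pointwise commutatorElement

universe u v w

/-- S3973 -/
theorem rank_multiplier_le (n : ℕ) (rels : Finset (FreeGroup (Fin n)))
    [Finite (PresentedGroup (rels : Set (FreeGroup (Fin n))))] {A : Type*} [CommGroup A] [Finite A]
    (hA : HasSchurMultiplier (PresentedGroup (rels : Set (FreeGroup (Fin n)))) A) : Group.rank A ≤ rels.card - n := by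
  classical
  obtain ⟨Γ, _, _, σ, hσ, ⟨e⟩⟩ := hA.1
  set π := PresentedGroup.mk (rels : Set (FreeGroup (Fin n))) with hπ
  choose g hg using fun i : Fin n => hσ.1 (π (FreeGroup.of i))
  let θ : FreeGroup (Fin n) →* Γ := FreeGroup.lift g
  have hθ : ∀ f, σ (θ f) = π f := by
    intro f
    have h1 : σ.comp θ = π := by
      apply FreeGroup.ext_hom
      intro i
      change σ (FreeGroup.lift g (FreeGroup.of i)) = _
      rw [FreeGroup.lift_apply_of, hg]
    exact DFunLike.congr_fun h1 f
  have hπs : Function.Surjective π := PresentedGroup.mk_surjective _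
  have hcomm : commutator Γ ≤ (commutator (FreeGroup (Fin n))).map θ := by
    rw [_root_.commutator_def, commutator_le]
    intro x _ y _
    obtain ⟨f, hf⟩ := hπs (σ x)
    obtain ⟨f', hf'⟩ := hπs (σ y)
    have h1 : (θ f)⁻¹ * x ∈ center Γ := by
      apply hσ.2.1
      rw [MonoidHom.mem_ker, map_mul, map_inv, hθ, hf, inv_mul_cancel]
    have h2 : (θ f')⁻¹ * y ∈ center Γ := by
      apply hσ.2.1
      rw [MonoidHom.mem_ker, map_mul, map_inv, hθ, hf', inv_mul_cancel]
    have h4 := comm_mul_center (d1 := θ f) (d2 := θ f') h1 h2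
    rw [mul_inv_cancel_left, mul_inv_cancel_left] at h4
    rw [h4, ← map_commutatorElement]
    exact ⟨_, commutator_mem_commutator (mem_top _) (mem_top _), rfl⟩
  -- the abelianization map
  let ab : FreeGroup (Fin n) →* Multiplicative (Fin n → ℤ) := FreeGroup.lift (fun i => Multiplicative.ofAdd (Pi.single i 1))
  have hab : ∀ f ∈ commutator (FreeGroup (Fin n)), ab f = 1 := fun f hf =>
    comm_hom_ker ab (fun a b => mul_comm _ _) hf
  have hrk : ∀ r : rels, θ (r : FreeGroup (Fin n)) ∈ σ.ker := by
    intro r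
    rw [MonoidHom.mem_ker, hθ]
    exact PresentedGroup.one_of_mem r.2
  let φ : (rels → ℤ) →ₗ[ℤ] (Fin n → ℤ) := Fintype.linearCombination ℤ (fun r : rels => (ab (r : FreeGroup (Fin n))).toAdd)
  let ψ : (rels → ℤ) →ₗ[ℤ] Additive A := Fintype.linearCombination ℤ (fun r : rels => Additive.ofMul (e ⟨θ (r : FreeGroup (Fin n)), hrk r⟩))
  let S : Subgroup (FreeGroup (Fin n)) :=
    { carrier := {f | ∃ c : rels → ℤ, (ab f).toAdd = φ c ∧ ∃ h : θ f ∈ σ.ker, Additive.ofMul (e ⟨θ f, h⟩) = ψ c}
      one_mem' := by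
        refine ⟨0, by rw [map_one, map_zero]; rfl, by rw [map_one]; exact one_mem _, ?_⟩
        have : (⟨θ 1, by rw [map_one]; exact one_mem _⟩ : σ.ker) = 1 := Subtype.ext (map_one θ)
        rw [this, map_one, map_zero]; rfl
      mul_mem' := by
        rintro a b ⟨c, hc, h, hc'⟩ ⟨d, hd, h', hd'⟩
        refine ⟨c + d, by rw [map_mul, toAdd_mul, hc, hd, map_add], by rw [map_mul]; exact mul_mem h h', ?_⟩
        have : (⟨θ (a * b), by rw [map_mul]; exact mul_mem h h'⟩ : σ.ker) = ⟨θ a, h⟩ * ⟨θ b, h'⟩ := Subtype.ext (map_mul θ a b)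
        rw [this, map_mul, ofMul_mul, hc', hd', map_add]
      inv_mem' := by
        rintro a ⟨c, hc, h, hc'⟩
        refine ⟨-c, by rw [map_inv, toAdd_inv, hc, map_neg], by rw [map_inv]; exact inv_mem h, ?_⟩
        have : (⟨θ a⁻¹, by rw [map_inv]; exact inv_mem h⟩ : σ.ker) = ⟨θ a, h⟩⁻¹ := Subtype.ext (map_inv θ a)
        rw [this, map_inv, ofMul_inv, hc', map_neg] }
  haveI hSn : S.Normal := by
    constructor
    rintro a ⟨c, hc, h, hc'⟩ b
    have h1 : θ (b * a * b⁻¹) = θ a := by
      rw [map_mul, map_mul, map_inv]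
      have := mem_center_iff.1 (hσ.2.1 h) (θ b)
      rw [this, mul_inv_cancel_right]
    refine ⟨c, ?_, by rw [h1]; exact h, ?_⟩
    · have h2 : ab (b * a * b⁻¹) = ab a := by
        rw [map_mul ab, map_mul ab, map_inv ab, mul_comm (ab b), mul_inv_cancel_right]
      rw [h2, hc]
    · have : (⟨θ (b * a * b⁻¹), by rw [h1]; exact h⟩ : σ.ker) = ⟨θ a, h⟩ := Subtype.ext h1
      rw [this, hc']
  have hSr : normalClosure (rels : Set (FreeGroup (Fin n))) ≤ S := by
    apply normalClosure_le_normal
    intro r hr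
    refine ⟨Pi.single ⟨r, hr⟩ 1, ?_, hrk ⟨r, hr⟩, ?_⟩
    · change _ = Fintype.linearCombination ℤ _ _
      rw [Fintype.linearCombination_apply_single, one_smul]
    · change _ = Fintype.linearCombination ℤ _ _
      rw [Fintype.linearCombination_apply_single, one_smul]
  have hker : ∀ f, π f = 1 → f ∈ normalClosure (rels : Set (FreeGroup (Fin n))) := by
    intro f hf
    exact (QuotientGroup.eq_one_iff f).1 hf
  -- ψ restricted to ker φ is onto
  have hsur : ∀ a : A, ∃ c : rels → ℤ, φ c = 0 ∧ ψ c = Additive.ofMul a := by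
    intro a
    obtain ⟨⟨k, hk⟩, rfl⟩ := e.surjective a
    obtain ⟨f, hf, hfk⟩ := hcomm (hσ.2.2 hk)
    have h1 : f ∈ S := by
      apply hSr
      apply hker
      rw [← hθ, hfk]; exact hk
    obtain ⟨c, hc, h, hc'⟩ := h1
    refine ⟨c, ?_, ?_⟩
    · rw [← hc, hab f hf]; rfl
    · rw [← hc']
      congr 2
      exact Subtype.ext hfk
  -- rank of the range
  have hrange : Module.finrank ℤ (LinearMap.range φ) = n := by
    apply le_antisymm
    · have := Submodule.finrank_le (LinearMap.range φ)
      rwa [Module.finrank_fin_fun] at this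
    · set m := Nat.card (PresentedGroup (rels : Set (FreeGroup (Fin n)))) with hm
      have hm0 : (m : ℤ) ≠ 0 := by
        have : m ≠ 0 := Nat.card_pos.ne'
        exact_mod_cast this
      have h1 : ∀ x : Fin n → ℤ, (m : ℤ) • x ∈ LinearMap.range φ := by
        intro x
        have h2 : x = ∑ i, x i • (Pi.single i (1 : ℤ) : Fin n → ℤ) := by
          ext j
          simp [Finset.sum_apply, Pi.single_apply]
        rw [h2, Finset.smul_sum]
        refine Submodule.sum_mem _ (fun i _ => ?_)
        rw [smul_comm]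
        refine Submodule.smul_mem _ _ ?_
        have h3 : (FreeGroup.of i) ^ m ∈ S := by
          apply hSr
          apply hker
          rw [map_pow, hm]
          exact pow_card_eq_one'
        obtain ⟨c, hc, -, -⟩ := h3
        refine ⟨c, ?_⟩
        rw [← hc, map_pow, toAdd_pow]
        have h4 : ab (FreeGroup.of i) = Multiplicative.ofAdd (Pi.single i 1) := FreeGroup.lift_apply_of
        rw [h4, toAdd_ofAdd, ← natCast_zsmul]
      let μ : (Fin n → ℤ) →ₗ[ℤ] LinearMap.range φ :=
        { toFun := fun x => ⟨(m : ℤ) • x, h1 x⟩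
          map_add' := fun x y => Subtype.ext (smul_add _ x y)
          map_smul' := fun a x => Subtype.ext (smul_comm _ _ _) }
      have h2 := LinearMap.finrank_le_finrank_of_injective (f := μ) (by
        intro x y hxy
        have h3 : (m : ℤ) • x = (m : ℤ) • y := congrArg Subtype.val hxy
        exact smul_right_injective _ hm0 h3)
      rwa [Module.finrank_fin_fun] at h2
  have hdim : Module.finrank ℤ (LinearMap.ker φ) = rels.card - n := by
    have h1 := LinearMap.rank_range_add_rank_ker φ
    rw [← Module.finrank_eq_rank, ← Module.finrank_eq_rank, ← Module.finrank_eq_rank, hrange,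
      Module.finrank_fintype_fun_eq_card, Fintype.card_coe] at h1
    have h2 : n + Module.finrank ℤ (LinearMap.ker φ) = rels.card := by exact_mod_cast h1
    omega
  rw [← hdim]
  let b := Module.finBasis ℤ (LinearMap.ker φ)
  let T : Finset A := Finset.univ.image (fun i => (ψ (b i : rels → ℤ)).toMul)
  have hT : Subgroup.closure (T : Set A) = ⊤ := by
    rw [eq_top_iff]
    intro a _
    obtain ⟨c, hc, hca⟩ := hsur a
    have h1 := b.sum_repr ⟨c, hc⟩
    have h2 : c = ∑ i, (b.repr ⟨c, hc⟩ i) • ((b i : LinearMap.ker φ) : rels → ℤ) := by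
      have := congrArg Subtype.val h1
      refine this.symm.trans ?_
      rw [AddSubmonoidClass.coe_finsetSum]
      rfl
    have h3 : Additive.ofMul a = ∑ i, (b.repr ⟨c, hc⟩ i) • ψ ((b i : LinearMap.ker φ) : rels → ℤ) := by
      rw [← hca]
      conv_lhs => rw [h2]
      rw [map_sum]
      exact Finset.sum_congr rfl (fun i _ => map_smul ψ _ _)
    have h4 : a = ∏ i, (ψ ((b i : LinearMap.ker φ) : rels → ℤ)).toMul ^ (b.repr ⟨c, hc⟩ i) := by
      have := congrArg Additive.toMul h3
      rw [toMul_ofMul, toMul_sum] at this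
      rw [this]
      rfl
    rw [h4]
    refine Subgroup.prod_mem _ (fun i _ => ?_)
    refine Subgroup.zpow_mem _ (subset_closure ?_) _
    exact Finset.mem_coe.2 (Finset.mem_image_of_mem _ (Finset.mem_univ i))
  refine (Group.rank_le hT).trans ?_
  refine Finset.card_image_le.trans ?_
  rw [Finset.card_univ, Fintype.card_fin]

end CfsgH2
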