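import Mathlib

/-! One-point extensions. -/

set_option autoImplicit false

namespace CfsgH2

variable {X : Type*} 

theorem onept_main (G : Subgroup (Equiv.Perm (Option X))) (hG : ∀ f ∈ G, f none = none)
    (k : ℕ) (hk : 2 ≤ k) (hkX : Nonempty (Fin k ↪ X))
    (htrans : ∀ a b : Fin k ↪ X, ∃ f ∈ G, ∀ i, f (some (a i)) = some (b i))
    (htwo : ∀ x y u v : X, x ≠ y → u ≠ v → ∃ f ∈ G, f (some x) = some u ∧ f (some y) = some v)
    (h g : Equiv.Perm (Option X)) (hg : g ∈ G) (x y : X)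
    (h1 : h none = some x) (h2 : h (some x) = none) (h3 : h (some y) = some y)
    (h4 : g (some x) = some y) (h5 : g (some y) = some x)
    (h6 : (g * h) ^ 3 ∈ G) (h7 : h ^ 2 ∈ G)
    (h8 : ∀ f ∈ G, f (some x) = some x → h * f * h ∈ G ∧ (h * f * h) (some x) = some x) :
    (∀ f ∈ Subgroup.closure ((G : Set (Equiv.Perm (Option X))) ∪ {h}), f none = none ↔ f ∈ G) ∧
      MulAction.IsMultiplyPretransitive (Subgroup.closure ((G : Set (Equiv.Perm (Option X))) ∪ {h})) (Option X) (k + 1) := by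
  have hxy : x ≠ y := by
    rintro rfl
    rw [h2] at h3
    exact Option.some_ne_none x h3.symm
  -- h⁻¹ = h⁻² h
  have hinv : h⁻¹ = (h ^ 2)⁻¹ * h := by group
  have hinv' : h⁻¹ = h * (h ^ 2)⁻¹ := by group
  have hm2 : (h ^ 2)⁻¹ ∈ G := inv_mem h7
  -- the set U
  obtain ⟨U, hU⟩ : ∃ U : Set (Equiv.Perm (Option X)), U = {u | u ∈ G ∨ ∃ a ∈ G, ∃ b ∈ G, u = a * h * b} := ⟨_, rfl⟩
  have hUG : ∀ u ∈ G, u ∈ U := fun u hu => by rw [hU]; exact Or.inl hu
  have hUh : ∀ a ∈ G, ∀ b ∈ G, a * h * b ∈ U := fun a ha b hb => by rw [hU]; exact Or.inr ⟨a, ha, b, hb, rfl⟩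
  have hGU : ∀ a ∈ G, ∀ u ∈ U, ∀ b ∈ G, a * u * b ∈ U := by
    intro a ha u hu b hb
    rw [hU] at hu
    rcases hu with hu | ⟨c, hc, d, hd, rfl⟩
    · exact hUG _ (mul_mem (mul_mem ha hu) hb)
    · have : a * (c * h * d) * b = (a * c) * h * (d * b) := by group
      rw [this]
      exact hUh _ (mul_mem ha hc) _ (mul_mem hd hb)
  have hgh : h * g * h ∈ U := by
    have e : h * g * h = (g⁻¹ * (g * h) ^ 3 * (h ^ 2)⁻¹) * h * g⁻¹ := by
      have : (g * h) ^ 3 = g * h * g * h * g * h := by rw [pow_succ, pow_two]; group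
      rw [this]; group
    rw [e]
    exact hUh _ (mul_mem (mul_mem (inv_mem hg) h6) hm2) _ (inv_mem hg)
  have hfh : ∀ f ∈ G, h * f * h ∈ U := by
    intro f hf
    by_cases hfx : f (some x) = some x
    · exact hUG _ (h8 f hf hfx).1
    · obtain ⟨u, hu⟩ : ∃ u : X, f (some x) = some u := by
        rcases hfo : f (some x) with _ | u
        · exfalso
          have := hG f hf
          rw [← this] at hfo
          exact Option.some_ne_none x (f.injective hfo)
        · exact ⟨u, rfl⟩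
      have hux : x ≠ u := by rintro rfl; exact hfx hu
      obtain ⟨a, ha, hax, hay⟩ := htwo x y x u hxy hux
      have hb : (a * g)⁻¹ * f ∈ G := mul_mem (inv_mem (mul_mem ha hg)) hf
      have hbx : ((a * g)⁻¹ * f) (some x) = some x := by
        rw [Equiv.Perm.mul_apply, hu, Equiv.Perm.inv_eq_iff_eq, Equiv.Perm.mul_apply, h4, hay]
      have ha' := h8 a ha hax
      have hb' := h8 _ hb hbx
      have e : h * f * h = (h * a * h * (h ^ 2)⁻¹) * (h * g * h) * ((h ^ 2)⁻¹ * (h * ((a * g)⁻¹ * f) * h)) := by group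
      rw [e]
      exact hGU _ (mul_mem ha'.1 hm2) _ hgh _ (mul_mem hm2 hb'.1)
  have hUU : ∀ u ∈ U, ∀ v ∈ U, u * v ∈ U := by
    intro u hu v hv
    rw [hU] at hu hv
    rcases hu with hu | ⟨a, ha, b, hb, rfl⟩
    · rcases hv with hv | ⟨c, hc, d, hd, rfl⟩
      · exact hUG _ (mul_mem hu hv)
      · have : u * (c * h * d) = (u * c) * h * d := by group
        rw [this]; exact hUh _ (mul_mem hu hc) _ hd
    · rcases hv with hv | ⟨c, hc, d, hd, rfl⟩
      · have : a * h * b * v = a * h * (b * v) := by group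
        rw [this]; exact hUh _ ha _ (mul_mem hb hv)
      · have : a * h * b * (c * h * d) = a * (h * (b * c) * h) * d := by group
        rw [this]; exact hGU _ ha _ (hfh _ (mul_mem hb hc)) _ hd
  have hUinv : ∀ u ∈ U, u⁻¹ ∈ U := by
    intro u hu
    rw [hU] at hu
    rcases hu with hu | ⟨a, ha, b, hb, rfl⟩
    · exact hUG _ (inv_mem hu)
    · have : (a * h * b)⁻¹ = (b⁻¹ * (h ^ 2)⁻¹) * h * a⁻¹ := by group
      rw [this]; exact hUh _ (mul_mem (inv_mem hb) hm2) _ (inv_mem ha)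
  have hclU : ∀ f ∈ Subgroup.closure ((G : Set (Equiv.Perm (Option X))) ∪ {h}), f ∈ U := by
    intro f hf
    induction hf using Subgroup.closure_induction with
    | mem x hx =>
      rcases hx with hx | hx
      · exact hUG _ hx
      · rw [Set.mem_singleton_iff] at hx
        have := hUh 1 G.one_mem 1 G.one_mem
        rw [one_mul, mul_one] at this
        rw [hx]; exact this
    | one => exact hUG _ G.one_mem
    | mul a b _ _ ha hb => exact hUU a ha b hb
    | inv a _ ha => exact hUinv a ha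
  have hGS : G ≤ Subgroup.closure ((G : Set (Equiv.Perm (Option X))) ∪ {h}) := fun f hf =>
    Subgroup.subset_closure (Or.inl hf)
  have hhS : h ∈ Subgroup.closure ((G : Set (Equiv.Perm (Option X))) ∪ {h}) := Subgroup.subset_closure (Or.inr rfl)
  refine ⟨?_, ?_⟩
  · intro f hf
    refine ⟨fun hfn => ?_, hG f⟩
    have hfU := hclU f hf
    rw [hU] at hfU
    rcases hfU with hf' | ⟨a, ha, b, hb, rfl⟩
    · exact hf'
    · exfalso
      rw [Equiv.Perm.mul_apply, Equiv.Perm.mul_apply, hG b hb, h1] at hfn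
      have := hG a ha
      rw [← this] at hfn
      exact Option.some_ne_none x (a.injective hfn)
  · obtain ⟨S, hS⟩ : ∃ S, S = Subgroup.closure ((G : Set (Equiv.Perm (Option X))) ∪ {h}) := ⟨_, rfl⟩
    rw [← hS] at hGS hhS ⊢
    -- move any point to none
    have hmove : ∀ p : Option X, ∃ u ∈ S, u p = none := by
      intro p
      rcases p with _ | p
      · exact ⟨1, S.one_mem, rfl⟩
      · obtain ⟨f, hf, hfp⟩ : ∃ f ∈ G, f (some p) = some x := by
          by_cases hpy : p = x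
          · exact ⟨1, G.one_mem, by rw [hpy]; rfl⟩
          · obtain ⟨f, hf, hf1, -⟩ := htwo p x x y hpy hxy
            exact ⟨f, hf, hf1⟩
        exact ⟨h * f, S.mul_mem hhS (hGS hf), by rw [Equiv.Perm.mul_apply, hfp, h2]⟩
    refine ⟨fun a b => ?_⟩
    obtain ⟨u, hu, hua⟩ := hmove (a (Fin.last k))
    obtain ⟨v, hv, hvb⟩ := hmove (b (Fin.last k))
    have key : ∀ (c : Fin (k + 1) ↪ Option X) (w : Equiv.Perm (Option X)), w (c (Fin.last k)) = none → 
        ∃ c' : Fin k ↪ X, ∀ i, w (c i.castSucc) = some (c' i) := by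
      intro c w hw
      have hne : ∀ i : Fin k, w (c i.castSucc) ≠ none := by
        intro i hi
        rw [← hw] at hi
        exact (Fin.castSucc_lt_last i).ne (c.injective (w.injective hi))
      choose c' hc' using fun i => Option.ne_none_iff_exists'.mp (hne i)
      refine ⟨⟨c', ?_⟩, hc'⟩
      intro i j hij
      have : w (c i.castSucc) = w (c j.castSucc) := by rw [hc', hc', hij]
      exact Fin.castSucc_injective k (c.injective (w.injective this))
    obtain ⟨a', ha'⟩ := key a u hua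
    obtain ⟨b', hb'⟩ := key b v hvb
    obtain ⟨f, hf, hfab⟩ := htrans a' b'
    refine ⟨⟨v⁻¹ * f * u, S.mul_mem (S.mul_mem (S.inv_mem hv) (hGS hf)) hu⟩, ?_⟩
    ext1 i
    change (v⁻¹ * f * u) (a i) = b i
    rw [Equiv.Perm.mul_apply, Equiv.Perm.mul_apply, Equiv.Perm.inv_eq_iff_eq]
    induction i using Fin.lastCases with
    | last => rw [hua, hvb, hG f hf]
    | cast i => rw [ha', hb', hfab]


theorem exists_emb {k : ℕ} (hk : 2 ≤ k) (hkX : Nonempty (Fin k ↪ X)) {x y : X} (hxy : x ≠ y) : 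
    ∃ a : Fin k ↪ X, a ⟨0, by omega⟩ = x ∧ a ⟨1, by omega⟩ = y := by
  classical
  obtain ⟨e⟩ := hkX
  let σ1 := Equiv.swap (e ⟨0, by omega⟩) x
  let z := σ1 (e ⟨1, by omega⟩)
  have hzx : z ≠ x := by
    intro h
    have h1 : σ1 (e ⟨0, by omega⟩) = x := Equiv.swap_apply_left _ _
    have h2 := e.injective (σ1.injective (h.trans h1.symm))
    exact absurd (congrArg Fin.val h2) (by simp)
  let σ2 := Equiv.swap z y
  refine ⟨(e.trans σ1.toEmbedding).trans σ2.toEmbedding, ?_, ?_⟩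
  · change σ2 (σ1 (e ⟨0, by omega⟩)) = x
    have h1 : σ1 (e ⟨0, by omega⟩) = x := Equiv.swap_apply_left _ _
    rw [h1]
    exact Equiv.swap_apply_of_ne_of_ne (Ne.symm hzx) hxy
  · change σ2 z = y
    exact Equiv.swap_apply_left _ _

theorem onept_two {G : Subgroup (Equiv.Perm (Option X))} {k : ℕ} (hk : 2 ≤ k) (hkX : Nonempty (Fin k ↪ X))
    (htrans : ∀ a b : Fin k ↪ X, ∃ f ∈ G, ∀ i, f (some (a i)) = some (b i)) : 
    ∀ x y u v : X, x ≠ y → u ≠ v → ∃ f ∈ G, f (some x) = some u ∧ f (some y) = some v := by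
  intro x y u v hxy huv
  obtain ⟨a, ha0, ha1⟩ := exists_emb hk hkX hxy
  obtain ⟨b, hb0, hb1⟩ := exists_emb hk hkX huv
  obtain ⟨f, hf, hfab⟩ := htrans a b
  refine ⟨f, hf, ?_, ?_⟩
  · rw [← ha0, hfab, hb0]
  · rw [← ha1, hfab, hb1]

end CfsgH2
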