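import Mathlib

/-! Recognition of PGL(2, K) among sharply triply transitive groups. -/

set_option autoImplicit false

namespace CfsgH2

open Subgroup

theorem perm_inv_self {α : Type*} (g : Equiv.Perm α) (x : α) : g⁻¹ (g x) = x := g.symm_apply_apply x

theorem perm_self_inv {α : Type*} (g : Equiv.Perm α) (x : α) : g (g⁻¹ x) = x := g.apply_symm_apply x

/-- the field attached to a sharply doubly transitive group with abelian point stabiliser -/
theorem exists_field {α : Type*} [Fintype α] {a b c : α} (hab : a ≠ b) (hac : a ≠ c) (hbc : b ≠ c)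
    (V H : Subgroup (Equiv.Perm α)) (hVa : ∀ v ∈ V, v a = a) (hVt : ∀ y, y ≠ a → ∃ v ∈ V, v b = y)
    (hVs : ∀ v ∈ V, v b = b → v = 1) (hVc : ∀ v ∈ V, ∀ w ∈ V, v * w = w * v)
    (hHa : ∀ h ∈ H, h a = a) (hHb : ∀ h ∈ H, h b = b) 
    (hHt : ∀ y, y ≠ a → y ≠ b → ∃ h ∈ H, h c = y) (hHs : ∀ h ∈ H, h c = c → h = 1) 
    (hHc : ∀ h ∈ H, ∀ k ∈ H, h * k = k * h) (hHV : ∀ h ∈ H, ∀ v ∈ V, h * v * h⁻¹ ∈ V) :
    ∃ (K : Type) (_ : Field K) (_ : Fintype K) (ι : K → α), Function.Injective ι ∧ 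
      (∀ y, y ≠ a ↔ ∃ k, ι k = y) ∧ ι 0 = b ∧ ι 1 = c ∧ 
      (∀ x, ∃ v ∈ V, ∀ y, v (ι y) = ι (x + y)) ∧ 
      (∀ x, x ≠ 0 → ∃ h ∈ H, ∀ y, h (ι y) = ι (x * y)) := by
  classical
  let Ω := {y : α // y ≠ a}
  let e : Ω ≃ Fin (Fintype.card Ω) := Fintype.equivFin Ω
  let K : Type := Fin (Fintype.card Ω)
  let ι : K → α := fun k => (e.symm k).val
  have hι : Function.Injective ι := fun x y h => e.symm.injective (Subtype.ext h)
  have hιa : ∀ k, ι k ≠ a := fun k => (e.symm k).2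
  have hιe : ∀ y (hy : y ≠ a), ι (e ⟨y, hy⟩) = y := by
    intro y hy
    change (e.symm (e ⟨y, hy⟩)).val = y
    rw [e.symm_apply_apply]
  choose v hvV hvb using fun k : K => hVt (ι k) (hιa k)
  have hV_ne : ∀ w ∈ V, ∀ y, y ≠ a → w y ≠ a := by
    intro w hw y hy h
    apply hy
    have := hVa w hw
    exact w.injective (h.trans this.symm)
  have hH_ne : ∀ w ∈ H, ∀ y, y ≠ a → w y ≠ a := by
    intro w hw y hy h
    apply hy
    have := hHa w hw
    exact w.injective (h.trans this.symm)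
  have hH_neb : ∀ w ∈ H, ∀ y, y ≠ b → w y ≠ b := by
    intro w hw y hy h
    apply hy
    have := hHb w hw
    exact w.injective (h.trans this.symm)
  have hVuniq : ∀ w ∈ V, ∀ w' ∈ V, w b = w' b → w = w' := by
    intro w hw w' hw' h
    have h1 : w'⁻¹ * w = 1 := hVs _ (V.mul_mem (V.inv_mem hw') hw) (by
      rw [Equiv.Perm.mul_apply, h, perm_inv_self])
    exact (inv_mul_eq_one.mp h1).symm
  have hHuniq : ∀ w ∈ H, ∀ w' ∈ H, w c = w' c → w = w' := by
    intro w hw w' hw' h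
    have h1 : w'⁻¹ * w = 1 := hHs _ (H.mul_mem (H.inv_mem hw') hw) (by
      rw [Equiv.Perm.mul_apply, h, perm_inv_self])
    exact (inv_mul_eq_one.mp h1).symm
  let z : K := e ⟨b, hab.symm⟩
  let o : K := e ⟨c, hac.symm⟩
  have hz : ι z = b := hιe _ _
  have ho : ι o = c := hιe _ _
  have hne : ∀ k : K, k ≠ z → ι k ≠ b := fun k hk h => hk (hι (h.trans hz.symm))
  have hex : ∀ k : K, ∃ h ∈ H, k ≠ z → h c = ι k := by
    intro k
    by_cases hk : k = z
    · exact ⟨1, H.one_mem, fun h => absurd hk h⟩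
    · obtain ⟨h, hh, hc⟩ := hHt (ι k) (hιa k) (hne k hk)
      exact ⟨h, hh, fun _ => hc⟩
  choose h hhH hhc using hex
  let addK : K → K → K := fun x y => e ⟨v x (ι y), hV_ne _ (hvV x) _ (hιa y)⟩
  let mulK : K → K → K := fun x y => if x = z then z else e ⟨h x (ι y), hH_ne _ (hhH x) _ (hιa y)⟩
  let negK : K → K := fun x => e ⟨(v x)⁻¹ b, hV_ne _ (V.inv_mem (hvV x)) _ hab.symm⟩
  let invK : K → K := fun x => if x = z then z else e ⟨(h x)⁻¹ c, hH_ne _ (H.inv_mem (hhH x)) _ hac.symm⟩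
  have hadd : ∀ x y, ι (addK x y) = v x (ι y) := fun x y => hιe _ _
  have hmul : ∀ x y, x ≠ z → ι (mulK x y) = h x (ι y) := by
    intro x y hx
    change ι (if x = z then z else _) = _
    rw [if_neg hx]; exact hιe _ _
  have hmul0 : ∀ y, mulK z y = z := fun y => if_pos rfl
  have hneg : ∀ x, ι (negK x) = (v x)⁻¹ b := fun x => hιe _ _
  have hinv : ∀ x, x ≠ z → ι (invK x) = (h x)⁻¹ c := by
    intro x hx
    change ι (if x = z then z else _) = _
    rw [if_neg hx]; exact hιe _ _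
  have hmulz : ∀ x, mulK x z = z := by
    intro x
    by_cases hx : x = z
    · rw [hx]; exact hmul0 z
    · apply hι
      rw [hmul x z hx, hz, hHb _ (hhH x)]
  have hvadd : ∀ x y, v (addK x y) = v x * v y := by
    intro x y
    refine hVuniq _ (hvV _) _ (V.mul_mem (hvV x) (hvV y)) ?_
    rw [hvb, hadd, Equiv.Perm.mul_apply, hvb]
  have hmulne : ∀ x y, x ≠ z → y ≠ z → mulK x y ≠ z := by
    intro x y hx hy h0
    have h1 := hmul x y hx
    rw [h0, hz] at h1
    exact hH_neb _ (hhH x) _ (hne y hy) h1.symm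
  have hhmul : ∀ x y, x ≠ z → y ≠ z → h (mulK x y) = h x * h y := by
    intro x y hx hy
    refine hHuniq _ (hhH _) _ (H.mul_mem (hhH x) (hhH y)) ?_
    rw [hhc _ (hmulne x y hx hy), hmul x y hx, Equiv.Perm.mul_apply, hhc y hy]
  have hoz : o ≠ z := by
    intro h0
    apply hbc
    rw [← hz, ← ho, h0]
  have hh1 : h o = 1 := hHuniq _ (hhH o) _ H.one_mem (by rw [hhc o hoz, ho]; rfl)
  have hvz : v z = 1 := hVs _ (hvV z) (by rw [hvb, hz])
  let fieldK : Field K := @Field.ofMinimalAxioms K ⟨addK⟩ ⟨mulK⟩ ⟨negK⟩ ⟨invK⟩ ⟨z⟩ ⟨o⟩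
    (by
      intro x y w
      apply hι
      change ι (addK (addK x y) w) = ι (addK x (addK y w))
      rw [hadd, hadd, hadd, hvadd]; rfl)
    (by
      intro x
      apply hι
      change ι (addK z x) = ι x
      rw [hadd, hvz]; rfl)
    (by
      intro x
      apply hι
      change ι (addK (negK x) x) = ι z
      have h1 : v (negK x) = (v x)⁻¹ := hVuniq _ (hvV _) _ (V.inv_mem (hvV x)) (by
        rw [hvb, hneg])
      rw [hadd, h1, hz, ← hvb x, perm_inv_self])
    (by
      intro x y w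
      change mulK (mulK x y) w = mulK x (mulK y w)
      by_cases hx : x = z
      · rw [hx, hmul0, hmul0, hmul0]
      by_cases hy : y = z
      · rw [hy, hmul0, hmulz, hmul0]
      apply hι
      rw [hmul _ _ (hmulne x y hx hy), hmul _ _ hx, hmul _ _ hy, hhmul x y hx hy]; rfl)
    (by
      intro x y
      change mulK x y = mulK y x
      by_cases hx : x = z
      · rw [hx, hmul0, hmulz]
      by_cases hy : y = z
      · rw [hy, hmul0, hmulz]
      apply hι
      rw [hmul _ _ hx, hmul _ _ hy, ← hhc y hy, ← hhc x hx, ← Equiv.Perm.mul_apply, 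
        ← Equiv.Perm.mul_apply, hHc _ (hhH x) _ (hhH y)])
    (by
      intro x
      apply hι
      change ι (mulK o x) = ι x
      rw [hmul _ _ hoz, hh1]; rfl)
    (by
      intro x hx
      apply hι
      change ι (mulK x (invK x)) = ι o
      have hx' : x ≠ z := hx
      rw [hmul _ _ hx', hinv _ hx', ho, perm_self_inv])
    (by
      change invK z = z
      exact if_pos rfl)
    (by
      intro x y w
      change mulK x (addK y w) = addK (mulK x y) (mulK x w)
      by_cases hx : x = z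
      · apply hι
        rw [hx, hmul0, hmul0, hmul0, hadd, hvz]; rfl
      apply hι
      have h1 : v (mulK x y) = h x * v y * (h x)⁻¹ := by
        refine hVuniq _ (hvV _) _ (hHV _ (hhH x) _ (hvV y)) ?_
        rw [hvb, hmul _ _ hx]
        simp only [Equiv.Perm.mul_apply]
        rw [Equiv.Perm.inv_eq_iff_eq.mpr (hHb _ (hhH x)).symm, hvb]
      rw [hmul _ _ hx, hadd, hadd, h1, hmul _ _ hx]
      simp only [Equiv.Perm.mul_apply, perm_inv_self])
    ⟨z, o, hoz.symm⟩
  refine ⟨K, fieldK, inferInstanceAs (Fintype (Fin _)), ι, hι, ?_, hz, ho, ?_, ?_⟩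
  · intro y
    constructor
    · intro hy
      exact ⟨e ⟨y, hy⟩, hιe y hy⟩
    · rintro ⟨k, rfl⟩
      exact hιa k
  · intro x
    refine ⟨v x, hvV x, fun y => ?_⟩
    exact (hadd x y).symm
  · intro x hx
    refine ⟨h x, hhH x, fun y => ?_⟩
    exact (hmul x y hx).symm

open Matrix in
theorem rec_pgl {α : Type*} {a : α} {K : Type} [Field K] (ι : K → α) (hι : Function.Injective ι)
    (hιa : ∀ y, y ≠ a ↔ ∃ k, ι k = y) (G : Subgroup (Equiv.Perm α)) 
    (hT : ∀ x : K, ∃ g ∈ G, g a = a ∧ ∀ y, g (ι y) = ι (x + y))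
    (hM : ∀ x : K, x ≠ 0 → ∃ g ∈ G, g a = a ∧ ∀ y, g (ι y) = ι (x * y)) 
    (hS : ∃ g ∈ G, g a = ι 0 ∧ g (ι 0) = a ∧ ∀ y, y ≠ 0 → g (ι y) = ι y⁻¹)
    (hsharp : ∀ g ∈ G, g a = a → g (ι 0) = ι 0 → g (ι 1) = ι 1 → g = 1) : 
    Nonempty (G ≃* Matrix.ProjGenLinGroup (Fin 2) K) := by
  classical
  have hιna : ∀ k, ι k ≠ a := fun k => (hιa _).mpr ⟨k, rfl⟩
  let f : OnePoint K → α := fun o => OnePoint.elim o a ι
  have hf1 : f OnePoint.infty = a := rfl
  have hf2 : ∀ k : K, f (k : OnePoint K) = ι k := fun _ => rfl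
  have hfb : Function.Bijective f := by
    constructor
    · intro x y h
      induction x using OnePoint.rec with
      | infty =>
        induction y using OnePoint.rec with
        | infty => rfl
        | coe y => rw [hf1, hf2] at h; exact absurd h.symm (hιna y)
      | coe x =>
        induction y using OnePoint.rec with
        | infty => rw [hf1, hf2] at h; exact absurd h (hιna x)
        | coe y => rw [hf2, hf2] at h; rw [hι h]
    · intro y
      by_cases hy : y = a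
      · exact ⟨OnePoint.infty, by rw [hf1, hy]⟩
      · obtain ⟨k, hk⟩ := (hιa y).mp hy
        exact ⟨(k : OnePoint K), by rw [hf2, hk]⟩
  let E : OnePoint K ≃ α := Equiv.ofBijective f hfb
  have hE : ∀ o, E o = f o := fun _ => rfl
  let Ψ : GL (Fin 2) K →* Equiv.Perm α := 
    E.permCongrHom.toMonoidHom.comp (MulAction.toPermHom (GL (Fin 2) K) (OnePoint K))
  have hΨ : ∀ (M : GL (Fin 2) K) (o : OnePoint K), Ψ M (f o) = f (M • o) := by
    intro M o
    change E (M • (E.symm (f o))) = f (M • o)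
    rw [← hE o, E.symm_apply_apply, hE]
  have hΨa : ∀ (M : GL (Fin 2) K), Ψ M a = f (M • (OnePoint.infty : OnePoint K)) := fun M => hΨ M OnePoint.infty
  have hΨk : ∀ (M : GL (Fin 2) K) (k : K), Ψ M (ι k) = f (M • (k : OnePoint K)) := fun M k => hΨ M (k : OnePoint K)
  let T : K → GL (Fin 2) K := fun x => 
    Matrix.GeneralLinearGroup.mkOfDetNeZero !![1, x; 0, 1] (by simp [Matrix.det_fin_two])
  let U : Kˣ → GL (Fin 2) K := fun x => 
    Matrix.GeneralLinearGroup.mkOfDetNeZero !![(x : K), 0; 0, 1] (by simp [Matrix.det_fin_two])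
  let S : GL (Fin 2) K := 
    Matrix.GeneralLinearGroup.mkOfDetNeZero !![0, 1; 1, 0] (by simp [Matrix.det_fin_two])
  have hTa : ∀ x, Ψ (T x) a = a := by
    intro x
    rw [hΨa, OnePoint.smul_infty_eq_ite]
    simp [T, Matrix.GeneralLinearGroup.mkOfDetNeZero, hf1]
  have hTk : ∀ x y, Ψ (T x) (ι y) = ι (x + y) := by
    intro x y
    rw [hΨk, OnePoint.smul_some_eq_ite]
    simp [T, Matrix.GeneralLinearGroup.mkOfDetNeZero, hf2, add_comm]
  have hUa : ∀ x, Ψ (U x) a = a := by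
    intro x
    rw [hΨa, OnePoint.smul_infty_eq_ite]
    simp [U, Matrix.GeneralLinearGroup.mkOfDetNeZero, hf1]
  have hUk : ∀ (x : Kˣ) y, Ψ (U x) (ι y) = ι (x * y) := by
    intro x y
    rw [hΨk, OnePoint.smul_some_eq_ite]
    simp [U, Matrix.GeneralLinearGroup.mkOfDetNeZero, hf2]
  have hSa : Ψ S a = ι 0 := by
    rw [hΨa, OnePoint.smul_infty_eq_ite]
    simp [S, Matrix.GeneralLinearGroup.mkOfDetNeZero, hf2]
  have hS0 : Ψ S (ι 0) = a := by
    rw [hΨk, OnePoint.smul_some_eq_ite]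
    simp [S, Matrix.GeneralLinearGroup.mkOfDetNeZero, hf1]
  have hSk : ∀ y, y ≠ 0 → Ψ S (ι y) = ι y⁻¹ := by
    intro y hy
    rw [hΨk, OnePoint.smul_some_eq_ite]
    simp [S, Matrix.GeneralLinearGroup.mkOfDetNeZero, hf2, hy]
  have hext : ∀ g g' : Equiv.Perm α, g a = g' a → (∀ k, g (ι k) = g' (ι k)) → g = g' := by
    intro g g' h1 h2
    ext y
    by_cases hy : y = a
    · rw [hy, h1]
    · obtain ⟨k, rfl⟩ := (hιa y).mp hy
      exact h2 k
  have hTG : ∀ x, Ψ (T x) ∈ G := by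
    intro x
    obtain ⟨g, hg, hg1, hg2⟩ := hT x
    have : Ψ (T x) = g := hext _ _ (by rw [hTa, hg1]) (fun k => by rw [hTk, hg2])
    rw [this]; exact hg
  have hTm : ∀ x, (T x : Matrix (Fin 2) (Fin 2) K) = !![1, x; 0, 1] := fun x => rfl
  have hUm : ∀ x, (U x : Matrix (Fin 2) (Fin 2) K) = !![(x : K), 0; 0, 1] := fun x => rfl
  have hSm : (S : Matrix (Fin 2) (Fin 2) K) = !![0, 1; 1, 0] := rfl
  clear_value T U S
  have hUG : ∀ x, Ψ (U x) ∈ G := by
    intro x
    obtain ⟨g, hg, hg1, hg2⟩ := hM x x.ne_zero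
    have : Ψ (U x) = g := hext _ _ (by rw [hUa, hg1]) (fun k => by rw [hUk, hg2])
    rw [this]; exact hg
  have hSG : Ψ S ∈ G := by
    obtain ⟨g, hg, hg1, hg2, hg3⟩ := hS
    have : Ψ S = g := hext _ _ (by rw [hSa, hg1]) (fun k => by
      by_cases hk : k = 0
      · rw [hk, hS0, hg2]
      · rw [hSk k hk, hg3 k hk])
    rw [this]; exact hg
  -- the range lies in G
  have hrG : ∀ M, Ψ M ∈ G := by
    intro M
    have hdet : M 0 0 * M 1 1 - M 0 1 * M 1 0 ≠ 0 := by
      have := M.det_ne_zero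
      rwa [Matrix.det_fin_two] at this
    by_cases hγ : M 1 0 = 0
    · rw [hγ, mul_zero, sub_zero] at hdet
      have hδ : M 1 1 ≠ 0 := right_ne_zero_of_mul hdet
      have hα : M 0 0 ≠ 0 := left_ne_zero_of_mul hdet
      have : Ψ M = Ψ (T (M 0 1 / M 1 1)) * Ψ (U (Units.mk0 (M 0 0 / M 1 1) (div_ne_zero hα hδ))) := by
        apply hext
        · rw [Equiv.Perm.mul_apply, hUa, hTa, hΨa, OnePoint.smul_infty_eq_ite, if_pos hγ, hf1]
        · intro k
          rw [Equiv.Perm.mul_apply, hUk, hTk, hΨk, OnePoint.smul_some_eq_ite, hγ, zero_mul, zero_add,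
            if_neg hδ, hf2, Units.val_mk0]
          congr 1
          field_simp
          ring
      rw [this]
      exact G.mul_mem (hTG _) (hUG _)
    · have hd : -(M 0 0 * M 1 1 - M 0 1 * M 1 0) / M 1 0 ≠ 0 := div_ne_zero (neg_ne_zero.mpr hdet) hγ
      have : M = T (M 0 0 / M 1 0) * U (Units.mk0 _ hd) * S * 
          T (M 1 1) * U (Units.mk0 _ hγ) := by
        apply Units.ext
        ext i j
        fin_cases i <;> fin_cases j <;> 
          simp [hTm, hUm, hSm] <;> field_simp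
        ring
      rw [this]
      simp only [map_mul]
      exact G.mul_mem (G.mul_mem (G.mul_mem (G.mul_mem (hTG _) (hUG _)) hSG) (hTG _)) (hUG _)
  have hGr : ∀ g ∈ G, g ∈ Ψ.range := by
    have h3 : ∀ g ∈ G, g a = a → g (ι 0) = ι 0 → g ∈ Ψ.range := by
      intro g hg h1 h2
      have h4 : g (ι 1) ≠ a := fun h => hιna 1 (g.injective (h.trans h1.symm))
      obtain ⟨m, hm⟩ := (hιa _).mp h4
      have hm0 : m ≠ 0 := by
        rintro rfl
        have := g.injective (hm.symm.trans h2.symm)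
        exact one_ne_zero (hι this)
      have h5 := hsharp (Ψ (U (Units.mk0 _ hm0)⁻¹) * g) (G.mul_mem (hrG _) hg) 
        (by rw [Equiv.Perm.mul_apply, h1, hUa]) (by rw [Equiv.Perm.mul_apply, h2, hUk, mul_zero])
        (by rw [Equiv.Perm.mul_apply, ← hm, hUk, Units.val_inv_eq_inv_val, Units.val_mk0, inv_mul_cancel₀ hm0])
      have h6 : g = (Ψ (U (Units.mk0 _ hm0)⁻¹))⁻¹ := eq_inv_of_mul_eq_one_right h5
      rw [h6]
      exact inv_mem (MonoidHom.mem_range.mpr ⟨_, rfl⟩)
    have h4 : ∀ g ∈ G, g a = a → g ∈ Ψ.range := by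
      intro g hg h1
      have h4 : g (ι 0) ≠ a := fun h => hιna 0 (g.injective (h.trans h1.symm))
      obtain ⟨m, hm⟩ := (hιa _).mp h4
      have h5 := h3 (Ψ (T (-m)) * g) (G.mul_mem (hrG _) hg)
        (by rw [Equiv.Perm.mul_apply, h1, hTa]) (by rw [Equiv.Perm.mul_apply, ← hm, hTk, neg_add_cancel])
      exact (Subgroup.mul_mem_cancel_left _ (MonoidHom.mem_range.mpr ⟨_, rfl⟩)).mp h5
    intro g hg
    by_cases h : g a = a
    · exact h4 g hg h
    · obtain ⟨m, hm⟩ := (hιa _).mp h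
      have h5 := h4 (Ψ S * (Ψ (T (-m)) * g)) (G.mul_mem hSG (G.mul_mem (hrG _) hg))
        (by rw [Equiv.Perm.mul_apply, Equiv.Perm.mul_apply, ← hm, hTk, neg_add_cancel, hS0])
      have h6 := (Subgroup.mul_mem_cancel_left _ (MonoidHom.mem_range.mpr ⟨_, rfl⟩)).mp h5
      exact (Subgroup.mul_mem_cancel_left _ (MonoidHom.mem_range.mpr ⟨_, rfl⟩)).mp h6
  let Ψ' : GL (Fin 2) K →* G := Ψ.codRestrict G hrG
  have hsurj : Function.Surjective Ψ' := by
    rintro ⟨g, hg⟩
    obtain ⟨M, hM⟩ := hGr g hg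
    exact ⟨M, Subtype.ext hM⟩
  have hker : Ψ'.ker = Subgroup.center (GL (Fin 2) K) := by
    rw [Matrix.GeneralLinearGroup.center_eq_range_scalar]
    ext M
    rw [MonoidHom.mem_ker]
    constructor
    · intro h
      have h1 : Ψ M = 1 := congrArg Subtype.val h
      have h2 : M • (OnePoint.infty : OnePoint K) = OnePoint.infty := by
        apply hfb.1
        rw [← hΨa, h1, hf1]; rfl
      have h3 : M • ((0 : K) : OnePoint K) = ((0 : K) : OnePoint K) := by
        apply hfb.1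
        rw [← hΨk, h1, hf2]; rfl
      have h4 : M • ((1 : K) : OnePoint K) = ((1 : K) : OnePoint K) := by
        apply hfb.1
        rw [← hΨk, h1, hf2]; rfl
      have h5 : M 1 0 = 0 := OnePoint.smul_infty_eq_self_iff.mp h2
      have hdet : M 0 0 * M 1 1 - M 0 1 * M 1 0 ≠ 0 := by
        have := M.det_ne_zero
        rwa [Matrix.det_fin_two] at this
      rw [h5, mul_zero, sub_zero] at hdet
      have hδ : M 1 1 ≠ 0 := right_ne_zero_of_mul hdet
      rw [OnePoint.smul_some_eq_ite, h5, zero_mul, zero_add, if_neg hδ, OnePoint.coe_eq_coe, 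
        mul_zero, zero_add, div_eq_zero_iff, or_iff_left hδ] at h3
      rw [OnePoint.smul_some_eq_ite, h5, zero_mul, zero_add, if_neg hδ, OnePoint.coe_eq_coe, h3,
        add_zero, mul_one, div_eq_one_iff_eq hδ] at h4
      refine ⟨Units.mk0 (M 1 1) hδ, ?_⟩
      apply Units.ext
      ext i j
      fin_cases i <;> fin_cases j <;> simp [h3, h4, h5]
    · rintro ⟨u, rfl⟩
      apply Subtype.ext
      change Ψ _ = 1
      apply hext
      · rw [hΨa, OnePoint.smul_infty_eq_ite]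
        simp [hf1]
      · intro k
        rw [hΨk, OnePoint.smul_some_eq_ite]
        simp [hf2]
  exact ⟨((QuotientGroup.quotientMulEquivOfEq hker.symm).trans 
    (QuotientGroup.quotientKerEquivOfSurjective Ψ' hsurj)).symm⟩

end CfsgH2
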