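import Mathlib
import Cfsg.Agent.H2.PermE

/-! # Jordan's theorem on p-cycles, elements of small support (helper2 library) -/

set_option autoImplicit false

namespace CfsgH2

open Subgroup Equiv MulAction
open scoped Pointwise

universe u v

theorem exists_extend {G : Type u} {X : Type v} [Group G] [MulAction G X] {k : ℕ} (h : IsMultiplyPretransitive G X k)
    (s : Finset X) (hs : s.card = k) (f : X → X) (hf : Set.InjOn f s) : ∃ g : G, ∀ z ∈ s, g • z = f z := by
  let x : Fin k ↪ X := (s.equivFinOfCardEq hs).symm.toEmbedding.trans (Function.Embedding.subtype _)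
  have hx : ∀ i, x i ∈ s := fun i => ((s.equivFinOfCardEq hs).symm i).2
  let y : Fin k ↪ X := ⟨fun i => f (x i), fun i j hij => x.injective (hf (hx i) (hx j) hij)⟩
  obtain ⟨g, hg⟩ := h.exists_smul_eq x y
  refine ⟨g, fun z hz => ?_⟩
  have h1 : z = x (s.equivFinOfCardEq hs ⟨z, hz⟩) := by
    change z = (((s.equivFinOfCardEq hs).symm (s.equivFinOfCardEq hs ⟨z, hz⟩) : s) : X)
    rw [Equiv.symm_apply_apply]
  have h2 := congrArg (fun w : Fin k ↪ X => w (s.equivFinOfCardEq hs ⟨z, hz⟩)) hg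
  change g • x _ = f (x _) at h2
  rwa [← h1] at h2

theorem cycle_centralizer {α : Type u} [Fintype α] [DecidableEq α] {g h : Perm α} (hgc : g.IsCycle) (hc : h * g = g * h) :
    ∃ i : ℤ, ∀ z, g z ≠ z → h z = (g ^ i) z := by
  obtain ⟨a, ha, hall⟩ := hgc
  have hcz : ∀ z, h (g z) = g (h z) := fun z => congrArg (fun σ : Perm α => σ z) hc
  have hha : g (h a) ≠ h a := by
    rw [← hcz]
    intro h1
    exact ha (h.injective h1)
  obtain ⟨i, hi⟩ := hall hha
  refine ⟨i, fun z hz => ?_⟩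
  obtain ⟨j, rfl⟩ := hall hz
  have hcj : h * g ^ j = g ^ j * h := (show Commute h g from hc).zpow_right j
  have h1 : h ((g ^ j) a) = (g ^ j) (h a) := congrArg (fun σ : Perm α => σ a) hcj
  rw [h1, ← hi, ← Perm.mul_apply, ← Perm.mul_apply, ← zpow_add, ← zpow_add, add_comm]

theorem jordan_pcycle {α : Type u} [Fintype α] [DecidableEq α] (G : Subgroup (Perm α)) (hG : IsPreprimitive G α) {p : ℕ}
    (hp : p.Prime) (hpn : p + 3 ≤ Fintype.card α) {g : Perm α} (hgc : g.IsCycle) (hgp : g.support.card = p) (hg : g ∈ G) :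
    alternatingGroup α ≤ G := by
  haveI : Fact p.Prime := ⟨hp⟩
  have hp2 := hp.two_le
  obtain ⟨sf, hsf⟩ : ∃ sf, sf = g.supportᶜ := ⟨_, rfl⟩
  have hsmem : ∀ z, z ∈ sf ↔ g z = z := by
    intro z; rw [hsf, Finset.mem_compl, Perm.mem_support, not_not]
  have hscard : sf.card = Fintype.card α - p := by rw [hsf, Finset.card_compl, hgp]
  have hscoe : ((g.support : Set α)ᶜ) = (sf : Set α) := by rw [hsf, Finset.coe_compl]
  have hsc : Set.ncard ((g.support : Set α)ᶜ) = (Fintype.card α - p - 1) + 1 := by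
    rw [hscoe, Set.ncard_coe_finset, hscard]; omega
  have htr := Equiv.Perm.isPretransitive_of_isCycle_mem hgc hg
  have hpr : IsPreprimitive (fixingSubgroup G ((g.support : Set α)ᶜ)) (SubMulAction.ofFixingSubgroup G ((g.support : Set α)ᶜ)) := by
    apply IsPreprimitive.of_prime_card
    have h1 : Nat.card (SubMulAction.ofFixingSubgroup G ((g.support : Set α)ᶜ)) = p := by
      rw [← hgp]
      have e : SubMulAction.ofFixingSubgroup G ((g.support : Set α)ᶜ) ≃ g.support :=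
        { toFun := fun x => ⟨x.1, by
            have h2 : x.1 ∉ ((g.support : Set α)ᶜ) := x.2
            rwa [Set.mem_compl_iff, not_not] at h2⟩
          invFun := fun x => ⟨x.1, by
            rw [SubMulAction.mem_ofFixingSubgroup_iff, Set.mem_compl_iff, not_not]; exact x.2⟩
          left_inv := fun x => rfl
          right_inv := fun x => rfl }
      rw [Nat.card_congr e, Nat.card_eq_fintype_card, Fintype.card_coe]
    rw [h1]; exact hp
  have hmp := hG.isMultiplyPreprimitive hsc (by rw [Nat.card_eq_fintype_card]; omega) hpr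
  haveI := hmp.isMultiplyPretransitive
  have hmt : IsMultiplyPretransitive G α (Fintype.card α - p) :=
    isMultiplyPretransitive_of_le (n := Fintype.card α - p - 1 + 2) (by omega) (by rw [Nat.card_eq_fintype_card]; omega)
  -- the pointwise stabilizer
  obtain ⟨L, hL⟩ : ∃ L, L = fixingSubgroup G (sf : Set α) := ⟨_, rfl⟩
  have hLmem : ∀ x : G, x ∈ L ↔ ∀ z ∈ sf, (x : Perm α) z = z := by
    intro x; rw [hL, mem_fixingSubgroup_iff]; exact Iff.rfl
  have hLpres : ∀ l ∈ L, ∀ z, z ∈ g.support ↔ (l : Perm α) z ∈ g.support := by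
    intro l hl z
    rw [← not_iff_not, ← Finset.mem_compl, ← Finset.mem_compl, ← hsf]
    constructor
    · intro hz
      rw [(hLmem l).1 hl z hz]; exact hz
    · intro hz
      have h1 := (hLmem l).1 hl _ hz
      have h2 := (l : Perm α).injective h1
      rw [h2] at hz; exact hz
  have hLdvd : Nat.card L ∣ p.factorial := by
    let φ : L →* Perm {z // z ∈ g.support} :=
      { toFun := fun l => ((l : G) : Perm α).subtypePerm (fun z => (hLpres l l.2 z).symm)
        map_one' := by ext z; rfl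
        map_mul' := fun a b => by ext z; rfl }
    have h1 : Function.Injective φ := by
      intro a b hab
      apply Subtype.ext
      apply Subtype.ext
      ext z
      by_cases hz : z ∈ g.support
      · have h2 := congrArg (fun σ : Perm {z // z ∈ g.support} => ((σ ⟨z, hz⟩ : {z // z ∈ g.support}) : α)) hab
        exact h2
      · rw [← Finset.mem_compl, ← hsf] at hz
        rw [(hLmem a).1 a.2 z hz, (hLmem b).1 b.2 z hz]
    have h2 := Subgroup.card_dvd_of_injective φ h1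
    rwa [Nat.card_perm, Nat.card_eq_fintype_card (α := {z // z ∈ g.support}), Fintype.card_coe, hgp] at h2
  have hLp : (Nat.card L).factorization p ≤ 1 := by
    by_contra h
    push Not at h
    have h1 := (hp.pow_dvd_iff_le_factorization Nat.card_pos.ne').2 h
    have h2 : p * p ∣ p * (p - 1).factorial := by
      rw [Nat.mul_factorial_pred hp.ne_zero, ← pow_two]; exact h1.trans hLdvd
    have h3 := Nat.dvd_of_mul_dvd_mul_left hp.pos h2
    have h4 := (hp.dvd_factorial).1 h3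
    omega
  have hgo : orderOf g = p := by rw [hgc.orderOf, hgp]
  have hgL : (⟨g, hg⟩ : G) ∈ L := by rw [hLmem]; intro z hz; exact (hsmem z).1 hz
  -- Sylow subgroups of order p
  have hsyl : ∀ y : L, orderOf y = p → ¬ p ∣ (zpowers y).index := by
    intro y hy h1
    have h2 : p ^ 2 ∣ Nat.card L := by
      rw [← (zpowers y).card_mul_index, Nat.card_zpowers, hy, pow_two]
      exact mul_dvd_mul_left p h1
    have h3 := (hp.pow_dvd_iff_le_factorization Nat.card_pos.ne').1 h2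
    omega
  have hnorm : ∀ x₀ : G, (∀ z ∈ sf, (x₀ : Perm α) z ∈ sf) → ∃ x : G, (∀ z ∈ sf, (x : Perm α) z = (x₀ : Perm α) z) ∧
      ∃ i : ℤ, (x : Perm α) * g * (x : Perm α)⁻¹ = g ^ i := by
    intro x₀ hx₀
    have hx₀' : ∀ z ∈ sf, (x₀ : Perm α)⁻¹ z ∈ sf := by
      have himg : sf.image (x₀ : Perm α) = sf := by
        apply Finset.eq_of_subset_of_card_le
        · intro z hz
          obtain ⟨w, hw, rfl⟩ := Finset.mem_image.1 hz
          exact hx₀ w hw
        · rw [Finset.card_image_of_injective _ (x₀ : Perm α).injective]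
      intro z hz
      rw [← himg] at hz
      obtain ⟨w, hw, rfl⟩ := Finset.mem_image.1 hz
      rw [show (x₀ : Perm α)⁻¹ ((x₀ : Perm α) w) = w from (x₀ : Perm α).symm_apply_apply w]
      exact hw
    have hcL : x₀ * ⟨g, hg⟩ * x₀⁻¹ ∈ L := by
      rw [hLmem]
      intro z hz
      change (x₀ : Perm α) (g ((x₀ : Perm α)⁻¹ z)) = z
      rw [(hsmem _).1 (hx₀' z hz)]
      exact (x₀ : Perm α).apply_symm_apply z
    have ho1 : orderOf (⟨⟨g, hg⟩, hgL⟩ : L) = p := by rw [Subgroup.orderOf_mk, Subgroup.orderOf_mk, hgo]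
    have ho2 : orderOf (⟨_, hcL⟩ : L) = p := by
      rw [Subgroup.orderOf_mk]
      have : orderOf (x₀ * (⟨g, hg⟩ : G) * x₀⁻¹) = orderOf (⟨g, hg⟩ : G) := MulEquiv.orderOf_eq (MulAut.conj x₀) _
      rw [this, Subgroup.orderOf_mk, hgo]
    have hp1 : IsPGroup p (zpowers (⟨⟨g, hg⟩, hgL⟩ : L)) := IsPGroup.of_card (n := 1) (by rw [Nat.card_zpowers, ho1, pow_one])
    have hp2 : IsPGroup p (zpowers (⟨_, hcL⟩ : L)) := IsPGroup.of_card (n := 1) (by rw [Nat.card_zpowers, ho2, pow_one])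
    obtain ⟨l, hl⟩ := MulAction.exists_smul_eq L (hp2.toSylow (hsyl _ ho2)) (hp1.toSylow (hsyl _ ho1))
    have h1 : l * ⟨_, hcL⟩ * l⁻¹ ∈ zpowers (⟨⟨g, hg⟩, hgL⟩ : L) := by
      have h2 : ((hp1.toSylow (hsyl _ ho1) : Sylow p L) : Subgroup L) = zpowers (⟨⟨g, hg⟩, hgL⟩ : L) := rfl
      rw [← h2, ← hl, Sylow.coe_subgroup_smul]
      rw [Subgroup.mem_pointwise_smul_iff_inv_smul_mem]
      have h3 : (MulAut.conj l)⁻¹ • (l * (⟨_, hcL⟩ : L) * l⁻¹) = ⟨_, hcL⟩ := by
        change (MulAut.conj l)⁻¹ (l * (⟨_, hcL⟩ : L) * l⁻¹) = ⟨_, hcL⟩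
        rw [MulAut.conj_inv_apply]; group
      rw [h3]
      exact mem_zpowers _
    obtain ⟨i, hi⟩ := h1
    refine ⟨(l : G) * x₀, ?_, i, ?_⟩
    · intro z hz
      change ((l : G) : Perm α) ((x₀ : Perm α) z) = (x₀ : Perm α) z
      exact (hLmem l).1 l.2 _ (hx₀ z hz)
    · have h2 := congrArg (fun y : L => ((y : G) : Perm α)) hi
      change g ^ i = ((l : G) : Perm α) * ((x₀ : Perm α) * g * (x₀ : Perm α)⁻¹) * ((l : G) : Perm α)⁻¹ at h2
      rw [h2]
      change ((l : G) : Perm α) * (x₀ : Perm α) * g * (((l : G) : Perm α) * (x₀ : Perm α))⁻¹ = _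
      group
  -- three points
  obtain ⟨a, ha, b, hb, c, hc, hab, hac, hbc⟩ : ∃ a ∈ sf, ∃ b ∈ sf, ∃ c ∈ sf, a ≠ b ∧ a ≠ c ∧ b ≠ c := by
    obtain ⟨a, b, c, ha, hb, hc, h⟩ := Finset.two_lt_card_iff.1 (show 2 < sf.card by omega)
    exact ⟨a, ha, b, hb, c, hc, h⟩
  have hswap : ∀ a b : α, a ∈ sf → b ∈ sf → ∃ x : G, (∀ z ∈ sf, (x : Perm α) z = Equiv.swap a b z) ∧
      ∃ i : ℤ, (x : Perm α) * g * (x : Perm α)⁻¹ = g ^ i := by
    intro a b ha hb
    obtain ⟨x₀, hx₀⟩ := exists_extend hmt sf hscard (Equiv.swap a b) ((Equiv.swap a b).injective.injOn)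
    have hx₀' : ∀ z ∈ sf, (x₀ : Perm α) z = Equiv.swap a b z := hx₀
    obtain ⟨x, hx, hxi⟩ := hnorm x₀ (by
      intro z hz
      rw [hx₀' z hz]
      rcases eq_or_ne z a with rfl | h1
      · rw [Equiv.swap_apply_left]; exact hb
      · rcases eq_or_ne z b with rfl | h2
        · rw [Equiv.swap_apply_right]; exact ha
        · rw [Equiv.swap_apply_of_ne_of_ne h1 h2]; exact hz)
    exact ⟨x, fun z hz => (hx z hz).trans (hx₀' z hz), hxi⟩
  obtain ⟨x, hx, i, hi⟩ := hswap a b ha hb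
  obtain ⟨y, hy, j, hj⟩ := hswap a c ha hc
  have hmulc : ∀ (u v : Perm α) (m n : ℤ), u * g * u⁻¹ = g ^ m → v * g * v⁻¹ = g ^ n → (u * v) * g * (u * v)⁻¹ = g ^ (m * n) := by
    intro u v m n hu hv
    have h1 : (u * v) * g * (u * v)⁻¹ = u * (v * g * v⁻¹) * u⁻¹ := by group
    have h2 : u * g ^ n * u⁻¹ = (u * g * u⁻¹) ^ n := by rw [conj_zpow]
    rw [h1, hv, h2, hu, ← zpow_mul]
  have h1 := hmulc _ _ _ _ hi hj
  have h2 := hmulc _ _ _ _ hj hi
  obtain ⟨h, hh⟩ : ∃ h : Perm α, h = ((y : Perm α) * x)⁻¹ * ((x : Perm α) * y) := ⟨_, rfl⟩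
  have hhg : h * g = g * h := by
    have h3 : ((x : Perm α) * y) * g * ((x : Perm α) * y)⁻¹ = ((y : Perm α) * x) * g * ((y : Perm α) * x)⁻¹ := by
      rw [h1, h2, mul_comm]
    rw [hh]
    calc ((y : Perm α) * x)⁻¹ * ((x : Perm α) * y) * g = ((y : Perm α) * x)⁻¹ * (((x : Perm α) * y) * g * ((x : Perm α) * y)⁻¹) * ((x : Perm α) * y) := by group
      _ = ((y : Perm α) * x)⁻¹ * (((y : Perm α) * x) * g * ((y : Perm α) * x)⁻¹) * ((x : Perm α) * y) := by rw [h3]
      _ = g * (((y : Perm α) * x)⁻¹ * ((x : Perm α) * y)) := by group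
  obtain ⟨m, hm⟩ := cycle_centralizer hgc hhg
  have hhG : h ∈ G := by rw [hh]; exact G.mul_mem (G.inv_mem (G.mul_mem y.2 x.2)) (G.mul_mem x.2 y.2)
  obtain ⟨t, ht⟩ : ∃ t : Perm α, t = Equiv.swap a b * Equiv.swap a c := ⟨_, rfl⟩
  have hswmem : ∀ a b z : α, a ∈ sf → b ∈ sf → z ∈ sf → Equiv.swap a b z ∈ sf := by
    intro a b z ha hb hz
    rcases eq_or_ne z a with rfl | h1
    · rw [Equiv.swap_apply_left]; exact hb
    · rcases eq_or_ne z b with rfl | h2
      · rw [Equiv.swap_apply_right]; exact ha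
      · rw [Equiv.swap_apply_of_ne_of_ne h1 h2]; exact hz
  have hxinv : ∀ z ∈ sf, (x : Perm α)⁻¹ z = Equiv.swap a b z := by
    intro z hz
    rw [Perm.inv_eq_iff_eq, hx _ (hswmem a b z ha hb hz), Equiv.swap_apply_self]
  have hyinv : ∀ z ∈ sf, (y : Perm α)⁻¹ z = Equiv.swap a c z := by
    intro z hz
    rw [Perm.inv_eq_iff_eq, hy _ (hswmem a c z ha hc hz), Equiv.swap_apply_self]
  have hts : h * (g ^ m)⁻¹ = t * t := by
    ext z
    by_cases hz : z ∈ sf
    · have hgz : (g ^ m)⁻¹ z = z := by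
        rw [Perm.inv_eq_iff_eq]
        exact ((Perm.zpow_apply_eq_self_of_apply_eq_self ((hsmem z).1 hz) m)).symm
      rw [Perm.mul_apply, hgz, hh, ht]
      change (x : Perm α)⁻¹ ((y : Perm α)⁻¹ ((x : Perm α) ((y : Perm α) z))) =
        Equiv.swap a b (Equiv.swap a c (Equiv.swap a b (Equiv.swap a c z)))
      rw [hy z hz, hx _ (hswmem a c z ha hc hz), hyinv _ (hswmem a b _ ha hb (hswmem a c z ha hc hz)),
        hxinv _ (hswmem a c _ ha hc (hswmem a b _ ha hb (hswmem a c z ha hc hz)))]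
    · have hgz : g z ≠ z := fun h => hz ((hsmem z).2 h)
      have hza : z ≠ a := fun h => hz (h ▸ ha)
      have hzb : z ≠ b := fun h => hz (h ▸ hb)
      have hzc : z ≠ c := fun h => hz (h ▸ hc)
      have h3 : g ((g ^ m)⁻¹ z) ≠ (g ^ m)⁻¹ z := by
        intro h4
        apply hgz
        have h5 : g ((g ^ m)⁻¹ z) = (g ^ m)⁻¹ (g z) := by
          have : g * (g ^ m)⁻¹ = (g ^ m)⁻¹ * g := by group
          exact congrArg (fun σ : Perm α => σ z) this
        rw [h5] at h4
        exact (g ^ m)⁻¹.injective h4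
      rw [Perm.mul_apply, hm _ h3, ht]
      change (g ^ m) ((g ^ m)⁻¹ z) = Equiv.swap a b (Equiv.swap a c (Equiv.swap a b (Equiv.swap a c z)))
      rw [Equiv.swap_apply_of_ne_of_ne hza hzc, Equiv.swap_apply_of_ne_of_ne hza hzb, Equiv.swap_apply_of_ne_of_ne hza hzc,
        Equiv.swap_apply_of_ne_of_ne hza hzb]
      exact (g ^ m).apply_symm_apply z
  have h3c : (t * t).IsThreeCycle := by
    rw [ht]
    exact (Perm.isThreeCycle_swap_mul_swap_same hab hac hbc).isThreeCycle_sq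
  apply Equiv.Perm.alternatingGroup_le_of_isPreprimitive_of_isThreeCycle_mem hG h3c
  rw [← hts]
  exact G.mul_mem hhG (G.inv_mem (G.zpow_mem hg m))

end CfsgH2
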