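import Mathlib
import Cfsg.Prelude.Def_Perm
import Cfsg.Agent.H2.PermG

/-! # The permutation module (helper2 library) -/

set_option autoImplicit false

namespace CfsgH2

open Subgroup Equiv MulAction Cfsg
open scoped Pointwise

universe u v w

section basic

variable {K : Type u} [Field K] {G : Type v} [Group G] {Ω : Type w} [MulAction G Ω]

theorem permRep_apply (g : G) (f : Ω → K) (x : Ω) : permRep K G Ω g f x = f (g⁻¹ • x) := rfl

theorem permRep_single [DecidableEq Ω] (g : G) (i : Ω) (c : K) :
    permRep K G Ω g (Pi.single i c) = Pi.single (g • i) c := by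
  funext x
  rw [permRep_apply]
  by_cases h : x = g • i
  · subst h; simp
  · rw [Pi.single_eq_of_ne h, Pi.single_eq_of_ne]
    intro h1; apply h; rw [← h1, smul_inv_smul]

theorem mem_permConstants {f : Ω → K} : f ∈ (permConstants K G Ω).toSubmodule ↔ ∃ c : K, ∀ x, f x = c := by
  change f ∈ Submodule.span K {fun _ => (1 : K)} ↔ _
  rw [Submodule.mem_span_singleton]
  constructor
  · rintro ⟨c, rfl⟩; exact ⟨c, fun x => by simp⟩
  · rintro ⟨c, hc⟩; exact ⟨c, funext fun x => by simp [hc]⟩

theorem mem_permSumZero [Fintype Ω] {f : Ω → K} : f ∈ (permSumZero K G Ω).toSubmodule ↔ ∑ x, f x = 0 := Iff.rfl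

theorem sumZero_le_of_diff [Fintype Ω] [DecidableEq Ω] (W : Subrepresentation (permRep K G Ω))
    (h : ∀ i j : Ω, (Pi.single i 1 - Pi.single j 1 : Ω → K) ∈ W.toSubmodule) :
    (permSumZero K G Ω).toSubmodule ≤ W.toSubmodule := by
  intro f hf
  rw [mem_permSumZero] at hf
  rcases isEmpty_or_nonempty Ω with he | ⟨⟨a⟩⟩
  · have : f = 0 := Subsingleton.elim _ _
    rw [this]; exact W.toSubmodule.zero_mem
  · have h1 : f = ∑ i, f i • (Pi.single i 1 - Pi.single a 1 : Ω → K) := by
      simp only [smul_sub, Finset.sum_sub_distrib]
      rw [← Finset.sum_smul, hf, zero_smul, sub_zero]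
      funext x
      simp [Finset.sum_apply, Pi.single_apply]
    rw [h1]
    exact W.toSubmodule.sum_mem fun i _ => W.toSubmodule.smul_mem _ (h i a)

theorem sumZero_or_top [Fintype Ω] (W : Subrepresentation (permRep K G Ω))
    (h : (permSumZero K G Ω).toSubmodule ≤ W.toSubmodule) : W = permSumZero K G Ω ∨ W.toSubmodule = ⊤ := by
  by_cases hW : W.toSubmodule ≤ (permSumZero K G Ω).toSubmodule
  · left
    exact Subrepresentation.toSubmodule_injective (le_antisymm hW h)
  · right
    rw [SetLike.le_def] at hW
    push Not at hW
    obtain ⟨w, hw, hw2⟩ := hW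
    rw [mem_permSumZero] at hw2
    rw [eq_top_iff]
    intro f _
    have h1 : f - ((∑ x, f x) / (∑ x, w x)) • w ∈ W.toSubmodule := by
      apply h
      rw [mem_permSumZero]
      simp only [Pi.sub_apply, Pi.smul_apply, smul_eq_mul, Finset.sum_sub_distrib, ← Finset.mul_sum]
      rw [div_mul_cancel₀ _ hw2, sub_self]
    have h2 := W.toSubmodule.add_mem h1 (W.toSubmodule.smul_mem ((∑ x, f x) / (∑ x, w x)) hw)
    rwa [sub_add_cancel] at h2

theorem bot_or_constants [Nonempty Ω] (W : Subrepresentation (permRep K G Ω))
    (h : W.toSubmodule ≤ (permConstants K G Ω).toSubmodule) : W.toSubmodule = ⊥ ∨ W = permConstants K G Ω := by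
  by_cases hW : W.toSubmodule = ⊥
  · exact Or.inl hW
  · right
    obtain ⟨w, hw, hw0⟩ := (Submodule.ne_bot_iff _).1 hW
    apply Subrepresentation.toSubmodule_injective
    refine le_antisymm h ?_
    intro f hf
    obtain ⟨c, hc⟩ := mem_permConstants.1 hf
    obtain ⟨d, hd⟩ := mem_permConstants.1 (h hw)
    have hd0 : d ≠ 0 := by
      rintro rfl; exact hw0 (funext hd)
    have h1 : f = (c / d) • w := by
      funext x; rw [Pi.smul_apply, hc, hd, smul_eq_mul, div_mul_cancel₀ _ hd0]
    rw [h1]; exact W.toSubmodule.smul_mem _ hw

theorem diff_mem_smul [DecidableEq Ω] (W : Subrepresentation (permRep K G Ω)) {i j : Ω}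
    (h : (Pi.single i 1 - Pi.single j 1 : Ω → K) ∈ W.toSubmodule) (g : G) :
    (Pi.single (g • i) 1 - Pi.single (g • j) 1 : Ω → K) ∈ W.toSubmodule := by
  have h1 := W.apply_mem_toSubmodule g h
  rwa [map_sub, permRep_single, permRep_single] at h1

end basic

theorem alt_permRep {α : Type v} [Fintype α] [DecidableEq α] (hα : 5 ≤ Fintype.card α) {K : Type u} [Field K]
    (W : Subrepresentation (permRep K (alternatingGroup α) α)) :
    W.toSubmodule = ⊥ ∨ W = permConstants K (alternatingGroup α) α ∨ W = permSumZero K (alternatingGroup α) α ∨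
      W.toSubmodule = ⊤ := by
  haveI : Nonempty α := by rw [← Fintype.card_pos_iff]; omega
  by_cases hc : W.toSubmodule ≤ (permConstants K (alternatingGroup α) α).toSubmodule
  · rcases bot_or_constants W hc with h | h
    · exact Or.inl h
    · exact Or.inr (Or.inl h)
  · right; right
    apply sumZero_or_top
    apply sumZero_le_of_diff
    -- some difference is in W
    have key : ∃ i j : α, i ≠ j ∧ (Pi.single i 1 - Pi.single j 1 : α → K) ∈ W.toSubmodule := by
      rw [SetLike.le_def] at hc
      push Not at hc
      obtain ⟨f, hf, hf2⟩ := hc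
      rw [mem_permConstants] at hf2
      push Not at hf2
      obtain ⟨a⟩ := ‹Nonempty α›
      obtain ⟨b, hb⟩ := hf2 (f a)
      have hab : b ≠ a := fun h => hb (by rw [h])
      obtain ⟨c, -, hc⟩ := Finset.exists_mem_notMem_of_card_lt_card (s := ({a, b} : Finset α)) (t := Finset.univ) (by
        rw [Finset.card_univ]; exact lt_of_le_of_lt Finset.card_le_two (by omega))
      obtain ⟨d, -, hd⟩ := Finset.exists_mem_notMem_of_card_lt_card (s := ({a, b, c} : Finset α)) (t := Finset.univ) (by
        rw [Finset.card_univ]; exact lt_of_le_of_lt Finset.card_le_three (by omega))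
      obtain ⟨e, -, he⟩ := Finset.exists_mem_notMem_of_card_lt_card (s := ({a, b, c, d} : Finset α)) (t := Finset.univ) (by
        rw [Finset.card_univ]; exact lt_of_le_of_lt Finset.card_le_four (by omega))
      simp only [Finset.mem_insert, Finset.mem_singleton, not_or] at hc hd he
      obtain ⟨hca, hcb⟩ := hc
      obtain ⟨hda, hdb, hdc⟩ := hd
      obtain ⟨hea, heb, hec, hed⟩ := he
      -- σ = (a b)(c d)
      let σ : alternatingGroup α := ⟨swap a b * swap c d, by
        rw [Perm.mem_alternatingGroup, Perm.sign_mul, Perm.sign_swap hab.symm, Perm.sign_swap (Ne.symm hdc)]; decide⟩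
      have h1 : permRep K (alternatingGroup α) α σ f - f =
          (f b - f a) • (Pi.single a 1 - Pi.single b 1 : α → K) + (f d - f c) • (Pi.single c 1 - Pi.single d 1 : α → K) := by
        funext x
        have hσ : σ⁻¹ • x = (swap c d) ((swap a b) x) := by
          change (swap a b * swap c d)⁻¹ x = _
          rw [mul_inv_rev, swap_inv, swap_inv]; rfl
        rw [Pi.sub_apply, permRep_apply, hσ]
        by_cases hxa : x = a
        · subst hxa
          rw [swap_apply_left, swap_apply_of_ne_of_ne (Ne.symm hcb) (Ne.symm hdb)]
          simp [Pi.single_apply, hab.symm, Ne.symm hca, Ne.symm hda]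
        · by_cases hxb : x = b
          · subst hxb
            rw [swap_apply_right, swap_apply_of_ne_of_ne (Ne.symm hca) (Ne.symm hda)]
            simp [Pi.single_apply, hab, Ne.symm hcb, Ne.symm hdb]
          · rw [swap_apply_of_ne_of_ne hxa hxb]
            by_cases hxc : x = c
            · subst hxc
              rw [swap_apply_left]
              simp [Pi.single_apply, hca, hcb, Ne.symm hdc]
            · by_cases hxd : x = d
              · subst hxd
                rw [swap_apply_right]
                simp [Pi.single_apply, hda, hdb, hdc]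
              · rw [swap_apply_of_ne_of_ne hxc hxd]
                simp [Pi.single_apply, hxa, hxb, hxc, hxd]
      have h2 : (f b - f a) • (Pi.single a 1 - Pi.single b 1 : α → K) + (f d - f c) • (Pi.single c 1 - Pi.single d 1 : α → K)
          ∈ W.toSubmodule := by
        rw [← h1]
        exact W.toSubmodule.sub_mem (W.apply_mem_toSubmodule σ hf) hf
      have hx : f b - f a ≠ 0 := sub_ne_zero.2 hb
      by_cases hy : f d - f c = 0
      · refine ⟨a, b, hab.symm, ?_⟩
        rw [hy, zero_smul, add_zero] at h2
        exact (Submodule.smul_mem_iff _ hx).1 h2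
      · refine ⟨c, a, hca, ?_⟩
        -- τ : c → d → e → c
        let τ : alternatingGroup α := ⟨swap c d * swap d e, by
          rw [Perm.mem_alternatingGroup, Perm.sign_mul, Perm.sign_swap (Ne.symm hdc), Perm.sign_swap (Ne.symm hed)]; decide⟩
        have hτa : τ • a = a := by
          change (swap c d) ((swap d e) a) = a
          rw [swap_apply_of_ne_of_ne (Ne.symm hda) (Ne.symm hea), swap_apply_of_ne_of_ne (Ne.symm hca) (Ne.symm hda)]
        have hτb : τ • b = b := by
          change (swap c d) ((swap d e) b) = b
          rw [swap_apply_of_ne_of_ne (Ne.symm hdb) (Ne.symm heb), swap_apply_of_ne_of_ne (Ne.symm hcb) (Ne.symm hdb)]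
        have hτc : τ • c = d := by
          change (swap c d) ((swap d e) c) = d
          rw [swap_apply_of_ne_of_ne (Ne.symm hdc) (Ne.symm hec), swap_apply_left]
        have hτd : τ • d = e := by
          change (swap c d) ((swap d e) d) = e
          rw [swap_apply_left, swap_apply_of_ne_of_ne hec hed]
        have h3 := W.toSubmodule.sub_mem (W.apply_mem_toSubmodule τ h2) h2
        rw [map_add, map_smul, map_smul, map_sub, map_sub, permRep_single, permRep_single, permRep_single, permRep_single,
          hτa, hτb, hτc, hτd, add_sub_add_left_eq_sub, ← smul_sub] at h3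
        have h4 := (Submodule.smul_mem_iff _ hy).1 h3
        -- v = e_d - e_e - (e_c - e_d)
        let ρ : alternatingGroup α := ⟨swap c a * swap a b, by
          rw [Perm.mem_alternatingGroup, Perm.sign_mul, Perm.sign_swap hca, Perm.sign_swap hab.symm]; decide⟩
        have hρc : ρ • c = a := by
          change (swap c a) ((swap a b) c) = a
          rw [swap_apply_of_ne_of_ne hca hcb, swap_apply_left]
        have hρd : ρ • d = d := by
          change (swap c a) ((swap a b) d) = d
          rw [swap_apply_of_ne_of_ne hda hdb, swap_apply_of_ne_of_ne hdc hda]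
        have hρe : ρ • e = e := by
          change (swap c a) ((swap a b) e) = e
          rw [swap_apply_of_ne_of_ne hea heb, swap_apply_of_ne_of_ne hec hea]
        have h5 := W.toSubmodule.sub_mem (W.apply_mem_toSubmodule ρ h4) h4
        rw [map_sub, map_sub, map_sub, permRep_single, permRep_single, permRep_single, hρc, hρd, hρe] at h5
        have h6 : (Pi.single c 1 - Pi.single a 1 : α → K) =
          (Pi.single d 1 - Pi.single e 1 - (Pi.single a 1 - Pi.single d 1) -
            (Pi.single d 1 - Pi.single e 1 - (Pi.single c 1 - Pi.single d 1))) := by abel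
        rw [h6]; exact h5
    obtain ⟨i, j, hij, hW⟩ := key
    intro i' j'
    by_cases hij' : i' = j'
    · rw [hij', sub_self]; exact W.toSubmodule.zero_mem
    · have h2t : IsMultiplyPretransitive (alternatingGroup α) α 2 := by
        haveI := alternatingGroup.isMultiplyPretransitive α
        exact isMultiplyPretransitive_of_le (G := alternatingGroup α) (n := Nat.card α - 2)
          (by rw [Nat.card_eq_fintype_card]; omega) (by omega)
      rw [is_two_pretransitive_iff] at h2t
      obtain ⟨g, hg1, hg2⟩ := h2t hij hij'
      rw [← hg1, ← hg2]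
      exact diff_mem_smul W hW g

end CfsgH2
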