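import Mathlib
import Cfsg.Prelude.Def_Perm
import Cfsg.Agent.H2.PermRep

/-! # The permutation module in characteristic p (helper2 library) -/

set_option autoImplicit false

namespace CfsgH2

open Subgroup Equiv MulAction Cfsg
open scoped Pointwise

universe u v w w'

/-- a finite `p`-group acting linearly on a nonzero space of characteristic `p` fixes a nonzero vector -/
theorem exists_fixed_vec {P : Type v} [Group P] [Finite P] {p : ℕ} [Fact p.Prime] (hP : IsPGroup p P) {K : Type u} [Field K]
    [CharP K p] {V : Type w} [AddCommGroup V] [Module K V] (ρ : P →* (V →ₗ[K] V)) (W : Submodule K V)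
    (hW : ∀ g, ∀ v ∈ W, ρ g v ∈ W) (hW0 : W ≠ ⊥) : ∃ v ∈ W, v ≠ 0 ∧ ∀ g, ρ g v = v := by
  obtain ⟨w, hw, hw0⟩ := (Submodule.ne_bot_iff _).1 hW0
  have hpv : ∀ v : V, p • v = 0 := by
    intro v
    rw [← Nat.cast_smul_eq_nsmul K, CharP.cast_eq_zero, zero_smul]
  obtain ⟨S, hS⟩ : ∃ S, S = AddSubgroup.closure (Set.range fun g => ρ g w) := ⟨_, rfl⟩
  have hSρ : ∀ g, ∀ v ∈ S, ρ g v ∈ S := by
    intro g v hv
    rw [hS] at hv ⊢
    induction hv using AddSubgroup.closure_induction with
    | mem x hx =>
      obtain ⟨h, rfl⟩ := hx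
      refine AddSubgroup.subset_closure ⟨g * h, ?_⟩
      simp only [map_mul]; rfl
    | zero => rw [map_zero]; exact AddSubgroup.zero_mem _
    | add x y _ _ h1 h2 => rw [map_add]; exact AddSubgroup.add_mem _ h1 h2
    | neg x _ h1 => rw [map_neg]; exact AddSubgroup.neg_mem _ h1
  have hSW : ∀ v ∈ S, v ∈ W := by
    intro v hv
    rw [hS] at hv
    induction hv using AddSubgroup.closure_induction with
    | mem x hx => obtain ⟨h, rfl⟩ := hx; exact hW h w hw
    | zero => exact W.zero_mem
    | add x y _ _ h1 h2 => exact W.add_mem h1 h2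
    | neg x _ h1 => exact W.neg_mem h1
  have hwS : w ∈ S := by
    rw [hS]; refine AddSubgroup.subset_closure ⟨1, ?_⟩
    simp only [map_one]; rfl
  haveI hfg : Module.Finite ℤ S := by
    rw [Module.Finite.iff_addGroup_fg, AddGroup.fg_iff_addSubgroup_fg, AddSubgroup.fg_iff]
    exact ⟨_, hS.symm, Set.finite_range _⟩
  haveI hfin : Finite S := by
    apply Module.finite_of_fg_torsion S
    rintro ⟨v, hv⟩
    refine ⟨⟨(p : ℤ), ?_⟩, ?_⟩
    · rw [mem_nonZeroDivisors_iff_ne_zero]; exact_mod_cast (Fact.out : p.Prime).ne_zero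
    · apply Subtype.ext
      change ((p : ℤ) • v : V) = 0
      rw [natCast_zsmul]; exact hpv v
  letI : MulAction P S :=
    { smul := fun g v => ⟨ρ g v, hSρ g v v.2⟩
      one_smul := fun v => by
        apply Subtype.ext
        change ρ 1 (v : V) = v
        rw [map_one]; rfl
      mul_smul := fun g h v => by
        apply Subtype.ext
        change ρ (g * h) (v : V) = ρ g (ρ h v)
        rw [map_mul]; rfl }
  have h0 : (0 : S) ∈ fixedPoints P S := by
    intro g
    apply Subtype.ext
    change ρ g (0 : V) = 0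
    rw [map_zero]
  have hdvd : p ∣ Nat.card S := by
    have h1 : addOrderOf (⟨w, hwS⟩ : S) = p := by
      apply addOrderOf_eq_prime
      · apply Subtype.ext; exact hpv w
      · intro h; exact hw0 (congrArg Subtype.val h)
    rw [← h1]; exact addOrderOf_dvd_natCard _
  obtain ⟨b, hb, hb0⟩ := hP.exists_fixed_point_of_prime_dvd_card_of_fixed_point S hdvd h0
  refine ⟨b, hSW b b.2, fun h => hb0 (Subtype.ext h.symm), fun g => ?_⟩
  exact congrArg Subtype.val (hb g)

/-- Sylow `p`-subgroups are transitive when the degree is a power of `p` -/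
theorem sylow_trans {G : Type v} [Group G] [Finite G] {Ω : Type w} [Finite Ω] [MulAction G Ω] [IsPretransitive G Ω]
    {p f : ℕ} [hp : Fact p.Prime] (hcard : Nat.card Ω = p ^ f) (P : Sylow p G) : IsPretransitive (P : Subgroup G) Ω := by
  haveI hne : Nonempty Ω := by
    rw [← Finite.card_pos_iff, hcard]; exact pow_pos hp.out.pos _
  obtain ⟨a⟩ := hne
  have h1 : Nat.card G = Nat.card (stabilizer G a) * p ^ f := by
    rw [← hcard, ← (stabilizer G a).card_mul_index, index_stabilizer_of_transitive]
  have h2 : Nat.card (P : Subgroup G) = p ^ (Nat.card G).factorization p := P.card_eq_multiplicity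
  have h3 : (Nat.card G).factorization p = (Nat.card (stabilizer G a)).factorization p + f := by
    rw [h1, Nat.factorization_mul Nat.card_pos.ne' (pow_pos hp.out.pos _).ne', Finsupp.add_apply, hp.out.factorization_pow]
    simp
  have h4 : Nat.card (stabilizer (P : Subgroup G) a) ∣ Nat.card (stabilizer G a) := by
    have h5 : (stabilizer (P : Subgroup G) a).map (P : Subgroup G).subtype ≤ stabilizer G a := by
      rintro _ ⟨x, hx, rfl⟩; exact hx
    have h6 := Subgroup.card_dvd_of_le h5
    rwa [Subgroup.card_map_of_injective (P : Subgroup G).subtype_injective] at h6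
  have h5 : ∃ j, Nat.card (stabilizer (P : Subgroup G) a) = p ^ j := by
    exact IsPGroup.iff_card.1 (P.2.to_subgroup _)
  obtain ⟨j, hj⟩ := h5
  have h6 : j ≤ (Nat.card (stabilizer G a)).factorization p := by
    rw [hj] at h4
    exact (hp.out.pow_dvd_iff_le_factorization Nat.card_pos.ne').1 h4
  have h7 : p ^ f ≤ Nat.card (orbit (P : Subgroup G) a) := by
    have h8 := (stabilizer (P : Subgroup G) a).card_mul_index
    rw [index_stabilizer, hj, h2, h3] at h8
    rw [← Nat.card_coe_set_eq] at h8
    have h9 : p ^ j * p ^ f ≤ p ^ j * Nat.card (orbit (P : Subgroup G) a) := by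
      rw [h8, ← pow_add]
      exact Nat.pow_le_pow_right hp.out.pos (by omega)
    exact Nat.le_of_mul_le_mul_left h9 (pow_pos hp.out.pos _)
  have h8 : orbit (P : Subgroup G) a = Set.univ := by
    apply Set.eq_of_subset_of_ncard_le (Set.subset_univ _)
    rw [Set.ncard_univ, hcard]
    rwa [Nat.card_coe_set_eq] at h7
  exact (isPretransitive_iff_orbit_eq_univ (G := (P : Subgroup G)) a).2 h8

theorem constants_le {G : Type v} [Group G] [Finite G] {K : Type u} [Field K] {p f : ℕ} [Fact p.Prime] [CharP K p]
    {Ω : Type w} [Fintype Ω] [MulAction G Ω] [IsPretransitive G Ω] (hcard : Fintype.card Ω = p ^ f)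
    (W : Subrepresentation (permRep K G Ω)) (hW : W.toSubmodule ≠ ⊥) :
    (permConstants K G Ω).toSubmodule ≤ W.toSubmodule := by
  obtain ⟨P⟩ : Nonempty (Sylow p G) := inferInstance
  haveI := sylow_trans (Ω := Ω) (by rw [Nat.card_eq_fintype_card, hcard]) P
  obtain ⟨v, hv, hv0, hfix⟩ := exists_fixed_vec P.2 ((permRep K G Ω).comp (P : Subgroup G).subtype) W.toSubmodule
    (fun g v hv => W.apply_mem_toSubmodule _ hv) hW
  haveI hne : Nonempty Ω := by
    rw [← Fintype.card_pos_iff, hcard]; exact pow_pos (Fact.out : p.Prime).pos _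
  obtain ⟨a⟩ := hne
  have h1 : ∀ x, v x = v a := by
    intro x
    obtain ⟨g, hg⟩ := exists_smul_eq (P : Subgroup G) x a
    have h2 := congrFun (hfix g⁻¹) x
    change v (((g⁻¹ : (P : Subgroup G)) : G)⁻¹ • x) = v x at h2
    rw [← h2]
    congr 1
    rw [← hg]
    change ((g⁻¹ : (P : Subgroup G)) : G)⁻¹ • x = (g : G) • x
    simp
  have h3 : v a ≠ 0 := fun h => hv0 (funext fun x => by rw [h1 x, h]; rfl)
  intro f hf
  obtain ⟨c, hc⟩ := mem_permConstants.1 hf
  have h4 : f = (c / v a) • v := by
    funext x; rw [Pi.smul_apply, hc, h1 x, smul_eq_mul, div_mul_cancel₀ _ h3]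
  rw [h4]; exact W.toSubmodule.smul_mem _ hv

/-- the sum-zero functions are the unique maximal submodule -/
theorem le_sumZero {G : Type v} [Group G] [Finite G] {K : Type u} [Field K] {p f : ℕ} [Fact p.Prime] [CharP K p]
    {Ω : Type w} [Fintype Ω] [MulAction G Ω] [IsPretransitive G Ω] (hcard : Fintype.card Ω = p ^ f)
    (U : Subrepresentation (permRep K G Ω)) (hU : U.toSubmodule ≠ ⊤) :
    U.toSubmodule ≤ (permSumZero K G Ω).toSubmodule := by
  classical
  let A : Subrepresentation (permRep K G Ω) :=
    { toSubmodule :=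
        { carrier := {w | ∀ u ∈ U.toSubmodule, ∑ x, w x * u x = 0}
          add_mem' := by
            intro a b ha hb u hu
            simp only [Pi.add_apply, add_mul, Finset.sum_add_distrib]
            rw [ha u hu, hb u hu, add_zero]
          zero_mem' := by intro u hu; simp
          smul_mem' := by
            intro c a ha u hu
            simp only [Pi.smul_apply, smul_eq_mul, mul_assoc, ← Finset.mul_sum]
            rw [ha u hu, mul_zero] }
      apply_mem_toSubmodule := by
        intro g w hw u hu
        have h1 := hw _ (U.apply_mem_toSubmodule g⁻¹ hu)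
        rw [← h1]
        refine (Fintype.sum_equiv (MulAction.toPerm g) _ _ (fun x => ?_)).symm
        change w x * permRep K G Ω g⁻¹ u x = permRep K G Ω g w (g • x) * u (g • x)
        rw [permRep_apply, permRep_apply, inv_inv, inv_smul_smul] }
  have hA : A.toSubmodule ≠ ⊥ := by
    obtain ⟨φ, hφ, hker⟩ := Submodule.exists_le_ker_of_lt_top _ (lt_top_iff_ne_top.2 hU)
    have hrep : ∀ u : Ω → K, φ u = ∑ x, φ (Pi.single x 1) * u x := by
      intro u
      conv_lhs => rw [pi_eq_sum_univ' u]
      rw [map_sum]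
      refine Finset.sum_congr rfl fun x _ => ?_
      rw [map_smul, smul_eq_mul, mul_comm]
    rw [Submodule.ne_bot_iff]
    refine ⟨fun x => φ (Pi.single x 1), ?_, ?_⟩
    · intro u hu
      rw [← hrep]; exact hker hu
    · intro h0
      apply hφ
      refine LinearMap.ext fun u => ?_
      rw [hrep]
      simp only [LinearMap.zero_apply]
      refine Finset.sum_eq_zero fun x _ => ?_
      rw [congrFun h0 x]; simp
  have h1 := constants_le hcard A hA
  have h2 : (fun _ => 1 : Ω → K) ∈ A.toSubmodule := h1 (mem_permConstants.2 ⟨1, fun _ => rfl⟩)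
  intro u hu
  have h3 := h2 u hu
  rw [mem_permSumZero]
  simpa using h3

theorem endo_const {G : Type v} [Group G] [Finite G] {K : Type u} [Field K] {p f : ℕ} [Fact p.Prime] [CharP K p]
    {Ω : Type w} [Fintype Ω] [MulAction G Ω] [IsPretransitive G Ω] (hcard : Fintype.card Ω = p ^ f)
    (h : ∀ W W' : Subrepresentation (permRep K G Ω), (permConstants K G Ω).toSubmodule ≤ W.toSubmodule →
      W.toSubmodule < W'.toSubmodule → W'.toSubmodule ≤ (permSumZero K G Ω).toSubmodule →
      ∃ g : G, ∃ v ∈ W'.toSubmodule, permRep K G Ω g v - v ∉ W.toSubmodule)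
    (φ : (Ω → K) →ₗ[K] (Ω → K)) (hφ : ∀ g f, φ (permRep K G Ω g f) = permRep K G Ω g (φ f))
    (hS : ∀ f, ∑ x, φ f x = 0) : ∀ f, φ f ∈ (permConstants K G Ω).toSubmodule := by
  classical
  let W : Subrepresentation (permRep K G Ω) :=
    { toSubmodule := (permSumZero K G Ω).toSubmodule.map φ
      apply_mem_toSubmodule := by
        rintro g _ ⟨v, hv, rfl⟩
        exact ⟨permRep K G Ω g v, (permSumZero K G Ω).apply_mem_toSubmodule g hv, hφ g v⟩ }
  let W' : Subrepresentation (permRep K G Ω) :=
    { toSubmodule := LinearMap.range φ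
      apply_mem_toSubmodule := by
        rintro g _ ⟨v, rfl⟩
        exact ⟨permRep K G Ω g v, hφ g v⟩ }
  let U : Subrepresentation (permRep K G Ω) :=
    { toSubmodule := LinearMap.ker φ
      apply_mem_toSubmodule := by
        intro g v hv
        rw [LinearMap.mem_ker] at hv ⊢
        rw [hφ, hv, map_zero] }
  haveI hne : Nonempty Ω := by
    rw [← Fintype.card_pos_iff, hcard]; exact pow_pos (Fact.out : p.Prime).pos _
  obtain ⟨a⟩ := hne
  have hdiff : ∀ (g : G) (v : Ω → K), permRep K G Ω g v - v ∈ (permSumZero K G Ω).toSubmodule := by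
    intro g v
    rw [mem_permSumZero]
    simp only [Pi.sub_apply, Finset.sum_sub_distrib]
    rw [sub_eq_zero]
    exact Fintype.sum_equiv (MulAction.toPerm g⁻¹) _ _ (fun x => rfl)
  by_cases hW : W.toSubmodule = ⊥
  · intro f
    have h1 : ∀ v ∈ (permSumZero K G Ω).toSubmodule, φ v = 0 := by
      intro v hv
      have h2 : φ v ∈ W.toSubmodule := ⟨v, hv, rfl⟩
      rw [hW] at h2; exact h2
    rw [mem_permConstants]
    refine ⟨φ f a, fun x => ?_⟩
    obtain ⟨g, hg⟩ := exists_smul_eq G x a
    have h2 := h1 _ (hdiff g⁻¹ f)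
    rw [map_sub, hφ, sub_eq_zero] at h2
    have h3 := congrFun h2 x
    rw [permRep_apply, inv_inv, hg] at h3
    exact h3.symm
  · exfalso
    have h1 := constants_le hcard W hW
    have h2 : W.toSubmodule ≤ W'.toSubmodule := by
      rintro _ ⟨v, -, rfl⟩; exact ⟨v, rfl⟩
    rcases h2.lt_or_eq with h3 | h3
    · obtain ⟨g, v, ⟨w, rfl⟩, hv⟩ := h W W' h1 h3 (by rintro _ ⟨v, rfl⟩; exact hS v)
      apply hv
      refine ⟨permRep K G Ω g w - w, hdiff g w, ?_⟩
      rw [map_sub, hφ]
    · have h4 : U.toSubmodule = ⊤ := by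
        by_contra hU
        have h5 := le_sumZero hcard U hU
        have h6 : (Pi.single a 1 : Ω → K) ∈ (permSumZero K G Ω).toSubmodule := by
          have h7 : φ (Pi.single a 1) ∈ W.toSubmodule := by rw [h3]; exact ⟨_, rfl⟩
          obtain ⟨v, hv, hv2⟩ := h7
          have h8 : Pi.single a 1 - v ∈ (permSumZero K G Ω).toSubmodule := by
            apply h5
            change _ ∈ LinearMap.ker φ
            rw [LinearMap.mem_ker, map_sub, hv2, sub_self]
          have h9 := (permSumZero K G Ω).toSubmodule.add_mem h8 hv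
          rwa [sub_add_cancel] at h9
        rw [mem_permSumZero] at h6
        simp at h6
      apply hW
      rw [eq_bot_iff]
      rintro _ ⟨v, -, rfl⟩
      have h5 : v ∈ U.toSubmodule := by rw [h4]; trivial
      exact h5

theorem heart_two_trans {G : Type v} [Group G] [Finite G] {K : Type u} [Field K] {p f : ℕ} [Fact p.Prime] [CharP K p]
    {Ω : Type w} [Fintype Ω] [MulAction G Ω] [IsPretransitive G Ω] (hcard : Fintype.card Ω = p ^ f)
    (h : ∀ W W' : Subrepresentation (permRep K G Ω), (permConstants K G Ω).toSubmodule ≤ W.toSubmodule →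
      W.toSubmodule < W'.toSubmodule → W'.toSubmodule ≤ (permSumZero K G Ω).toSubmodule →
      ∃ g : G, ∃ v ∈ W'.toSubmodule, permRep K G Ω g v - v ∉ W.toSubmodule) :
    IsMultiplyPretransitive G Ω 2 := by
  classical
  have key : ∀ a b y : Ω, b ≠ a → y ≠ a → (a, y) ∈ orbit G (a, b) := by
    intro a b y hb hy
    let M : Ω → Ω → K := fun x z => if (x, z) ∈ orbit G (a, b) then 1 else 0
    have hM : ∀ (g : G) x z, M (g • x) (g • z) = M x z := by
      intro g x z
      have h1 : ((g • x, g • z) ∈ orbit G (a, b)) ↔ ((x, z) ∈ orbit G (a, b)) := by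
        change g • (x, z) ∈ orbit G (a, b) ↔ _
        refine ⟨fun h => ?_, fun h => mem_orbit_of_mem_orbit g h⟩
        have h2 := mem_orbit_of_mem_orbit g⁻¹ h
        rwa [inv_smul_smul] at h2
      simp only [M, h1]
    let s : K := ∑ z, M a z
    have hs : ∀ x, ∑ z, M x z = s := by
      intro x
      obtain ⟨g, hg⟩ := exists_smul_eq G a x
      rw [← hg]
      exact (Fintype.sum_equiv (MulAction.toPerm g) (fun z => M a z) (fun z => M (g • a) z) (fun z => (hM g a z).symm)).symm
    let φ : (Ω → K) →ₗ[K] (Ω → K) :=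
      { toFun := fun f z => ∑ x, f x * M x z - s * f z
        map_add' := by
          intro f g; funext z
          simp only [Pi.add_apply, add_mul, Finset.sum_add_distrib, mul_add]; ring
        map_smul' := by
          intro c f; funext z
          simp only [Pi.smul_apply, smul_eq_mul, RingHom.id_apply, mul_assoc, ← Finset.mul_sum, mul_sub]
          ring }
    have hφ : ∀ g f, φ (permRep K G Ω g f) = permRep K G Ω g (φ f) := by
      intro g f
      funext z
      change ∑ x, permRep K G Ω g f x * M x z - s * permRep K G Ω g f z = ∑ x, f x * M x (g⁻¹ • z) - s * f (g⁻¹ • z)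
      congr 1
      refine Fintype.sum_equiv (MulAction.toPerm g⁻¹) _ _ (fun x => ?_)
      change f (g⁻¹ • x) * M x z = f (g⁻¹ • x) * M (g⁻¹ • x) (g⁻¹ • z)
      rw [hM]
    have hS : ∀ f, ∑ x, φ f x = 0 := by
      intro f
      change ∑ z, (∑ x, f x * M x z - s * f z) = 0
      rw [Finset.sum_sub_distrib, Finset.sum_comm, ← Finset.mul_sum]
      simp only [← Finset.mul_sum, hs]
      rw [← Finset.sum_mul]; ring
    obtain ⟨c, hc⟩ := mem_permConstants.1 (endo_const hcard h φ hφ hS (Pi.single a 1))
    have hval : ∀ z, z ≠ a → φ (Pi.single a 1) z = M a z := by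
      intro z hz
      change ∑ x, (Pi.single a 1 : Ω → K) x * M x z - s * (Pi.single a 1 : Ω → K) z = M a z
      rw [Pi.single_eq_of_ne hz, mul_zero, sub_zero, Finset.sum_eq_single a]
      · simp
      · intro x _ hx; rw [Pi.single_eq_of_ne hx, zero_mul]
      · simp
    have h1 : M a b = 1 := by simp only [M]; rw [if_pos (mem_orbit_self _)]
    have h2 : M a y = 1 := by
      rw [← hval y hy, hc, ← hc b, hval b hb, h1]
    by_contra h3
    simp only [M] at h2
    rw [if_neg h3] at h2
    exact zero_ne_one h2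
  rw [is_two_pretransitive_iff]
  intro a b c d hab hcd
  obtain ⟨g, hg⟩ := exists_smul_eq G a c
  have h1 : g • b ≠ c := by
    rw [← hg]; intro h2; exact hab (smul_left_cancel g h2).symm
  obtain ⟨k, hk⟩ := key c (g • b) d h1 (Ne.symm hcd)
  have hk1 : k • c = c := congrArg Prod.fst hk
  have hk2 : k • (g • b) = d := congrArg Prod.snd hk
  refine ⟨k * g, ?_, ?_⟩
  · rw [mul_smul, hg, hk1]
  · rw [mul_smul, hk2]

/-- dimension of the space of equivariant maps -/
theorem finrank_linHom {G : Type v} [Group G] {K : Type u} [Field K] {Ω₁ : Type w} {Ω₂ : Type w'} [Fintype Ω₁] [Fintype Ω₂]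
    [MulAction G Ω₁] [MulAction G Ω₂] :
    Module.finrank K ((permRep K G Ω₁).linHom (permRep K G Ω₂)).invariants =
      Nat.card (orbitRel.Quotient G (Ω₁ × Ω₂)) := by
  classical
  have hinv : ∀ f : (Ω₁ → K) →ₗ[K] (Ω₂ → K), f ∈ ((permRep K G Ω₁).linHom (permRep K G Ω₂)).invariants ↔
      ∀ g v, f (permRep K G Ω₁ g v) = permRep K G Ω₂ g (f v) := by
    intro f
    rw [Representation.mem_invariants]
    constructor
    · intro h g v
      have h1 := congrArg (fun φ : (Ω₁ → K) →ₗ[K] (Ω₂ → K) => φ (permRep K G Ω₁ g v)) (h g)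
      change permRep K G Ω₂ g (f (permRep K G Ω₁ g⁻¹ (permRep K G Ω₁ g v))) = f (permRep K G Ω₁ g v) at h1
      rw [← h1]
      congr 2
      funext x
      rw [permRep_apply, permRep_apply, inv_inv, inv_smul_smul]
    · intro h g
      refine LinearMap.ext fun v => ?_
      change permRep K G Ω₂ g (f (permRep K G Ω₁ g⁻¹ v)) = f v
      rw [h]
      funext x
      rw [permRep_apply, permRep_apply, inv_inv, smul_inv_smul]
  let e : ((permRep K G Ω₁).linHom (permRep K G Ω₂)).invariants ≃ₗ[K] (orbitRel.Quotient G (Ω₁ × Ω₂) → K) :=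
    { toFun := fun f => Quotient.lift (s := orbitRel G (Ω₁ × Ω₂)) (fun q => f.1 (Pi.single q.1 1) q.2) (by
        rintro q q' ⟨g, rfl⟩
        change f.1 (Pi.single (g • q'.1) 1) (g • q'.2) = _
        rw [← permRep_single, (hinv f.1).1 f.2, permRep_apply, inv_smul_smul])
      map_add' := by
        intro f f'
        funext q
        induction q using Quotient.inductionOn with
        | _ q => rfl
      map_smul' := by
        intro c f
        funext q
        induction q using Quotient.inductionOn with
        | _ q => rfl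
      invFun := fun c => ⟨{
        toFun := fun v y => ∑ x, v x * c (Quotient.mk _ (x, y))
        map_add' := by
          intro v v'; funext y
          simp only [Pi.add_apply, add_mul, Finset.sum_add_distrib]
        map_smul' := by
          intro a v; funext y
          simp only [Pi.smul_apply, smul_eq_mul, RingHom.id_apply, mul_assoc, ← Finset.mul_sum] }, by
        rw [hinv]
        intro g v
        funext y
        change ∑ x, permRep K G Ω₁ g v x * c (Quotient.mk _ (x, y)) = ∑ x, v x * c (Quotient.mk _ (x, g⁻¹ • y))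
        refine Fintype.sum_equiv (MulAction.toPerm g⁻¹) _ _ (fun x => ?_)
        change v (g⁻¹ • x) * c (Quotient.mk _ (x, y)) = v (g⁻¹ • x) * c (Quotient.mk _ (g⁻¹ • x, g⁻¹ • y))
        congr 2
        apply Quotient.sound
        exact ⟨g, by change (g • g⁻¹ • x, g • g⁻¹ • y) = (x, y); rw [smul_inv_smul, smul_inv_smul]⟩⟩
      left_inv := by
        rintro ⟨f, hf⟩
        apply Subtype.ext
        refine LinearMap.ext fun v => ?_
        funext y
        change ∑ x, v x * f (Pi.single x 1) y = f v y
        conv_rhs => rw [pi_eq_sum_univ' v]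
        rw [map_sum, Finset.sum_apply]
        refine Finset.sum_congr rfl fun x _ => ?_
        rw [map_smul, Pi.smul_apply, smul_eq_mul]
      right_inv := by
        intro c
        funext q
        induction q using Quotient.inductionOn with
        | _ q =>
          change ∑ x, (Pi.single q.1 1 : Ω₁ → K) x * c (Quotient.mk _ (x, q.2)) = c (Quotient.mk _ q)
          rw [Finset.sum_eq_single q.1]
          · simp
          · intro x _ hx; rw [Pi.single_eq_of_ne hx, zero_mul]
          · simp }
  haveI : Fintype (orbitRel.Quotient G (Ω₁ × Ω₂)) := Fintype.ofFinite _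
  rw [e.finrank_eq, Module.finrank_fintype_fun_eq_card, Nat.card_eq_fintype_card]

end CfsgH2
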