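import Mathlib
import Cfsg.Agent.H4.Tools
import Cfsg.Agent.H2.PermRep2

/-! # Centraliser algebras and characters (helper2 library) -/

set_option autoImplicit false
open scoped ComplexConjugate

namespace CfsgH2

open Cfsg CfsgH4 Representation

universe u v w

section rep

variable {G : Type u} [Group G] [Fintype G] {V : Type v} [AddCommGroup V] [Module ℂ V] [FiniteDimensional ℂ V]

theorem inner_hom {W : Type w} [AddCommGroup W] [Module ℂ W] [FiniteDimensional ℂ W] (ρ : Representation ℂ G V)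
    (σ : Representation ℂ G W) :
    classInner ρ.character σ.character = (Module.finrank ℂ (IntertwiningMap σ ρ) : ℂ) := by
  haveI : Invertible (Nat.card G : ℂ) := invertibleOfNonzero (card_ne_zero G)
  rw [classInner_char_right (isCharacter_of_rep σ)]
  exact Representation.card_inv_mul_sum_char_mul_char_eq_finrank σ ρ

theorem exists_irr_inner (ρ : Representation ℂ G V) (h : 0 < Module.finrank ℂ V) :
    ∃ χ, IsIrrCharacter G χ ∧ classInner ρ.character χ ≠ 0 := by
  by_contra hc
  push Not at hc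
  have h1 := classFun_eq_zero (IsCharacter.isClassFunction (isCharacter_of_rep ρ)) hc
  have h2 := congrFun h1 1
  rw [Representation.char_one, Pi.zero_apply] at h2
  have h3 : Module.finrank ℂ V = 0 := by exact_mod_cast h2
  omega

theorem exists_hom (ρ : Representation ℂ G V) {χ : G → ℂ} (hχ : IsIrrCharacter G χ) (h : classInner ρ.character χ ≠ 0) :
    ∃ (n : ℕ) (σ : Representation ℂ G (Fin n → ℂ)) (f : IntertwiningMap σ ρ), σ.IsIrreducible ∧ σ.character = χ ∧ f ≠ 0 := by
  obtain ⟨n, σ, hσ, rfl⟩ := hχ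
  rw [inner_hom] at h
  by_cases hf : ∃ f : IntertwiningMap σ ρ, f ≠ 0
  · obtain ⟨f, hf⟩ := hf
    exact ⟨n, σ, f, hσ, rfl, hf⟩
  · exfalso
    push Not at hf
    apply h
    haveI : Subsingleton (IntertwiningMap σ ρ) := ⟨fun a b => by rw [hf a, hf b]⟩
    rw [Module.finrank_zero_of_subsingleton]; simp

theorem eq_zero_of_simple (ρ : Representation ℂ G V) (R : V →ₗ[ℂ] V) (hR : ∀ g v, R (ρ g v) = ρ g (R v))
    (h : ∀ (n : ℕ) (σ : Representation ℂ G (Fin n → ℂ)) (_ : σ.IsIrreducible) (f : IntertwiningMap σ ρ), ∀ w, R (f w) = 0) :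
    R = 0 := by
  haveI : NeZero (Nat.card G : ℂ) := ⟨by exact_mod_cast Nat.card_pos.ne'⟩
  let Q : Subrepresentation ρ :=
    { toSubmodule := LinearMap.ker R
      apply_mem_toSubmodule := by
        intro g v hv
        rw [LinearMap.mem_ker] at hv ⊢
        rw [hR, hv, map_zero] }
  obtain ⟨B, hB⟩ := exists_isCompl Q
  by_cases hB0 : B.toSubmodule = ⊥
  · have h1 : B = ⊥ := Subrepresentation.toSubmodule_injective hB0
    have h2 : Q = ⊤ := by have := hB.sup_eq_top; rwa [h1, sup_bot_eq] at this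
    refine LinearMap.ext fun v => ?_
    have h3 : v ∈ Q.toSubmodule := by rw [h2]; trivial
    exact h3
  · exfalso
    haveI : Nontrivial B.toSubmodule := (Submodule.nontrivial_iff_ne_bot).2 hB0
    obtain ⟨χ, hχ, hχ2⟩ := exists_irr_inner B.toRepresentation Module.finrank_pos
    obtain ⟨n, σ, f, hσ, -, hf⟩ := exists_hom _ hχ hχ2
    apply hf
    let f' : IntertwiningMap σ ρ := ⟨B.toSubmodule.subtype ∘ₗ f.toLinearMap, fun g => by
      refine LinearMap.ext fun w => ?_
      have h1 := congrArg (fun φ : (Fin n → ℂ) →ₗ[ℂ] B.toSubmodule => φ w) (f.isIntertwining' g)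
      change ((f (σ g w) : B.toSubmodule) : V) = ρ g ((f w : B.toSubmodule) : V)
      exact congrArg Subtype.val h1⟩
    apply IntertwiningMap.ext
    refine LinearMap.ext fun w => ?_
    have h1 := h n σ hσ f' w
    have h2 : ((f w : B.toSubmodule) : V) ∈ (Q ⊓ B).toSubmodule := ⟨h1, (f w).2⟩
    rw [hB.inf_eq_bot] at h2
    have h3 : ((f w : B.toSubmodule) : V) = 0 := h2
    exact Subtype.ext h3

/-- composing an intertwiner with a commuting operator -/
def compEnd {W : Type w} [AddCommGroup W] [Module ℂ W] {ρ : Representation ℂ G V} {σ : Representation ℂ G W} (R : V →ₗ[ℂ] V)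
    (hR : ∀ g v, R (ρ g v) = ρ g (R v)) (f : IntertwiningMap σ ρ) : IntertwiningMap σ ρ :=
  ⟨R ∘ₗ f.toLinearMap, fun g => by
    refine LinearMap.ext fun w => ?_
    change R (f (σ g w)) = ρ g (R (f w))
    rw [f.isIntertwining, hR]⟩

theorem compEnd_apply {W : Type w} [AddCommGroup W] [Module ℂ W] {ρ : Representation ℂ G V} {σ : Representation ℂ G W}
    (R : V →ₗ[ℂ] V) (hR : ∀ g v, R (ρ g v) = ρ g (R v)) (f : IntertwiningMap σ ρ) (w : W) :
    compEnd R hR f w = R (f w) := rfl

/-- if the multiplicity is one then a commuting operator acts as a scalar -/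
theorem scalar_of_mult_one {W : Type w} [AddCommGroup W] [Module ℂ W] [FiniteDimensional ℂ W] {ρ : Representation ℂ G V}
    {σ : Representation ℂ G W} (h1 : classInner ρ.character σ.character = 0 ∨ classInner ρ.character σ.character = 1)
    (f : IntertwiningMap σ ρ) (hf : f ≠ 0) (f' : IntertwiningMap σ ρ) : ∃ c : ℂ, f' = c • f := by
  rw [inner_hom] at h1
  rcases h1 with h1 | h1
  · exfalso
    have h2 : Module.finrank ℂ (IntertwiningMap σ ρ) = 0 := by exact_mod_cast h1
    haveI : FiniteDimensional ℂ (IntertwiningMap σ ρ) :=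
      FiniteDimensional.of_injective ({
        toFun := fun f => f.toLinearMap
        map_add' := fun _ _ => rfl
        map_smul' := fun _ _ => rfl } : IntertwiningMap σ ρ →ₗ[ℂ] (W →ₗ[ℂ] V)) (fun a b h => IntertwiningMap.ext h)
    rw [Module.finrank_zero_iff] at h2
    exact hf (Subsingleton.elim _ _)
  · have h2 : Module.finrank ℂ (IntertwiningMap σ ρ) = 1 := by exact_mod_cast h1
    obtain ⟨c, hc⟩ := (finrank_eq_one_iff_of_nonzero' f hf).1 h2 f'
    exact ⟨c, hc.symm⟩

theorem comm_of_multfree (ρ : Representation ℂ G V)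
    (h : ∀ χ : G → ℂ, IsIrrCharacter G χ → classInner ρ.character χ = 0 ∨ classInner ρ.character χ = 1)
    (S T : V →ₗ[ℂ] V) (hS : ∀ g v, S (ρ g v) = ρ g (S v)) (hT : ∀ g v, T (ρ g v) = ρ g (T v)) : S ∘ₗ T = T ∘ₗ S := by
  rw [← sub_eq_zero]
  apply eq_zero_of_simple ρ
  · intro g v
    simp only [LinearMap.sub_apply, LinearMap.comp_apply, hS, hT, map_sub]
  · intro n σ hσ f w
    by_cases hf : f = 0
    · rw [hf]
      change (S ∘ₗ T - T ∘ₗ S) 0 = 0
      rw [map_zero]
    · have hm := h σ.character (isIrrCharacter_of_rep σ hσ)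
      obtain ⟨s, hs⟩ := scalar_of_mult_one hm f hf (compEnd S hS f)
      obtain ⟨t, ht⟩ := scalar_of_mult_one hm f hf (compEnd T hT f)
      have hs' : ∀ w, S (f w) = s • f w := fun w => by
        have := congrArg (fun φ : IntertwiningMap σ ρ => φ w) hs; exact this
      have ht' : ∀ w, T (f w) = t • f w := fun w => by
        have := congrArg (fun φ : IntertwiningMap σ ρ => φ w) ht; exact this
      simp only [LinearMap.sub_apply, LinearMap.comp_apply]
      rw [ht', hs', map_smul, map_smul, ht', hs', smul_comm, sub_self]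

theorem exists_leftInv {W : Type w} [AddCommGroup W] [Module ℂ W] {ρ : Representation ℂ G V}
    {σ : Representation ℂ G W} (f : IntertwiningMap σ ρ) (hf : Function.Injective f) :
    ∃ g : IntertwiningMap ρ σ, ∀ w, g (f w) = w := by
  haveI : NeZero (Nat.card G : ℂ) := ⟨by exact_mod_cast Nat.card_pos.ne'⟩
  obtain ⟨g, hg⟩ := MonoidAlgebra.exists_leftInverse_of_injective (IntertwiningMap.equivLinearMapAsModule σ ρ f)
    (LinearMap.ker_eq_bot.2 hf)
  refine ⟨(IntertwiningMap.equivLinearMapAsModule ρ σ).symm g, fun w => ?_⟩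
  have h1 := congrArg (fun φ => φ w) hg
  exact h1

theorem multfree_of_comm (ρ : Representation ℂ G V)
    (h : ∀ S T : V →ₗ[ℂ] V, (∀ g v, S (ρ g v) = ρ g (S v)) → (∀ g v, T (ρ g v) = ρ g (T v)) → S ∘ₗ T = T ∘ₗ S)
    (χ : G → ℂ) (hχ : IsIrrCharacter G χ) : classInner ρ.character χ = 0 ∨ classInner ρ.character χ = 1 := by
  by_cases h0 : classInner ρ.character χ = 0
  · exact Or.inl h0
  · right
    obtain ⟨n, σ, f₁, hσ, rfl, hf₁⟩ := exists_hom ρ hχ h0
    haveI := hσ
    rw [inner_hom]
    have h1 : Module.finrank ℂ (IntertwiningMap σ ρ) = 1 := by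
      rw [finrank_eq_one_iff_of_nonzero' f₁ hf₁]
      intro f₂
      obtain ⟨g₁, hg₁⟩ := exists_leftInv f₁ ((IsIrreducible.injective_or_eq_zero f₁).resolve_right hf₁)
      have h2 := h (f₁.toLinearMap ∘ₗ g₁.toLinearMap) (f₂.toLinearMap ∘ₗ g₁.toLinearMap)
        (fun g v => by
          change f₁ (g₁ (ρ g v)) = ρ g (f₁ (g₁ v))
          rw [g₁.isIntertwining, f₁.isIntertwining])
        (fun g v => by
          change f₂ (g₁ (ρ g v)) = ρ g (f₂ (g₁ v))
          rw [g₁.isIntertwining, f₂.isIntertwining])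
      -- Schur
      have hid : (IntertwiningMap.id σ) ≠ 0 := by
        intro h3
        apply hf₁
        apply IntertwiningMap.ext
        refine LinearMap.ext fun w => ?_
        have h4 : w = 0 := congrArg (fun φ : IntertwiningMap σ σ => φ w) h3
        change f₁ w = 0
        rw [h4, map_zero]
      obtain ⟨c, hc⟩ := (finrank_eq_one_iff_of_nonzero' (IntertwiningMap.id σ) hid).1
        (IsIrreducible.finrank_intertwiningMap_self σ) (g₁.comp f₂)
      refine ⟨c, ?_⟩
      apply IntertwiningMap.ext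
      refine LinearMap.ext fun w => ?_
      change c • f₁ w = f₂ w
      have h3 := congrArg (fun φ : V →ₗ[ℂ] V => φ (f₁ w)) h2
      change f₁ (g₁ (f₂ (g₁ (f₁ w)))) = f₂ (g₁ (f₁ (g₁ (f₁ w)))) at h3
      rw [hg₁, hg₁] at h3
      rw [← h3]
      have h4 : c • w = g₁ (f₂ w) := congrArg (fun φ : IntertwiningMap σ σ => φ w) hc
      rw [← h4, map_smul]
    rw [h1]; simp

end rep

section perm

variable {G : Type u} [Group G] {Ω : Type v} [Fintype Ω] [MulAction G Ω]

theorem permRep_char (g : G) : (Cfsg.permRep ℂ G Ω).character g = (Nat.card (MulAction.fixedBy Ω g) : ℂ) := by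
  have h := CfsgH4.permRep_character (G := G) Ω g
  rw [← h]
  rfl

theorem permRep_char' : (Cfsg.permRep ℂ G Ω).character = (fun g : G => (Nat.card (MulAction.fixedBy Ω g) : ℂ)) :=
  funext permRep_char

theorem mem_inv_iff {K : Type*} [Field K] {Ω₁ : Type*} {Ω₂ : Type*} [MulAction G Ω₁] [MulAction G Ω₂]
    (f : (Ω₁ → K) →ₗ[K] (Ω₂ → K)) : f ∈ ((Cfsg.permRep K G Ω₁).linHom (Cfsg.permRep K G Ω₂)).invariants ↔
      ∀ g v, f (Cfsg.permRep K G Ω₁ g v) = Cfsg.permRep K G Ω₂ g (f v) := by
  rw [Representation.mem_invariants]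
  constructor
  · intro h g v
    have h1 := congrArg (fun φ : (Ω₁ → K) →ₗ[K] (Ω₂ → K) => φ (Cfsg.permRep K G Ω₁ g v)) (h g)
    change Cfsg.permRep K G Ω₂ g (f (Cfsg.permRep K G Ω₁ g⁻¹ (Cfsg.permRep K G Ω₁ g v))) = f (Cfsg.permRep K G Ω₁ g v) at h1
    rw [← h1]
    congr 2
    funext x
    rw [CfsgH2.permRep_apply, CfsgH2.permRep_apply, inv_inv, inv_smul_smul]
  · intro h g
    refine LinearMap.ext fun v => ?_
    change Cfsg.permRep K G Ω₂ g (f (Cfsg.permRep K G Ω₁ g⁻¹ v)) = f v
    rw [h]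
    funext x
    rw [CfsgH2.permRep_apply, CfsgH2.permRep_apply, inv_inv, smul_inv_smul]

end perm

end CfsgH2
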