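import Mathlib
import Cfsg.Agent.H2.PermChar
import Cfsg.Agent.H2.PermC

/-! # Self-paired suborbits, degrees and subdegrees (helper2 library) -/

set_option autoImplicit false
open scoped ComplexConjugate

namespace CfsgH2

open Cfsg CfsgH4 Representation MulAction

universe u v w

section mat

variable {G : Type u} [Group G] {Ω : Type v} [Fintype Ω] [DecidableEq Ω] [MulAction G Ω]

/-- operator attached to a matrix -/
noncomputable def matOp (M : Ω → Ω → ℂ) : (Ω → ℂ) →ₗ[ℂ] (Ω → ℂ) where
  toFun f y := ∑ x, f x * M x y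
  map_add' := by
    intro f g; funext z
    simp only [Pi.add_apply, add_mul, Finset.sum_add_distrib]
  map_smul' := by
    intro c f; funext z
    simp only [Pi.smul_apply, smul_eq_mul, RingHom.id_apply, mul_assoc, ← Finset.mul_sum]

theorem matOp_apply (M : Ω → Ω → ℂ) (f : Ω → ℂ) (y : Ω) : matOp M f y = ∑ x, f x * M x y := rfl

theorem matOp_single (M : Ω → Ω → ℂ) (x y : Ω) : matOp M (Pi.single x 1) y = M x y := by
  rw [matOp_apply, Finset.sum_eq_single x]
  · simp
  · intro z _ hz; rw [Pi.single_eq_of_ne hz, zero_mul]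
  · simp

theorem matOp_comm {M : Ω → Ω → ℂ} (hM : ∀ (g : G) x y, M (g • x) (g • y) = M x y) (g : G) (f : Ω → ℂ) :
    matOp M (Cfsg.permRep ℂ G Ω g f) = Cfsg.permRep ℂ G Ω g (matOp M f) := by
  funext z
  change ∑ x, f (g⁻¹ • x) * M x z = ∑ x, f x * M x (g⁻¹ • z)
  refine Fintype.sum_equiv (MulAction.toPerm g⁻¹) _ _ (fun x => ?_)
  change f (g⁻¹ • x) * M x z = f (g⁻¹ • x) * M (g⁻¹ • x) (g⁻¹ • z)
  rw [hM]

theorem lin_ext {S T : (Ω → ℂ) →ₗ[ℂ] (Ω → ℂ)} (h : ∀ x y, S (Pi.single x 1) y = T (Pi.single x 1) y) : S = T := by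
  refine LinearMap.ext fun v => ?_
  rw [pi_eq_sum_univ' v, map_sum, map_sum]
  refine Finset.sum_congr rfl fun x _ => ?_
  rw [map_smul, map_smul]
  congr 1
  funext y
  exact h x y

theorem eq_matOp (S : (Ω → ℂ) →ₗ[ℂ] (Ω → ℂ)) : S = matOp (fun x y => S (Pi.single x 1) y) :=
  lin_ext fun x y => (matOp_single (fun x y => S (Pi.single x 1) y) x y).symm

/-- matrix entries of commuting operators are constant on orbits of pairs -/
theorem entry_inv {S : (Ω → ℂ) →ₗ[ℂ] (Ω → ℂ)} (hS : ∀ g f, S (Cfsg.permRep ℂ G Ω g f) = Cfsg.permRep ℂ G Ω g (S f))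
    (g : G) (x y : Ω) : S (Pi.single (g • x) 1) (g • y) = S (Pi.single x 1) y := by
  rw [← CfsgH2.permRep_single, hS, CfsgH2.permRep_apply, inv_smul_smul]

/-- the operator of a function on the group -/
noncomputable def grpOp [Fintype G] (c : G → ℂ) : (Ω → ℂ) →ₗ[ℂ] (Ω → ℂ) := ∑ g, c g • Cfsg.permRep ℂ G Ω g

end mat

section fourier

variable {G : Type u} [Group G] [Fintype G] {V : Type v} [AddCommGroup V] [Module ℂ V] [FiniteDimensional ℂ V]

noncomputable def repOp (ρ : Representation ℂ G V) (c : G → ℂ) : V →ₗ[ℂ] V := ∑ g, c g • ρ g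

theorem repOp_apply (ρ : Representation ℂ G V) (c : G → ℂ) (v : V) : repOp ρ c v = ∑ g, c g • ρ g v := by
  simp [repOp, LinearMap.sum_apply]

theorem repOp_comm (ρ : Representation ℂ G V) {c : G → ℂ} (hc : ∀ g h, c (h * g * h⁻¹) = c g) (h : G) (v : V) :
    repOp ρ c (ρ h v) = ρ h (repOp ρ c v) := by
  rw [repOp_apply, repOp_apply, map_sum]
  refine Fintype.sum_equiv (MulAut.conj h⁻¹).toEquiv _ _ (fun g => ?_)
  change c g • ρ g (ρ h v) = ρ h (c (h⁻¹ * g * h⁻¹⁻¹) • ρ (h⁻¹ * g * h⁻¹⁻¹) v)
  rw [hc, map_smul]
  congr 1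
  change (ρ g * ρ h) v = (ρ h * ρ (h⁻¹ * g * h⁻¹⁻¹)) v
  rw [← map_mul, ← map_mul]
  congr 2
  group

/-- scalar by which a class function acts on an irreducible representation -/
theorem repOp_irr {W : Type w} [AddCommGroup W] [Module ℂ W] [FiniteDimensional ℂ W] (σ : Representation ℂ G W)
    (hσ : σ.IsIrreducible) {c : G → ℂ} (hc : ∀ g h, c (h * g * h⁻¹) = c g) :
    ∃ z : ℂ, (∀ w, repOp σ c w = z • w) ∧ z * σ.character 1 = ∑ g, c g * σ.character g := by
  haveI := hσ
  have hid : (IntertwiningMap.id σ) ≠ 0 := by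
    intro h3
    have h1 : IsIrrCharacter G σ.character := isIrrCharacter_of_rep σ hσ
    apply IsIrr.one_ne_zero h1
    rw [Representation.char_one]
    have h4 : ∀ w : W, w = 0 := fun w => congrArg (fun φ : IntertwiningMap σ σ => φ w) h3
    haveI : Subsingleton W := ⟨fun a b => by rw [h4 a, h4 b]⟩
    rw [Module.finrank_zero_of_subsingleton]; simp
  obtain ⟨z, hz⟩ := (finrank_eq_one_iff_of_nonzero' (IntertwiningMap.id σ) hid).1
    (IsIrreducible.finrank_intertwiningMap_self σ)
    (⟨repOp σ c, fun g => LinearMap.ext fun w => repOp_comm σ hc g w⟩ : IntertwiningMap σ σ)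
  have hz' : ∀ w, repOp σ c w = z • w := fun w => by
    have := congrArg (fun φ : IntertwiningMap σ σ => φ w) hz
    exact this.symm
  refine ⟨z, hz', ?_⟩
  have h1 : repOp σ c = z • LinearMap.id := LinearMap.ext fun w => hz' w
  have h2 := congrArg (LinearMap.trace ℂ W) h1
  rw [map_smul, smul_eq_mul, LinearMap.trace_id] at h2
  rw [Representation.char_one, ← h2, repOp, map_sum]
  refine Finset.sum_congr rfl fun g _ => ?_
  rw [map_smul, smul_eq_mul]; rfl

theorem repOp_hom {W : Type w} [AddCommGroup W] [Module ℂ W] {ρ : Representation ℂ G V} {σ : Representation ℂ G W}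
    [FiniteDimensional ℂ W] (f : IntertwiningMap σ ρ) (c : G → ℂ) (w : W) : repOp ρ c (f w) = f (repOp σ c w) := by
  rw [repOp_apply, repOp_apply, map_sum]
  refine Finset.sum_congr rfl fun g _ => ?_
  rw [map_smul, f.isIntertwining]

end fourier

section selfpaired

variable {G : Type u} [Group G] [Fintype G] {Ω : Type v} [Fintype Ω] [DecidableEq Ω] [MulAction G Ω]

/-- entries of `∑ c(g) ρ(g)` -/
theorem repOp_entry (c : G → ℂ) (x y : Ω) :
    repOp (Cfsg.permRep ℂ G Ω) c (Pi.single x 1) y = ∑ g, if g • x = y then c g else 0 := by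
  rw [repOp_apply, Finset.sum_apply]
  refine Finset.sum_congr rfl fun g _ => ?_
  rw [Pi.smul_apply, CfsgH2.permRep_single, smul_eq_mul]
  by_cases h : g • x = y
  · rw [if_pos h, h]; simp
  · rw [if_neg h, Pi.single_eq_of_ne (Ne.symm h), mul_zero]

theorem repOp_entry_inv (c : G → ℂ) (x y : Ω) :
    repOp (Cfsg.permRep ℂ G Ω) c (Pi.single x 1) y = repOp (Cfsg.permRep ℂ G Ω) (fun g => c g⁻¹) (Pi.single y 1) x := by
  rw [repOp_entry, repOp_entry]
  refine Fintype.sum_equiv (Equiv.inv G) _ _ (fun g => ?_)
  simp only [Equiv.inv_apply, inv_inv]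
  have h1 : g • x = y ↔ g⁻¹ • y = x := by
    constructor
    · intro h; rw [← h, inv_smul_smul]
    · intro h; rw [← h, smul_inv_smul]
  simp only [h1]

theorem self_paired_iff [IsPretransitive G Ω] :
    (∀ a b : Ω, ∃ g : G, g • a = b ∧ g • b = a) ↔
      ∀ χ : G → ℂ, IsIrrCharacter G χ → classInner (fun g : G => (Nat.card (MulAction.fixedBy Ω g) : ℂ)) χ ≠ 0 →
        classInner (fun g : G => (Nat.card (MulAction.fixedBy Ω g) : ℂ)) χ = 1 ∧ ∀ g : G, conj (χ g) = χ g := by
  rw [← permRep_char']
  constructor
  · intro h χ hχ h0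
    -- every commuting operator is symmetric
    have hsym : ∀ S : (Ω → ℂ) →ₗ[ℂ] (Ω → ℂ), (∀ g f, S (Cfsg.permRep ℂ G Ω g f) = Cfsg.permRep ℂ G Ω g (S f)) →
        ∀ x y, S (Pi.single x 1) y = S (Pi.single y 1) x := by
      intro S hS x y
      obtain ⟨g, hg1, hg2⟩ := h x y
      have h1 := entry_inv hS g x y
      rw [hg1, hg2] at h1
      exact h1.symm
    have hcomm : ∀ S T : (Ω → ℂ) →ₗ[ℂ] (Ω → ℂ), (∀ g f, S (Cfsg.permRep ℂ G Ω g f) = Cfsg.permRep ℂ G Ω g (S f)) →
        (∀ g f, T (Cfsg.permRep ℂ G Ω g f) = Cfsg.permRep ℂ G Ω g (T f)) → S ∘ₗ T = T ∘ₗ S := by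
      intro S T hS hT
      have hST : ∀ g f, (S ∘ₗ T) (Cfsg.permRep ℂ G Ω g f) = Cfsg.permRep ℂ G Ω g ((S ∘ₗ T) f) := by
        intro g f; simp only [LinearMap.comp_apply, hT, hS]
      apply lin_ext
      intro x y
      rw [hsym _ hST]
      simp only [LinearMap.comp_apply]
      have e1 : ∀ (A : (Ω → ℂ) →ₗ[ℂ] (Ω → ℂ)) (v : Ω → ℂ) z, A v z = ∑ w, v w * A (Pi.single w 1) z := by
        intro A v z
        conv_lhs => rw [eq_matOp A]
        rfl
      rw [e1 S, e1 T]
      refine Finset.sum_congr rfl fun w _ => ?_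
      rw [hsym T hT y w, hsym S hS w x, mul_comm]
    have h1 := multfree_of_comm (Cfsg.permRep ℂ G Ω) hcomm χ hχ
    refine ⟨h1.resolve_left h0, ?_⟩
    -- reality
    obtain ⟨n, σ, f, hσ, hσχ, hf⟩ := exists_hom _ hχ h0
    have hχc : ∀ g h, χ (h * g * h⁻¹) = χ g := (IsIrr.isClassFunction hχ)
    have hχc' : ∀ g h, (fun g => χ g⁻¹) (h * g * h⁻¹) = (fun g => χ g⁻¹) g := by
      intro g h
      simp only
      rw [show (h * g * h⁻¹)⁻¹ = h * g⁻¹ * h⁻¹ by group, hχc]
    have hEq : repOp (Cfsg.permRep ℂ G Ω) χ = repOp (Cfsg.permRep ℂ G Ω) (fun g => χ g⁻¹) := by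
      apply lin_ext
      intro x y
      rw [repOp_entry_inv]
      exact hsym _ (fun g v => repOp_comm _ hχc' g v) y x
    obtain ⟨z, hz, hz1⟩ := repOp_irr σ hσ hχc
    obtain ⟨z', hz', hz1'⟩ := repOp_irr (c := fun g => χ g⁻¹) σ hσ hχc'
    have hzz : z = z' := by
      by_contra hne
      apply hf
      apply IntertwiningMap.ext
      refine LinearMap.ext fun w => ?_
      have h2 := repOp_hom f χ w
      have h3 := repOp_hom f (fun g => χ g⁻¹) w
      rw [← hEq, h2, hz, hz', map_smul, map_smul] at h3
      have h4 : (z - z') • f w = 0 := by rw [sub_smul, h3, sub_self]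
      rcases smul_eq_zero.1 h4 with h5 | h5
      · exact absurd (sub_eq_zero.1 h5) hne
      · exact h5
    rw [hzz, hz1', hσχ] at hz1
    -- ∑ χ(g)χ(g) = ∑ χ(g⁻¹) χ(g)
    have hself := classInner_irr_self hχ
    rw [classInner_def] at hself
    have hne := card_ne_zero G
    have hconj : ∀ g, χ g⁻¹ = conj (χ g) := fun g => IsCharacter.inv_eq (IsIrr.isCharacter hχ) g
    have h5 : classInner χ (fun g => conj (χ g)) = 1 := by
      rw [classInner_def]
      have h6 : ∑ g, χ g * conj (conj (χ g)) = ∑ g, χ g * conj (χ g) := by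
        have h7 : ∑ g, χ g * χ g = ∑ g, χ g⁻¹ * χ g := hz1.symm
        simp only [Complex.conj_conj]
        rw [h7]
        exact Finset.sum_congr rfl fun g _ => by rw [hconj, mul_comm]
      rw [h6, hself]
    have hχ' : IsIrrCharacter G (fun g => conj (χ g)) := isIrrCharacter_conj hχ
    intro g
    by_contra hg
    have h6 : χ ≠ (fun g => conj (χ g)) := fun h7 => hg (congrFun h7 g).symm
    rw [classInner_irr_ne hχ hχ' h6] at h5
    exact zero_ne_one h5
  · intro h
    -- every commuting operator is symmetric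
    have hmf : ∀ χ : G → ℂ, IsIrrCharacter G χ → classInner (Cfsg.permRep ℂ G Ω).character χ = 0 ∨
        classInner (Cfsg.permRep ℂ G Ω).character χ = 1 := by
      intro χ hχ
      by_cases h0 : classInner (Cfsg.permRep ℂ G Ω).character χ = 0
      · exact Or.inl h0
      · exact Or.inr (h χ hχ h0).1
    have hsym : ∀ S : (Ω → ℂ) →ₗ[ℂ] (Ω → ℂ), (∀ g f, S (Cfsg.permRep ℂ G Ω g f) = Cfsg.permRep ℂ G Ω g (S f)) →
        ∀ x y, S (Pi.single x 1) y = S (Pi.single y 1) x := by
      intro S hS
      -- scalar on each constituent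
      have hsc : ∀ χ : IrrCharacter G, ∃ s : ℂ, ∀ (n : ℕ) (σ : Representation ℂ G (Fin n → ℂ)) (_ : σ.IsIrreducible)
          (f : IntertwiningMap σ (Cfsg.permRep ℂ G Ω)), σ.character = χ → ∀ w, S (f w) = s • f w := by
        intro χ
        by_cases h0 : classInner (Cfsg.permRep ℂ G Ω).character (χ : G → ℂ) = 0
        · refine ⟨0, fun n σ hσ f hf w => ?_⟩
          have hf0 : f = 0 := by
            by_contra hne
            rw [← hf, inner_hom] at h0
            have h2 : Module.finrank ℂ (IntertwiningMap σ (Cfsg.permRep ℂ G Ω)) = 0 := by exact_mod_cast h0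
            obtain ⟨c, hc⟩ := scalar_of_mult_one (W := Fin n → ℂ) (ρ := Cfsg.permRep ℂ G Ω) (σ := σ)
              (Or.inl (by rw [inner_hom, h2]; simp)) f hne f
            haveI : FiniteDimensional ℂ (IntertwiningMap σ (Cfsg.permRep ℂ G Ω)) :=
              FiniteDimensional.of_injective ({
                toFun := fun f => f.toLinearMap
                map_add' := fun _ _ => rfl
                map_smul' := fun _ _ => rfl } : IntertwiningMap σ (Cfsg.permRep ℂ G Ω) →ₗ[ℂ] ((Fin n → ℂ) →ₗ[ℂ] (Ω → ℂ)))
                (fun a b h => IntertwiningMap.ext h)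
            rw [Module.finrank_zero_iff] at h2
            exact hne (Subsingleton.elim _ _)
          rw [hf0]
          change S 0 = (0 : ℂ) • (0 : Ω → ℂ)
          rw [map_zero, zero_smul]
        · obtain ⟨n, σ, f, hσ, hσχ, hf⟩ := exists_hom _ χ.2 h0
          obtain ⟨s, hs⟩ := scalar_of_mult_one (by rw [hσχ]; exact hmf χ χ.2) f hf (compEnd S hS f)
          have hs' : ∀ w, S (f w) = s • f w := fun w => by
            have := congrArg (fun φ : IntertwiningMap σ (Cfsg.permRep ℂ G Ω) => φ w) hs; exact this
          refine ⟨s, fun m τ hτ k hk w => ?_⟩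
          -- τ ≅ σ
          have h3 : classInner σ.character τ.character = 1 := by
            rw [hk, hσχ]; exact classInner_irr_self χ.2
          rw [inner_hom] at h3
          have h4 : ∃ e : IntertwiningMap τ σ, e ≠ 0 := by
            by_contra hc
            push Not at hc
            haveI : Subsingleton (IntertwiningMap τ σ) := ⟨fun a b => by rw [hc a, hc b]⟩
            rw [Module.finrank_zero_of_subsingleton] at h3
            simp at h3
          obtain ⟨e, he⟩ := h4
          haveI := hτ
          haveI := hσ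
          have hfe : f.comp e ≠ 0 := by
            intro h5
            apply he
            apply IntertwiningMap.ext
            refine LinearMap.ext fun w => ?_
            have h6 : f (e w) = 0 := congrArg (fun φ : IntertwiningMap τ (Cfsg.permRep ℂ G Ω) => φ w) h5
            have h7 := (IsIrreducible.injective_or_eq_zero f).resolve_right hf
            exact h7 (by change f (e w) = f 0; rw [h6, map_zero])
          obtain ⟨c, hc⟩ := scalar_of_mult_one (by rw [hk]; exact hmf χ χ.2) (f.comp e) hfe k
          have hc' : k w = c • f (e w) := congrArg (fun φ : IntertwiningMap τ (Cfsg.permRep ℂ G Ω) => φ w) hc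
          rw [hc', map_smul, hs', smul_comm]
      choose s hs using hsc
      -- S = ∑ coefficients times Fourier operators
      let F : (Ω → ℂ) →ₗ[ℂ] (Ω → ℂ) := ∑ χ : IrrCharacter G,
        if classInner (Cfsg.permRep ℂ G Ω).character (χ : G → ℂ) = 0 then 0 else
          (s χ * (χ : G → ℂ) 1 / (Nat.card G : ℂ)) • repOp (Cfsg.permRep ℂ G Ω) (fun g => (χ : G → ℂ) g⁻¹)
      have hne := card_ne_zero G
      have hcl : ∀ χ : IrrCharacter G, ∀ g h, (fun g => (χ : G → ℂ) g⁻¹) (h * g * h⁻¹) = (fun g => (χ : G → ℂ) g⁻¹) g := by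
        intro χ g h
        simp only
        rw [show (h * g * h⁻¹)⁻¹ = h * g⁻¹ * h⁻¹ by group]
        exact (IsIrr.isClassFunction χ.2) _ _
      have hFc : ∀ g f, F (Cfsg.permRep ℂ G Ω g f) = Cfsg.permRep ℂ G Ω g (F f) := by
        intro g f
        simp only [F, LinearMap.sum_apply, map_sum]
        refine Finset.sum_congr rfl fun χ _ => ?_
        split_ifs with h0
        · simp
        · rw [LinearMap.smul_apply, LinearMap.smul_apply, map_smul, repOp_comm _ (hcl χ)]
      have hSF : S - F = 0 := by
        apply eq_zero_of_simple (Cfsg.permRep ℂ G Ω)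
        · intro g v
          rw [LinearMap.sub_apply, LinearMap.sub_apply, hS, hFc, map_sub]
        · intro n σ hσ f w
          have hσi := isIrrCharacter_of_rep σ hσ
          rw [LinearMap.sub_apply, hs ⟨σ.character, hσi⟩ n σ hσ f rfl w, sub_eq_zero]
          simp only [F, LinearMap.sum_apply]
          by_cases hf0 : f = 0
          · rw [hf0]
            change _ • (0 : Ω → ℂ) = _
            rw [smul_zero]
            symm
            apply Finset.sum_eq_zero
            intro χ _
            exact map_zero _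
          · have h0 : classInner (Cfsg.permRep ℂ G Ω).character σ.character ≠ 0 := by
              intro h1
              obtain h2 := scalar_of_mult_one (Or.inl h1) f hf0 f
              rw [inner_hom] at h1
              have h2 : Module.finrank ℂ (IntertwiningMap σ (Cfsg.permRep ℂ G Ω)) = 0 := by exact_mod_cast h1
              haveI : FiniteDimensional ℂ (IntertwiningMap σ (Cfsg.permRep ℂ G Ω)) :=
                FiniteDimensional.of_injective ({
                  toFun := fun f => f.toLinearMap
                  map_add' := fun _ _ => rfl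
                  map_smul' := fun _ _ => rfl } : IntertwiningMap σ (Cfsg.permRep ℂ G Ω) →ₗ[ℂ] ((Fin n → ℂ) →ₗ[ℂ] (Ω → ℂ)))
                  (fun a b h => IntertwiningMap.ext h)
              rw [Module.finrank_zero_iff] at h2
              exact hf0 (Subsingleton.elim _ _)
            rw [Finset.sum_eq_single ⟨σ.character, hσi⟩]
            · simp only
              rw [if_neg h0, LinearMap.smul_apply, repOp_hom]
              obtain ⟨z, hz, hz1⟩ := repOp_irr (c := fun g => σ.character g⁻¹) σ hσ (hcl ⟨σ.character, hσi⟩)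
              rw [hz, map_smul, smul_smul]
              congr 1
              have h5 : z * σ.character 1 = Nat.card G := by
                rw [hz1]
                have h6 := classInner_irr_self hσi
                rw [classInner_def] at h6
                have h7 : ∑ g, σ.character g⁻¹ * σ.character g = ∑ g, σ.character g * conj (σ.character g) := by
                  refine Finset.sum_congr rfl fun g _ => ?_
                  rw [IsCharacter.inv_eq (IsIrr.isCharacter hσi) g, mul_comm]
                change ∑ g, σ.character g⁻¹ * σ.character g = _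
                rw [h7]
                field_simp at h6
                exact h6
              have h8 : s ⟨σ.character, hσi⟩ * σ.character 1 / (Nat.card G : ℂ) * z =
                s ⟨σ.character, hσi⟩ * (z * σ.character 1) / (Nat.card G : ℂ) := by ring
              rw [h8, h5]
              field_simp
            · intro χ _ hχne
              split_ifs with h1
              · rfl
              · rw [LinearMap.smul_apply, repOp_hom]
                obtain ⟨z, hz, hz1⟩ := repOp_irr (c := fun g => (χ : G → ℂ) g⁻¹) σ hσ (hcl χ)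
                have hσ1 := IsIrr.one_ne_zero hσi
                have h5 : z = 0 := by
                  have h6 : ∑ g, (χ : G → ℂ) g⁻¹ * σ.character g = 0 := by
                    have h7 := classInner_irr_ne hσi χ.2 (fun h8 => hχne (Subtype.ext h8.symm))
                    rw [classInner_def] at h7
                    have h8 : ∑ g, (χ : G → ℂ) g⁻¹ * σ.character g = ∑ g, σ.character g * conj ((χ : G → ℂ) g) := by
                      refine Finset.sum_congr rfl fun g _ => ?_
                      rw [IsCharacter.inv_eq (IsIrr.isCharacter χ.2) g, mul_comm]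
                    rw [h8]
                    exact (mul_eq_zero.1 h7).resolve_left (inv_ne_zero hne)
                  have h9 : z * σ.character 1 = 0 := by rw [hz1]; exact h6
                  exact (mul_eq_zero.1 h9).resolve_right hσ1
                rw [hz, h5, zero_smul, map_zero, smul_zero]
            · intro hh; exact absurd (Finset.mem_univ _) hh
      rw [sub_eq_zero] at hSF
      intro x y
      rw [hSF]
      simp only [F, LinearMap.sum_apply, Finset.sum_apply]
      refine Finset.sum_congr rfl fun χ _ => ?_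
      split_ifs with h0
      · rfl
      · rw [LinearMap.smul_apply, LinearMap.smul_apply, Pi.smul_apply, Pi.smul_apply]
        congr 1
        rw [repOp_entry_inv]
        have h1 : ∀ g, (χ : G → ℂ) g⁻¹ = (χ : G → ℂ) g := by
          intro g
          rw [IsCharacter.inv_eq (IsIrr.isCharacter χ.2) g]
          exact (h χ χ.2 h0).2 g
        have h2 : (fun g : G => (χ : G → ℂ) g⁻¹⁻¹) = (fun g => (χ : G → ℂ) g⁻¹) := funext fun g => h1 g⁻¹
        change repOp (Cfsg.permRep ℂ G Ω) (fun g : G => (χ : G → ℂ) g⁻¹⁻¹) (Pi.single y 1) x = _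
        rw [h2]
    intro a b
    classical
    let M : Ω → Ω → ℂ := fun x z => if (x, z) ∈ orbit G (a, b) then 1 else 0
    have hM : ∀ (g : G) x z, M (g • x) (g • z) = M x z := by
      intro g x z
      have h1 : ((g • x, g • z) ∈ orbit G (a, b)) ↔ ((x, z) ∈ orbit G (a, b)) := by
        change g • (x, z) ∈ orbit G (a, b) ↔ _
        refine ⟨fun h => ?_, fun h => mem_orbit_of_mem_orbit g h⟩
        have h2 := mem_orbit_of_mem_orbit g⁻¹ h
        rwa [inv_smul_smul] at h2
      simp only [M, h1]
    have h1 := hsym (matOp M) (matOp_comm hM) a b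
    rw [matOp_single, matOp_single] at h1
    have h2 : M a b = 1 := by simp only [M]; rw [if_pos (mem_orbit_self _)]
    rw [h2] at h1
    by_cases h3 : (b, a) ∈ orbit G (a, b)
    · obtain ⟨g, hg⟩ := h3
      exact ⟨g, congrArg Prod.fst hg, congrArg Prod.snd hg⟩
    · exfalso
      simp only [M] at h1
      rw [if_neg h3] at h1
      exact one_ne_zero h1

end selfpaired

end CfsgH2
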