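import Mathlib
import Cfsg.Agent.H2.PermChar2

/-! # Degrees of constituents and subdegrees (helper2 library) -/

set_option autoImplicit false
open scoped ComplexConjugate

namespace CfsgH2

open Cfsg CfsgH4 Representation MulAction

universe u v w

theorem dvd_finrank {G : Type u} [Group G] [Fintype G] {V : Type v} [AddCommGroup V] [Module ℂ V] [FiniteDimensional ℂ V]
    (ρ : Representation ℂ G V) (f : ℕ)
    (hf : ∀ χ, IsIrrCharacter G χ → classInner ρ.character χ ≠ 0 → ∃ m : ℕ, χ 1 = (f : ℂ) * m) :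
    f ∣ Module.finrank ℂ V := by
  have hch := isCharacter_of_rep ρ
  have h1 := classFun_expand_apply (IsCharacter.isClassFunction hch) 1
  rw [Representation.char_one] at h1
  have h2 : ∀ χ : IrrCharacter G, ∃ k : ℕ, classInner ρ.character (χ : G → ℂ) * (χ : G → ℂ) 1 = (f : ℂ) * k := by
    intro χ
    by_cases h0 : classInner ρ.character (χ : G → ℂ) = 0
    · exact ⟨0, by rw [h0]; simp⟩
    · obtain ⟨m, hm⟩ := hf χ χ.2 h0
      obtain ⟨j, hj⟩ := IsCharacter.inner_irr_nat hch χ.2
      exact ⟨j * m, by rw [hj, hm]; push_cast; ring⟩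
  choose k hk using h2
  refine ⟨∑ χ, k χ, ?_⟩
  have h3 : (Module.finrank ℂ V : ℂ) = ((f * ∑ χ, k χ : ℕ) : ℂ) := by
    rw [h1]
    push_cast
    rw [Finset.mul_sum]
    exact Finset.sum_congr rfl fun χ _ => hk χ
  exact_mod_cast h3

section main

variable {G : Type u} [Group G] [Fintype G] {Ω : Type v} [Fintype Ω] [DecidableEq Ω] [MulAction G Ω]

theorem const_of_inv [IsPretransitive G Ω] {v : Ω → ℂ} (h : ∀ g, Cfsg.permRep ℂ G Ω g v = v) (x y : Ω) : v x = v y := by
  obtain ⟨g, hg⟩ := exists_smul_eq G x y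
  have h1 := congrFun (h g⁻¹) x
  rw [CfsgH2.permRep_apply, inv_inv, hg] at h1
  exact h1.symm

theorem dvd_finrank_sub [IsPretransitive G Ω] (f : ℕ)
    (hf : ∀ χ : G → ℂ, IsIrrCharacter G χ → χ ≠ (fun _ => 1) → classInner (Cfsg.permRep ℂ G Ω).character χ ≠ 0 →
      ∃ m : ℕ, χ 1 = (f : ℂ) * m)
    (U : Subrepresentation (Cfsg.permRep ℂ G Ω)) (hU : ∀ v ∈ U.toSubmodule, ∑ x, v x = 0) :
    f ∣ Module.finrank ℂ U.toSubmodule := by
  apply dvd_finrank U.toRepresentation
  intro χ hχ h0
  apply hf χ hχ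
  · rintro rfl
    haveI : Invertible (Nat.card G : ℂ) := invertibleOfNonzero (card_ne_zero G)
    have h1 := Representation.card_inv_mul_sum_char_eq_finrank U.toRepresentation
    have h2 : classInner U.toRepresentation.character (fun _ => (1 : ℂ)) =
        (Nat.card G : ℂ)⁻¹ * ∑ g : G, U.toRepresentation.character g := by
      rw [classInner_def]; simp
    rw [h2, h1] at h0
    have h3 : ∃ v : U.toSubmodule, v ∈ invariants U.toRepresentation ∧ v ≠ 0 := by
      by_contra hc
      push Not at hc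
      apply h0
      have h4 : invariants U.toRepresentation = ⊥ := by
        rw [eq_bot_iff]; intro v hv; exact hc v hv
      rw [h4, finrank_bot]; simp
    obtain ⟨v, hv, hv0⟩ := h3
    rw [Representation.mem_invariants] at hv
    have h4 : ∀ g, Cfsg.permRep ℂ G Ω g (v : Ω → ℂ) = v := fun g => congrArg Subtype.val (hv g)
    have h5 := hU v v.2
    apply hv0
    apply Subtype.ext
    funext x
    have h6 : ∑ y, (v : Ω → ℂ) y = (Fintype.card Ω : ℂ) * (v : Ω → ℂ) x := by
      rw [Finset.sum_congr rfl (fun y _ => const_of_inv h4 y x), Finset.sum_const, nsmul_eq_mul, Finset.card_univ]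
    rw [h6] at h5
    rcases mul_eq_zero.1 h5 with h7 | h7
    · exfalso
      have h8 : Fintype.card Ω = 0 := by exact_mod_cast h7
      rw [Fintype.card_eq_zero_iff] at h8
      exact h8.false x
    · exact h7
  · obtain ⟨n, σ, k, hσ, rfl, hk⟩ := exists_hom _ hχ h0
    intro h1
    let k' : IntertwiningMap σ (Cfsg.permRep ℂ G Ω) := ⟨U.toSubmodule.subtype ∘ₗ k.toLinearMap, fun g => by
      refine LinearMap.ext fun w => ?_
      have h1 := congrArg (fun φ : (Fin n → ℂ) →ₗ[ℂ] U.toSubmodule => φ w) (k.isIntertwining' g)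
      change ((k (σ g w) : U.toSubmodule) : Ω → ℂ) = Cfsg.permRep ℂ G Ω g ((k w : U.toSubmodule) : Ω → ℂ)
      exact congrArg Subtype.val h1⟩
    have hk' : k' ≠ 0 := by
      intro h2
      apply hk
      apply IntertwiningMap.ext
      refine LinearMap.ext fun w => ?_
      apply Subtype.ext
      exact congrArg (fun φ : IntertwiningMap σ (Cfsg.permRep ℂ G Ω) => φ w) h2
    rw [inner_hom] at h1
    have h2 : Module.finrank ℂ (IntertwiningMap σ (Cfsg.permRep ℂ G Ω)) = 0 := by exact_mod_cast h1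
    haveI : FiniteDimensional ℂ (IntertwiningMap σ (Cfsg.permRep ℂ G Ω)) :=
      FiniteDimensional.of_injective ({
        toFun := fun f => f.toLinearMap
        map_add' := fun _ _ => rfl
        map_smul' := fun _ _ => rfl } : IntertwiningMap σ (Cfsg.permRep ℂ G Ω) →ₗ[ℂ] ((Fin n → ℂ) →ₗ[ℂ] (Ω → ℂ)))
        (fun a b h => IntertwiningMap.ext h)
    rw [Module.finrank_zero_iff] at h2
    exact hk' (Subsingleton.elim _ _)

theorem trace_div [IsPretransitive G Ω] (f : ℕ)
    (hf : ∀ χ : G → ℂ, IsIrrCharacter G χ → χ ≠ (fun _ => 1) → classInner (Cfsg.permRep ℂ G Ω).character χ ≠ 0 →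
      ∃ m : ℕ, χ 1 = (f : ℂ) * m)
    (E : (Ω → ℂ) →ₗ[ℂ] (Ω → ℂ)) (hE : ∀ g v, E (Cfsg.permRep ℂ G Ω g v) = Cfsg.permRep ℂ G Ω g (E v))
    (hsum : ∀ v, ∑ x, E v x = 0) (hint : ∀ (μ : ℂ) (v : Ω → ℂ), μ ≠ 0 → v ≠ 0 → E v = μ • v → IsIntegral ℤ μ) :
    ∃ z : ℂ, IsIntegral ℤ z ∧ LinearMap.trace ℂ _ E = (f : ℂ) * z := by
  have h1 : LinearMap.trace ℂ _ E = (LinearMap.charpoly E).roots.sum :=
    Module.End.trace_eq_sum_roots_charpoly_of_splits (IsAlgClosed.splits _)
  have h2 : ∀ μ ∈ (LinearMap.charpoly E).roots.toFinset, ∃ z : ℂ, IsIntegral ℤ z ∧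
      (LinearMap.charpoly E).roots.count μ • μ = (f : ℂ) * z := by
    intro μ hμ
    by_cases h0 : μ = 0
    · exact ⟨0, isIntegral_zero, by rw [h0]; simp⟩
    · rw [Multiset.mem_toFinset, Polynomial.mem_roots (LinearMap.charpoly_monic E).ne_zero] at hμ
      have h3 : Module.End.HasEigenvalue E μ := by
        rw [Module.End.hasEigenvalue_iff_isRoot_charpoly]; exact hμ
      obtain ⟨v, hv⟩ := h3.exists_hasEigenvector
      have h4 := hint μ v h0 hv.2 hv.apply_eq_smul
      let U : Subrepresentation (Cfsg.permRep ℂ G Ω) :=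
        { toSubmodule := Module.End.maxGenEigenspace E μ
          apply_mem_toSubmodule := by
            intro g w hw
            exact Module.End.mapsTo_maxGenEigenspace_of_comm (f := E) (g := Cfsg.permRep ℂ G Ω g)
              (LinearMap.ext fun v => hE g v) μ hw }
      have h5 : f ∣ Module.finrank ℂ U.toSubmodule := by
        apply dvd_finrank_sub f hf
        intro w hw
        rw [show U.toSubmodule = Module.End.maxGenEigenspace E μ from rfl, Module.End.mem_maxGenEigenspace] at hw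
        obtain ⟨k, hk⟩ := hw
        have h6 : ∀ (k : ℕ) (w : Ω → ℂ), ∑ x, ((E - μ • (1 : Module.End ℂ (Ω → ℂ))) ^ k) w x = (-μ) ^ k * ∑ x, w x := by
          intro k
          induction k with
          | zero => intro w; simp
          | succ k ih =>
            intro w
            rw [pow_succ, Module.End.mul_apply, ih]
            have h7 : ∑ x, (E - μ • (1 : Module.End ℂ (Ω → ℂ))) w x = -μ * ∑ x, w x := by
              have h8 : ∀ x, (E - μ • (1 : Module.End ℂ (Ω → ℂ))) w x = E w x - μ * w x := fun x => rfl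
              rw [Finset.sum_congr rfl (fun x _ => h8 x), Finset.sum_sub_distrib, hsum, ← Finset.mul_sum]; ring
            rw [h7]; ring
        have h7 := h6 k w
        rw [hk] at h7
        have h8 : (-μ) ^ k * ∑ x, w x = 0 := by rw [← h7]; simp
        exact (mul_eq_zero.1 h8).resolve_left (pow_ne_zero _ (neg_ne_zero.2 h0))
      have h6 : Module.finrank ℂ U.toSubmodule = (LinearMap.charpoly E).rootMultiplicity μ :=
        LinearMap.finrank_maxGenEigenspace_eq E μ
      rw [h6] at h5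
      obtain ⟨m, hm⟩ := h5
      refine ⟨m * μ, (isIntegral_natCast m).mul h4, ?_⟩
      rw [Polynomial.count_roots, hm, nsmul_eq_mul]
      push_cast; ring
  choose! z hz using h2
  refine ⟨∑ μ ∈ (LinearMap.charpoly E).roots.toFinset, z μ, IsIntegral.sum _ (fun μ hμ => (hz μ hμ).1), ?_⟩
  rw [h1, Finset.sum_multiset_count, Finset.mul_sum]
  exact Finset.sum_congr rfl fun μ hμ => (hz μ hμ).2

theorem matOp_trace (M : Ω → Ω → ℂ) : LinearMap.trace ℂ _ (matOp M) = ∑ x, M x x := by
  rw [LinearMap.trace_eq_matrix_trace ℂ (Pi.basisFun ℂ Ω)]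
  simp only [Matrix.trace, Matrix.diag, LinearMap.toMatrix_apply, Pi.basisFun_apply, Pi.basisFun_repr]
  refine Finset.sum_congr rfl fun x _ => ?_
  exact matOp_single M x x

/-- eigenvalues of integer matrices -/
theorem matOp_eig (N : Ω → Ω → ℤ) (μ : ℂ) (v : Ω → ℂ) (hv : v ≠ 0) (h : matOp (fun x y => (N x y : ℂ)) v = μ • v) :
    IsIntegral ℤ μ := by
  let N' : Matrix Ω Ω ℤ := Matrix.of (fun y x => N x y)
  have h1 : (N'.map (Int.castRingHom ℂ)).mulVec v = μ • v := by
    rw [← h]
    funext y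
    rw [matOp_apply, Matrix.mulVec, dotProduct]
    refine Finset.sum_congr rfl fun x _ => ?_
    simp [N', mul_comm]
  have h2 : (N'.map (Int.castRingHom ℂ)).charpoly.IsRoot μ := by
    rw [Polynomial.IsRoot, Matrix.eval_charpoly, ← Matrix.exists_mulVec_eq_zero_iff]
    refine ⟨v, hv, ?_⟩
    rw [Matrix.sub_mulVec, h1, Matrix.scalar_apply, ← Matrix.smul_one_eq_diagonal, Matrix.smul_mulVec, Matrix.one_mulVec, sub_self]
  refine ⟨N'.charpoly, N'.charpoly_monic, ?_⟩
  rw [Matrix.charpoly_map] at h2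
  rw [← Polynomial.eval_map]
  exact h2

theorem subdegree_dvd [IsPretransitive G Ω] (f : ℕ)
    (hf : ∀ χ : G → ℂ, IsIrrCharacter G χ → χ ≠ (fun _ => 1) → classInner (Cfsg.permRep ℂ G Ω).character χ ≠ 0 →
      ∃ m : ℕ, χ 1 = (f : ℂ) * m)
    (a b : Ω) (hab : b ≠ a) : f ∣ Nat.card (orbit (stabilizer G a) b) := by
  classical
  let N : Ω → Ω → ℤ := fun x z => if (x, z) ∈ orbit G (a, b) then 1 else 0
  let M : Ω → Ω → ℂ := fun x z => (N x z : ℂ)
  have hN : ∀ (g : G) x z, N (g • x) (g • z) = N x z := by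
    intro g x z
    have h1 : ((g • x, g • z) ∈ orbit G (a, b)) ↔ ((x, z) ∈ orbit G (a, b)) := by
      change g • (x, z) ∈ orbit G (a, b) ↔ _
      refine ⟨fun h => ?_, fun h => mem_orbit_of_mem_orbit g h⟩
      have h2 := mem_orbit_of_mem_orbit g⁻¹ h
      rwa [inv_smul_smul] at h2
    simp only [N, h1]
  obtain ⟨s, hs⟩ : ∃ s, s = Nat.card (orbit (stabilizer G a) b) := ⟨_, rfl⟩
  have hsa : ∑ z, M a z = (s : ℂ) := by
    have h1 : ∀ z, M a z = if z ∈ orbit (stabilizer G a) b then 1 else 0 := by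
      intro z
      have h2 : (a, z) ∈ orbit G (a, b) ↔ z ∈ orbit (stabilizer G a) b := by
        constructor
        · rintro ⟨g, hg⟩
          exact ⟨⟨g, congrArg Prod.fst hg⟩, congrArg Prod.snd hg⟩
        · rintro ⟨g, hg⟩
          exact ⟨g, Prod.ext g.2 hg⟩
      simp only [M, N, h2]
      split_ifs <;> simp
    rw [Finset.sum_congr rfl (fun z _ => h1 z), Finset.sum_boole, hs]
    congr 1
    rw [Nat.card_eq_fintype_card]
    symm
    apply Fintype.card_of_subtype
    intro x; simp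
  have hsx : ∀ x, ∑ z, M x z = (s : ℂ) := by
    intro x
    obtain ⟨g, hg⟩ := exists_smul_eq G a x
    rw [← hg, ← hsa]
    exact (Fintype.sum_equiv (MulAction.toPerm g) (fun z => M a z) (fun z => M (g • a) z)
      (fun z => by change (N a z : ℂ) = (N (g • a) (g • z) : ℂ); rw [hN])).symm
  have hn0 : (Fintype.card Ω : ℂ) ≠ 0 := by
    haveI : Nonempty Ω := ⟨a⟩
    exact_mod_cast Fintype.card_pos.ne'
  -- the operator E
  let P : Ω → Ω → ℂ := fun x z => M x z - s / (Fintype.card Ω : ℂ)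
  have hP : ∀ (g : G) x z, P (g • x) (g • z) = P x z := by
    intro g x z; simp only [P, M, hN]
  have hEv : ∀ v z, matOp P v z = matOp M v z - s / (Fintype.card Ω : ℂ) * ∑ x, v x := by
    intro v z
    rw [matOp_apply, matOp_apply]
    simp only [P, mul_sub, Finset.sum_sub_distrib, ← Finset.sum_mul]
    ring
  have hsumM : ∀ v, ∑ z, matOp M v z = s * ∑ x, v x := by
    intro v
    simp only [matOp_apply]
    rw [Finset.sum_comm]
    simp only [← Finset.mul_sum, hsx]
    rw [← Finset.sum_mul, mul_comm]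
  have hsumE : ∀ v, ∑ z, matOp P v z = 0 := by
    intro v
    rw [Finset.sum_congr rfl (fun z _ => hEv v z), Finset.sum_sub_distrib, hsumM, Finset.sum_const, nsmul_eq_mul,
      Finset.card_univ]
    field_simp
    ring
  obtain ⟨z, hz, hz2⟩ := trace_div (G := G) f hf (matOp P) (matOp_comm hP) hsumE (by
    intro μ v hμ hv hv2
    have h1 : ∑ x, v x = 0 := by
      have h2 := hsumE v
      rw [hv2] at h2
      have h3 : ∑ x, (μ • v) x = μ * ∑ x, v x := by simp [Finset.mul_sum]
      rw [h3] at h2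
      exact (mul_eq_zero.1 h2).resolve_left hμ
    apply matOp_eig N μ v hv
    rw [← hv2]
    funext x
    rw [hEv, h1]; simp [M])
  rw [matOp_trace] at hz2
  have hdiag : ∀ x, M x x = 0 := by
    intro x
    have h1 : ¬ (x, x) ∈ orbit G (a, b) := by
      rintro ⟨g, hg⟩
      have h2 : g • a = x := congrArg Prod.fst hg
      have h3 : g • b = x := congrArg Prod.snd hg
      exact hab (smul_left_cancel g (h3.trans h2.symm))
    simp only [M, N]
    rw [if_neg h1]; simp
  have htr : ∑ x, P x x = -(s : ℂ) := by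
    simp only [P, hdiag, zero_sub, Finset.sum_const, nsmul_eq_mul, Finset.card_univ]
    field_simp
  rw [htr] at hz2
  rw [← hs]
  -- s = f * (-z)
  by_cases hf0 : f = 0
  · rw [hf0] at hz2
    have h1 : (s : ℂ) = 0 := by
      rw [Nat.cast_zero, zero_mul, neg_eq_zero] at hz2; exact hz2
    have h2 : s = 0 := by exact_mod_cast h1
    rw [hf0, h2]
  · have hfc : (f : ℂ) ≠ 0 := by exact_mod_cast hf0
    have h1 : -z = (((s : ℚ) / (f : ℚ) : ℚ) : ℂ) := by
      push_cast
      rw [eq_div_iff hfc]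
      linear_combination hz2
    have h2 : IsIntegral ℤ (((s : ℚ) / (f : ℚ) : ℚ) : ℂ) := by rw [← h1]; exact hz.neg
    have h3 : IsIntegral ℤ ((s : ℚ) / (f : ℚ)) := by
      have h4 : ((((s : ℚ) / (f : ℚ) : ℚ)) : ℂ) = algebraMap ℚ ℂ ((s : ℚ) / (f : ℚ)) := rfl
      rw [h4] at h2
      exact (isIntegral_algebraMap_iff (algebraMap ℚ ℂ).injective).1 h2
    obtain ⟨k, hk⟩ := IsIntegrallyClosed.isIntegral_iff.1 h3
    have hk' : (k : ℚ) = (s : ℚ) / (f : ℚ) := hk
    have hfq : (f : ℚ) ≠ 0 := by exact_mod_cast hf0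
    rw [eq_div_iff hfq] at hk'
    have h5 : (k * f : ℤ) = s := by exact_mod_cast hk'
    have h6 : (f : ℤ) ∣ (s : ℤ) := ⟨k, by rw [← h5]; ring⟩
    exact_mod_cast h6

end main

end CfsgH2
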