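import Mathlib
import Cfsg.Agent.H2.PermChar3

/-! # Multiplicity-free permutation characters (helper2 library) -/

set_option autoImplicit false
open scoped ComplexConjugate

namespace CfsgH2

open Cfsg CfsgH4 Representation MulAction

universe u v w

section main

variable {G : Type u} [Group G] [Fintype G] {Ω : Type v} [Fintype Ω] [DecidableEq Ω] [MulAction G Ω]

theorem inner_one_trans [IsPretransitive G Ω] [Nonempty Ω] : classInner (Cfsg.permRep ℂ G Ω).character (fun _ => (1 : ℂ)) = 1 := by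
  rw [permRep_char', inner_perm_one]
  haveI : Subsingleton (Quotient (orbitRel G Ω)) := by
    constructor
    intro q q'
    induction q using Quotient.inductionOn with
    | _ x =>
      induction q' using Quotient.inductionOn with
      | _ y =>
        apply Quotient.sound
        exact exists_smul_eq G y x
  haveI : Nonempty (Quotient (orbitRel G Ω)) := ⟨Quotient.mk _ (Classical.arbitrary Ω)⟩
  rw [Nat.card_unique]; simp

theorem inner_self_rank [IsPretransitive G Ω] (a : Ω) :
    classInner (Cfsg.permRep ℂ G Ω).character (Cfsg.permRep ℂ G Ω).character =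
      (Nat.card (orbitRel.Quotient (stabilizer G a) Ω) : ℂ) := by
  rw [← rank_eq a]
  have h1 := inner_perm_one (G := G) (Ω × Ω)
  change _ = (Nat.card (Quotient (orbitRel G (Ω × Ω))) : ℂ)
  rw [← h1, permRep_char', classInner_def, classInner_def]
  congr 1
  refine Finset.sum_congr rfl fun g _ => ?_
  rw [map_natCast, map_one, mul_one, ← Nat.cast_mul, ← Nat.card_prod]
  congr 1
  apply Nat.card_congr
  exact
    { toFun := fun p => ⟨(p.1.1, p.2.1), Prod.ext p.1.2 p.2.2⟩
      invFun := fun p => (⟨p.1.1, congrArg Prod.fst p.2⟩, ⟨p.1.2, congrArg Prod.snd p.2⟩)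
      left_inv := fun p => rfl
      right_inv := fun p => rfl }

theorem equal_degrees [IsPretransitive G Ω] (a : Ω) (f : ℕ)
    (hf : ∀ χ : G → ℂ, IsIrrCharacter G χ → χ ≠ (fun _ => 1) → classInner (Cfsg.permRep ℂ G Ω).character χ ≠ 0 → χ 1 = f) :
    (∀ χ : G → ℂ, IsIrrCharacter G χ → classInner (Cfsg.permRep ℂ G Ω).character χ = 0 ∨
      classInner (Cfsg.permRep ℂ G Ω).character χ = 1) ∧
      ∀ b : Ω, b ≠ a → Nat.card (orbit (stabilizer G a) b) = f := by
  classical
  haveI : Nonempty Ω := ⟨a⟩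
  obtain ⟨π, hπ⟩ : ∃ π, π = (Cfsg.permRep ℂ G Ω).character := ⟨_, rfl⟩
  have hch : IsCharacter G π := by rw [hπ]; exact isCharacter_of_rep _
  rw [← hπ] at hf ⊢
  have hm : ∀ χ : IrrCharacter G, ∃ m : ℕ, classInner π (χ : G → ℂ) = m := fun χ => IsCharacter.inner_irr_nat hch χ.2
  choose m hm using hm
  let one : IrrCharacter G := ⟨fun _ => 1, isIrrCharacter_one⟩
  have hm1 : m one = 1 := by
    have h1 := hm one
    have h2 : classInner π (fun _ => (1 : ℂ)) = 1 := by rw [hπ]; exact inner_one_trans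
    have h3 : classInner π (one : G → ℂ) = 1 := h2
    rw [h3] at h1
    exact_mod_cast h1.symm
  -- degree
  have hdeg : (Fintype.card Ω : ℂ) = ∑ χ : IrrCharacter G, (m χ : ℂ) * (χ : G → ℂ) 1 := by
    have h1 := classFun_expand_apply (IsCharacter.isClassFunction hch) 1
    have h2 : π 1 = (Fintype.card Ω : ℂ) := by
      rw [hπ, permRep_char]
      rw [Nat.card_eq_fintype_card, Fintype.card_of_subtype Finset.univ (by intro x; simp), Finset.card_univ]
    rw [h2] at h1
    rw [h1]
    exact Finset.sum_congr rfl fun χ _ => by rw [hm]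
  have hdeg' : Fintype.card Ω = 1 + f * ∑ χ ∈ Finset.univ.erase one, m χ := by
    have h1 : (Fintype.card Ω : ℂ) = ((1 + f * ∑ χ ∈ Finset.univ.erase one, m χ : ℕ) : ℂ) := by
      rw [hdeg, ← Finset.add_sum_erase _ _ (Finset.mem_univ one), hm1]
      push_cast
      rw [Finset.mul_sum]
      congr 1
      · change (1 : ℂ) * 1 = 1; ring
      · refine Finset.sum_congr rfl fun χ hχ => ?_
        rw [Finset.mem_erase] at hχ
        by_cases h0 : m χ = 0
        · rw [h0]; simp
        · rw [hf χ χ.2 (fun h => hχ.1 (Subtype.ext h)) (by rw [hm]; exact_mod_cast h0)]; ring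
    exact_mod_cast h1
  -- rank
  obtain ⟨r, hr⟩ : ∃ r, r = Nat.card (orbitRel.Quotient (stabilizer G a) Ω) := ⟨_, rfl⟩
  have hrank : r = 1 + ∑ χ ∈ Finset.univ.erase one, m χ ^ 2 := by
    have h1 := inner_self_rank (G := G) a
    rw [← hr, ← hπ, parseval (IsCharacter.isClassFunction hch) (IsCharacter.isClassFunction hch)] at h1
    have h2 : (r : ℂ) = ((1 + ∑ χ ∈ Finset.univ.erase one, m χ ^ 2 : ℕ) : ℂ) := by
      rw [← h1, ← Finset.add_sum_erase _ _ (Finset.mem_univ one)]
      push_cast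
      congr 1
      · rw [hm, hm1]; simp
      · refine Finset.sum_congr rfl fun χ _ => ?_
        rw [hm, map_natCast, pow_two]
    exact_mod_cast h2
  -- suborbits
  letI : Fintype (orbitRel.Quotient (stabilizer G a) Ω) := Fintype.ofFinite _
  let size : orbitRel.Quotient (stabilizer G a) Ω → ℕ := fun q => Nat.card q.orbit
  have hsize : ∀ b : Ω, size (Quotient.mk _ b) = Nat.card (orbit (stabilizer G a) b) := fun b => rfl
  have htot : Fintype.card Ω = ∑ q, size q := by
    have h1 := Nat.card_congr (selfEquivSigmaOrbits' (stabilizer G a) Ω)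
    rw [Nat.card_eq_fintype_card, Nat.card_sigma] at h1
    exact h1
  let q₀ : orbitRel.Quotient (stabilizer G a) Ω := Quotient.mk _ a
  have hq₀ : size q₀ = 1 := by
    rw [hsize]
    have h1 : orbit (stabilizer G a) a = {a} := by
      ext x
      constructor
      · rintro ⟨g, rfl⟩; exact g.2
      · rintro rfl; exact mem_orbit_self _
    rw [h1, Nat.card_unique]
  have hfdvd : ∀ b : Ω, b ≠ a → f ∣ Nat.card (orbit (stabilizer G a) b) := by
    intro b hb
    refine subdegree_dvd f ?_ a b hb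
    intro χ hχ hχ1 h0
    rw [← hπ] at h0
    exact ⟨1, by rw [hf χ hχ hχ1 h0]; simp⟩
  have hsz : ∀ q ∈ Finset.univ.erase q₀, f ≤ size q := by
    intro q hq
    rw [Finset.mem_erase] at hq
    induction q using Quotient.inductionOn with
    | _ b =>
      have hb : b ≠ a := by rintro rfl; exact hq.1 rfl
      have h1 := hfdvd b hb
      have h2 : size (Quotient.mk _ b) = Nat.card (orbit (stabilizer G a) b) := rfl
      rw [h2]
      refine Nat.le_of_dvd ?_ h1
      haveI : Nonempty (orbit (stabilizer G a) b) := ⟨⟨b, mem_orbit_self b⟩⟩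
      exact Nat.card_pos
  have hcard : (Finset.univ.erase q₀).card = r - 1 := by
    rw [Finset.card_erase_of_mem (Finset.mem_univ _), Finset.card_univ, ← Nat.card_eq_fintype_card, hr]
  rw [← Finset.add_sum_erase _ _ (Finset.mem_univ q₀), hq₀] at htot
  have hsum1 : ∑ q ∈ Finset.univ.erase q₀, size q = f * ∑ χ ∈ Finset.univ.erase one, m χ := by omega
  have hsum2 : f * (r - 1) ≤ ∑ q ∈ Finset.univ.erase q₀, size q := by
    have h1 := Finset.card_nsmul_le_sum _ _ _ hsz
    rw [hcard, smul_eq_mul, mul_comm] at h1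
    exact h1
  have hr1 : r - 1 = ∑ χ ∈ Finset.univ.erase one, m χ ^ 2 := by omega
  rw [hsum1, hr1] at hsum2
  have hle : ∑ χ ∈ Finset.univ.erase one, m χ ≤ ∑ χ ∈ Finset.univ.erase one, m χ ^ 2 :=
    Finset.sum_le_sum fun χ _ => Nat.le_self_pow (by norm_num) _
  rcases Nat.eq_zero_or_pos f with hf0 | hfpos
  · -- degenerate
    have hm0 : ∀ χ ∈ Finset.univ.erase one, m χ = 0 := by
      intro χ hχ
      rw [Finset.mem_erase] at hχ
      by_contra h0
      have h1 := hf χ χ.2 (fun h => hχ.1 (Subtype.ext h)) (by rw [hm]; exact_mod_cast h0)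
      rw [hf0] at h1
      exact IsIrr.one_ne_zero χ.2 (by rw [h1]; simp)
    have hn : Fintype.card Ω = 1 := by rw [hdeg', hf0]; ring
    refine ⟨fun χ hχ => ?_, fun b hb => ?_⟩
    · by_cases h1 : (⟨χ, hχ⟩ : IrrCharacter G) = one
      · right
        have h2 := hm one
        rw [← h1] at h2
        have h3 : classInner π χ = (m ⟨χ, hχ⟩ : ℂ) := h2
        rw [h3, h1, hm1]; simp
      · left
        have h2 := hm ⟨χ, hχ⟩
        rw [hm0 ⟨χ, hχ⟩ (Finset.mem_erase.2 ⟨h1, Finset.mem_univ _⟩)] at h2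
        rw [show classInner π χ = classInner π ((⟨χ, hχ⟩ : IrrCharacter G) : G → ℂ) from rfl, h2]; simp
    · exfalso
      rw [Fintype.card_eq_one_iff] at hn
      obtain ⟨x, hx⟩ := hn
      exact hb (by rw [hx b, hx a])
  · have heq : ∑ χ ∈ Finset.univ.erase one, m χ = ∑ χ ∈ Finset.univ.erase one, m χ ^ 2 := by
      apply le_antisymm hle
      exact Nat.le_of_mul_le_mul_left hsum2 hfpos
    have hm01 : ∀ χ ∈ Finset.univ.erase one, m χ = m χ ^ 2 :=
      (Finset.sum_eq_sum_iff_of_le fun χ _ => Nat.le_self_pow (by norm_num) _).1 heq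
    refine ⟨fun χ hχ => ?_, fun b hb => ?_⟩
    · have h2 : classInner π χ = (m ⟨χ, hχ⟩ : ℂ) := hm ⟨χ, hχ⟩
      by_cases h1 : (⟨χ, hχ⟩ : IrrCharacter G) = one
      · right
        rw [h2, h1, hm1]; simp
      · have h3 := hm01 _ (Finset.mem_erase.2 ⟨h1, Finset.mem_univ _⟩)
        rw [h2]
        rcases Nat.eq_zero_or_pos (m ⟨χ, hχ⟩) with h4 | h4
        · left; rw [h4]; simp
        · right
          have h5 : m ⟨χ, hχ⟩ = 1 := by
            rw [pow_two] at h3
            exact (Nat.eq_of_mul_eq_mul_left h4 (by rw [mul_one]; exact h3)).symm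
          rw [h5]; simp
    · have h1 : ∑ q ∈ Finset.univ.erase q₀, f = ∑ q ∈ Finset.univ.erase q₀, size q := by
        rw [Finset.sum_const, hcard, smul_eq_mul, hsum1, heq, hr1, mul_comm]
      have h2 := (Finset.sum_eq_sum_iff_of_le hsz).1 h1 (Quotient.mk _ b) (Finset.mem_erase.2 ⟨by
        intro h3
        have h4 := Quotient.exact h3
        obtain ⟨g, hg⟩ := h4
        have h5 : (g : G) • a = b := hg
        rw [show (g : G) • a = a from g.2] at h5
        exact hb h5.symm, Finset.mem_univ _⟩)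
      exact h2.symm

theorem rank_le_five [IsPretransitive G Ω] (a : Ω) (h5 : Nat.card (orbitRel.Quotient (stabilizer G a) Ω) ≤ 5) :
    ∀ χ : G → ℂ, IsIrrCharacter G χ → classInner (Cfsg.permRep ℂ G Ω).character χ = 0 ∨
      classInner (Cfsg.permRep ℂ G Ω).character χ = 1 := by
  classical
  haveI : Nonempty Ω := ⟨a⟩
  obtain ⟨π, hπ⟩ : ∃ π, π = (Cfsg.permRep ℂ G Ω).character := ⟨_, rfl⟩
  have hch : IsCharacter G π := by rw [hπ]; exact isCharacter_of_rep _
  have hm : ∀ χ : IrrCharacter G, ∃ m : ℕ, classInner π (χ : G → ℂ) = m := fun χ => IsCharacter.inner_irr_nat hch χ.2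
  choose m hm using hm
  let one : IrrCharacter G := ⟨fun _ => 1, isIrrCharacter_one⟩
  have hm1 : m one = 1 := by
    have h1 := hm one
    have h2 : classInner π (fun _ => (1 : ℂ)) = 1 := by rw [hπ]; exact inner_one_trans
    have h3 : classInner π (one : G → ℂ) = 1 := h2
    rw [h3] at h1
    exact_mod_cast h1.symm
  have hrank : Nat.card (orbitRel.Quotient (stabilizer G a) Ω) = ∑ χ : IrrCharacter G, m χ ^ 2 := by
    have h1 := inner_self_rank (G := G) a
    rw [← hπ, parseval (IsCharacter.isClassFunction hch) (IsCharacter.isClassFunction hch)] at h1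
    have h2 : ((Nat.card (orbitRel.Quotient (stabilizer G a) Ω) : ℕ) : ℂ) = ((∑ χ : IrrCharacter G, m χ ^ 2 : ℕ) : ℂ) := by
      rw [← h1]
      push_cast
      refine Finset.sum_congr rfl fun χ _ => ?_
      rw [hm, map_natCast, pow_two]
    exact_mod_cast h2
  intro χ₀ hχ₀
  rw [← hπ]
  by_contra hcon
  push Not at hcon
  obtain ⟨c₀, hc₀⟩ : ∃ c : IrrCharacter G, c = ⟨χ₀, hχ₀⟩ := ⟨_, rfl⟩
  have hmc : classInner π χ₀ = (m c₀ : ℂ) := by
    rw [← hm c₀, hc₀]
  rw [hmc] at hcon
  have h2 : 2 ≤ m c₀ := by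
    rcases Nat.lt_or_ge (m c₀) 2 with h | h
    · exfalso
      rcases (show m c₀ = 0 ∨ m c₀ = 1 by omega) with h3 | h3
      · exact hcon.1 (by rw [h3]; simp)
      · exact hcon.2 (by rw [h3]; simp)
    · exact h
  have hne : c₀ ≠ one := by rintro h; rw [h, hm1] at h2; omega
  have hothers : ∀ χ : IrrCharacter G, χ ≠ one → χ ≠ c₀ → m χ = 0 := by
    intro χ h3 h4
    by_contra h0
    have h6 : ∑ ψ ∈ ({one, c₀, χ} : Finset (IrrCharacter G)), m ψ ^ 2 ≤ ∑ ψ : IrrCharacter G, m ψ ^ 2 :=
      Finset.sum_le_sum_of_subset (Finset.subset_univ _)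
    rw [← hrank, Finset.sum_insert (by simp [Ne.symm hne, Ne.symm h3]), Finset.sum_insert (by simp [Ne.symm h4]),
      Finset.sum_singleton, hm1] at h6
    have h7 : 1 ≤ m χ ^ 2 := Nat.one_le_pow _ _ (Nat.pos_of_ne_zero h0)
    have h8 : 4 ≤ m c₀ ^ 2 := by nlinarith
    omega
  obtain ⟨k, hk⟩ := IsCharacter.one_nat (IsIrr.isCharacter c₀.2)
  have h3 := (equal_degrees (G := G) a k (by
    intro χ hχ hχ1 h0
    rw [← hπ] at h0
    by_cases h4 : (⟨χ, hχ⟩ : IrrCharacter G) = c₀
    · have h5 : χ = (c₀ : G → ℂ) := by rw [← h4]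
      rw [h5, hk]
    · exfalso
      apply h0
      have h5 := hothers ⟨χ, hχ⟩ (fun h => hχ1 (congrArg Subtype.val h)) h4
      have h6 : classInner π χ = (m ⟨χ, hχ⟩ : ℂ) := hm ⟨χ, hχ⟩
      rw [h6, h5]; simp)).1 χ₀ hχ₀
  rw [← hπ, hmc] at h3
  rcases h3 with h3 | h3
  · exact hcon.1 h3
  · exact hcon.2 h3

end main

end CfsgH2
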