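import Mathlib
import Cfsg.Agent.H2.PermE

/-! # Wagner's theorem, degree 13, alternating permutation modules (helper2 library) -/

set_option autoImplicit false

namespace CfsgH2

open Subgroup Equiv MulAction
open scoped Pointwise

universe u v

theorem three_trans {G : Type u} {X : Type v} [Group G] [MulAction G X] (h : IsMultiplyPretransitive G X 3)
    {a b c a' b' c' : X} (hab : a ≠ b) (hac : a ≠ c) (hbc : b ≠ c) (hab' : a' ≠ b') (hac' : a' ≠ c') (hbc' : b' ≠ c') :
    ∃ g : G, g • a = a' ∧ g • b = b' ∧ g • c = c' := by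
  have hemb : ∀ {a b c : X}, a ≠ b → a ≠ c → b ≠ c → Function.Injective ![a, b, c] := by
    intro a b c hab hac hbc i j hij
    match i, j with
    | 0, 0 => rfl
    | 1, 1 => rfl
    | 2, 2 => rfl
    | 0, 1 => exact absurd hij hab
    | 1, 0 => exact absurd hij.symm hab
    | 0, 2 => exact absurd hij hac
    | 2, 0 => exact absurd hij.symm hac
    | 1, 2 => exact absurd hij hbc
    | 2, 1 => exact absurd hij.symm hbc
  obtain ⟨g, hg⟩ := h.exists_smul_eq (⟨![a, b, c], hemb hab hac hbc⟩ : Fin 3 ↪ X) ⟨![a', b', c'], hemb hab' hac' hbc'⟩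
  exact ⟨g, congrArg (fun z : Fin 3 ↪ X => z 0) hg, congrArg (fun z : Fin 3 ↪ X => z 1) hg, congrArg (fun z : Fin 3 ↪ X => z 2) hg⟩

theorem wagner {α : Type u} [Fintype α] [DecidableEq α] (G : Subgroup (Perm α)) (hodd : Odd (Fintype.card α))
    (h5 : 5 ≤ Fintype.card α) (hG : IsMultiplyPretransitive G α 3) (N : Subgroup G) [hNn : N.Normal] (hN : N ≠ ⊥) :
    IsMultiplyPretransitive N α 3 := by
  haveI : Fact (Nat.Prime 2) := ⟨Nat.prime_two⟩
  have hGp : IsPretransitive G α := by
    haveI := hG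
    have := isMultiplyPretransitive_of_le (G := G) (α := α) (m := 1) (n := 3) (by norm_num) (by rw [Nat.card_eq_fintype_card]; omega)
    rwa [is_one_pretransitive_iff] at this
  have hN2 : IsMultiplyPretransitive N α 2 := by
    rcases jordan_normal G (k := 3) (by norm_num) (by omega) hG N hN with h | ⟨-, -, h⟩
    · exact h
    · exfalso
      have hNp : IsPGroup 2 N := fun x => ⟨1, by rw [pow_one]; exact Subtype.ext (h x x.2)⟩
      have h1 := fixed_count (X := α) hNp Set.univ (fun _ _ _ _ => trivial)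
      rw [Nat.card_univ, Nat.card_eq_fintype_card] at h1
      by_cases h2 : ∃ a : α, ∀ g ∈ N, g • a = a
      · obtain ⟨a, ha⟩ := h2
        apply hN
        rw [Subgroup.eq_bot_iff_forall]
        intro n hn
        apply faithful_perm
        intro x
        obtain ⟨g, rfl⟩ := MulAction.exists_smul_eq G a x
        have h3 := ha (g⁻¹ * n * g) (by
          have := hNn.conj_mem n hn g⁻¹
          rwa [inv_inv] at this)
        rw [mul_smul, mul_smul, inv_smul_eq_iff] at h3
        exact h3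
      · have h3 : Nat.card {x : α // x ∈ Set.univ ∧ ∀ g ∈ N, g • x = x} = 0 := by
          rw [Nat.card_eq_zero]
          left
          exact ⟨fun x => h2 ⟨x.1, x.2.2⟩⟩
        rw [h3] at h1
        have h4 := (Nat.modEq_zero_iff_dvd).1 h1
        exact (Nat.not_even_iff_odd.2 hodd) (even_iff_two_dvd.2 h4)
  -- swapping elements
  obtain ⟨a, b, hab⟩ : ∃ a b : α, a ≠ b := by
    haveI : Nontrivial α := Fintype.one_lt_card_iff_nontrivial.1 (by omega)
    exact exists_pair_ne α
  obtain ⟨u, huN, hua, hub, c, hca, hcb, huc⟩ : ∃ u ∈ N, u • a = b ∧ u • b = a ∧ ∃ c, c ≠ a ∧ c ≠ b ∧ u • c = c := by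
    obtain ⟨n, hna, hnb⟩ := two_trans_iff.1 hN2 a b b a hab hab.symm
    obtain ⟨m, hm⟩ : ∃ m, m = ordCompl[2] (orderOf n) := ⟨_, rfl⟩
    have hn0 : orderOf n ≠ 0 := (orderOf_pos n).ne'
    have hmodd : ¬ 2 ∣ m := by rw [hm]; exact Nat.not_dvd_ordCompl Nat.prime_two hn0
    have hsq : (n ^ 2) • a = a := by rw [pow_two, mul_smul, hna, hnb]
    have hsqb : (n ^ 2) • b = b := by rw [pow_two, mul_smul, hnb, hna]
    have hodd' : ∃ l, m = 2 * l + 1 := ⟨m / 2, by omega⟩
    obtain ⟨l, hl⟩ := hodd'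
    have hpa : ((n ^ 2) ^ l) • a = a := (stabilizer N a).pow_mem (x := n ^ 2) hsq l
    have hpb : ((n ^ 2) ^ l) • b = b := (stabilizer N b).pow_mem (x := n ^ 2) hsqb l
    have hna' : (n ^ m) • a = b := by
      rw [hl, pow_succ', pow_mul, mul_smul, hpa, hna]
    have hnb' : (n ^ m) • b = a := by
      rw [hl, pow_succ', pow_mul, mul_smul, hpb, hnb]
    have hpow : (n ^ m) ^ (2 ^ (orderOf n).factorization 2) = 1 := by
      rw [← pow_mul, hm, mul_comm, Nat.ordProj_mul_ordCompl_eq_self, pow_orderOf_eq_one]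
    refine ⟨((n ^ m : N) : G), (n ^ m).2, hna', hnb', ?_⟩
    have hP : IsPGroup 2 (zpowers ((n ^ m : N) : G)) := by
      rw [IsPGroup.iff_card]
      rw [Nat.card_zpowers]
      have h1 : orderOf ((n ^ m : N) : G) ∣ 2 ^ (orderOf n).factorization 2 := by
        apply orderOf_dvd_of_pow_eq_one
        exact congrArg Subtype.val hpow
      obtain ⟨j, -, hj⟩ := (Nat.dvd_prime_pow Nat.prime_two).1 h1
      exact ⟨j, hj⟩
    have h1 := fixed_count (X := α) hP ({a, b} : Set α)ᶜ (by
      have key : ∀ x ∈ ({a, b} : Set α)ᶜ, ((n ^ m : N) : G) • x ∈ ({a, b} : Set α)ᶜ := by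
        intro x hx h2
        rw [Set.mem_compl_iff, Set.mem_insert_iff, Set.mem_singleton_iff, not_or] at hx
        rcases h2 with h2 | h2
        · apply hx.2
          have h3 : ((n ^ m : N) : G) • x = ((n ^ m : N) : G) • b := by rw [h2]; exact hnb'.symm
          exact smul_left_cancel _ h3
        · apply hx.1
          have h3 : ((n ^ m : N) : G) • x = ((n ^ m : N) : G) • a := by rw [Set.mem_singleton_iff.1 h2]; exact hna'.symm
          exact smul_left_cancel _ h3
      intro g hg
      obtain ⟨i, hi⟩ := (mem_powers_iff_mem_zpowers.2 hg)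
      rw [← hi]
      clear hi hg
      induction i with
      | zero =>
        intro x hx
        change (((n ^ m : N) : G) ^ 0) • x ∈ ({a, b} : Set α)ᶜ
        rw [pow_zero, one_smul]; exact hx
      | succ i ih =>
        intro x hx
        change (((n ^ m : N) : G) ^ (i + 1)) • x ∈ ({a, b} : Set α)ᶜ
        rw [pow_succ', mul_smul]; exact key _ (ih x hx))
    by_contra hno
    push Not at hno
    have h2 : Nat.card {x : α // x ∈ ({a, b} : Set α)ᶜ ∧ ∀ g ∈ zpowers ((n ^ m : N) : G), g • x = x} = 0 := by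
      rw [Nat.card_eq_zero]
      left
      refine ⟨fun x => ?_⟩
      have h3 := x.2.1
      rw [Set.mem_compl_iff, Set.mem_insert_iff, Set.mem_singleton_iff, not_or] at h3
      exact hno x.1 h3.1 h3.2 (x.2.2 _ (mem_zpowers _))
    rw [h2, Nat.card_coe_set_eq, Set.ncard_compl, Set.ncard_pair hab, Nat.card_eq_fintype_card] at h1
    have h4 := (Nat.modEq_zero_iff_dvd).1 h1
    obtain ⟨t, ht⟩ := hodd
    omega
  have hswap : ∀ x y z : α, x ≠ y → x ≠ z → y ≠ z → ∃ v ∈ N, v • x = y ∧ v • y = x ∧ v • z = z := by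
    intro x y z hxy hxz hyz
    obtain ⟨g, hga, hgb, hgc⟩ := three_trans hG hab hca.symm hcb.symm hxy hxz hyz
    refine ⟨g * u * g⁻¹, hNn.conj_mem u huN g, ?_, ?_, ?_⟩
    · rw [mul_smul, mul_smul, ← hga, inv_smul_smul, hua, hgb]
    · rw [mul_smul, mul_smul, ← hgb, inv_smul_smul, hub, hga]
    · rw [mul_smul, mul_smul, ← hgc, inv_smul_smul, huc]
  obtain ⟨N', hN'⟩ : ∃ N', N' = N.map G.subtype := ⟨_, rfl⟩
  have hN'mem : ∀ n ∈ N, (n : Perm α) ∈ N' := fun n hn => by rw [hN']; exact ⟨n, hn, rfl⟩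
  have hN'of : ∀ g ∈ N', ∃ m ∈ N, (m : Perm α) = g := by
    intro g hg
    rw [hN'] at hg
    obtain ⟨m, hm, hml⟩ := hg
    exact ⟨m, hm, hml⟩
  have hgen : ∀ s : Finset α, s.card = 2 + 1 → ∀ σ : Perm ↥s, ∃ g ∈ N', ∀ x : ↥s, g (x : α) = σ x := by
    intro s hs σ
    induction σ using Equiv.Perm.swap_induction_on with
    | one => exact ⟨1, N'.one_mem, fun _ => rfl⟩
    | swap_mul f x y hxy ih =>
      obtain ⟨g, hg, hgf⟩ := ih
      have hxy' : (x : α) ≠ y := fun h => hxy (Subtype.ext h)
      obtain ⟨z, hz⟩ : ∃ z, (s.erase (x : α)).erase y = {z} := by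
        rw [← Finset.card_eq_one, Finset.card_erase_of_mem, Finset.card_erase_of_mem x.2, hs]
        exact Finset.mem_erase.2 ⟨hxy'.symm, y.2⟩
      have hzmem : z ∈ (s.erase (x : α)).erase y := by rw [hz]; exact Finset.mem_singleton_self z
      rw [Finset.mem_erase, Finset.mem_erase] at hzmem
      have hall : ∀ w ∈ s, w ≠ x → w ≠ y → w = z := by
        intro w hw h1 h2
        have h3 : w ∈ (s.erase (x : α)).erase y := Finset.mem_erase.2 ⟨h2, Finset.mem_erase.2 ⟨h1, hw⟩⟩
        rw [hz] at h3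
        exact Finset.mem_singleton.1 h3
      obtain ⟨v, hv, hvx, hvy, hvz⟩ := hswap x y z hxy' hzmem.2.1.symm hzmem.1.symm
      refine ⟨(v : Perm α) * g, N'.mul_mem (hN'mem v hv) hg, ?_⟩
      intro w
      rw [Perm.mul_apply, hgf w, Perm.mul_apply]
      by_cases h1 : f w = x
      · rw [h1, Equiv.swap_apply_left]; exact hvx
      · by_cases h2 : f w = y
        · rw [h2, Equiv.swap_apply_right]; exact hvy
        · rw [Equiv.swap_apply_of_ne_of_ne h1 h2]
          have h3 := hall (f w) (f w).2 (fun h => h1 (Subtype.ext h)) (fun h => h2 (Subtype.ext h))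
          rw [h3]; exact hvz
  -- orbits of the two point stabilizer
  obtain ⟨L, hL⟩ : ∃ L, L = fixingSubgroup N' ((({a, b} : Finset α)) : Set α) := ⟨_, rfl⟩
  have hLmem : ∀ l : N', l ∈ L ↔ (l : Perm α) a = a ∧ (l : Perm α) b = b := by
    intro l
    rw [hL, mem_fixingSubgroup_iff]
    constructor
    · intro h
      exact ⟨h a (by simp), h b (by simp)⟩
    · rintro ⟨h1, h2⟩ y hy
      rw [Finset.coe_insert, Finset.coe_singleton, Set.mem_insert_iff, Set.mem_singleton_iff] at hy
      rcases hy with rfl | rfl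
      · exact h1
      · exact h2
  have horbmap : ∀ g : G, g • a = a → g • b = b → ∀ x y : α, y ∈ orbit L x → g • y ∈ orbit L (g • x) := by
    rintro g hga hgb x _ ⟨l, rfl⟩
    obtain ⟨m, hm, hml⟩ := hN'of _ (l : N').2
    have h1 : g⁻¹ • a = a := by rw [inv_smul_eq_iff, hga]
    have h2 : g⁻¹ • b = b := by rw [inv_smul_eq_iff, hgb]
    have hla := (hLmem l).1 l.2
    have hma : m • a = a := by change (m : Perm α) a = a; rw [hml]; exact hla.1
    have hmb : m • b = b := by change (m : Perm α) b = b; rw [hml]; exact hla.2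
    refine ⟨⟨⟨_, hN'mem _ (hNn.conj_mem m hm g)⟩, ?_⟩, ?_⟩
    · rw [hLmem]
      refine ⟨?_, ?_⟩
      · change (g * m * g⁻¹) • a = a
        rw [mul_smul, mul_smul, h1, hma, hga]
      · change (g * m * g⁻¹) • b = b
        rw [mul_smul, mul_smul, h2, hmb, hgb]
    · change (g * m * g⁻¹) • g • x = g • ((l : N') : Perm α) x
      rw [mul_smul, mul_smul, inv_smul_smul, ← hml]
      rfl
  have horbcard : ∀ x y : α, x ≠ a → x ≠ b → y ≠ a → y ≠ b → Nat.card (orbit L x) = Nat.card (orbit L y) := by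
    intro x y hxa hxb hya hyb
    obtain ⟨g, hga, hgb, hgx⟩ := three_trans hG hab hxa.symm hxb.symm hab hya.symm hyb.symm
    rw [← hgx]
    apply Nat.card_congr
    apply (g : Perm α).subtypeEquiv
    intro z
    constructor
    · exact horbmap g hga hgb x z
    · intro hz
      have := horbmap g⁻¹ (by rw [inv_smul_eq_iff, hga]) (by rw [inv_smul_eq_iff, hgb]) (g • x) ((g : Perm α) z) hz
      rw [inv_smul_smul] at this
      have h2 : g⁻¹ • ((g : Perm α) z) = z := (g : Perm α).symm_apply_apply z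
      rwa [h2] at this
  have hdvd : Nat.card (orbit L c) ∣ Fintype.card α - 2 := by
    have h1 := dvd_card_of_orbits (Γ := L) (α := α) (Finset.univ \ {a, b}) (by
      intro g x hx
      rw [Finset.mem_sdiff, Finset.mem_insert, Finset.mem_singleton, not_or] at hx ⊢
      have hg := (hLmem g).1 g.2
      refine ⟨Finset.mem_univ _, fun h => hx.2.1 ?_, fun h => hx.2.2 ?_⟩
      · exact ((g : N') : Perm α).injective (h.trans hg.1.symm)
      · exact ((g : N') : Perm α).injective (h.trans hg.2.symm)) (Nat.card (orbit L c)) (by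
      intro x hx
      rw [Finset.mem_sdiff, Finset.mem_insert, Finset.mem_singleton, not_or] at hx
      rw [index_stabilizer, ← Nat.card_coe_set_eq, horbcard c x hca hcb hx.2.1 hx.2.2])
    rwa [Finset.card_sdiff_of_subset (Finset.subset_univ _), Finset.card_pair hab, Finset.card_univ] at h1
  have hodd3 : ¬ 2 ∣ Nat.card (orbit L c) := by
    intro h
    have h1 := h.trans hdvd
    obtain ⟨t, ht⟩ := hodd
    omega
  have htransL : ∀ x y : α, x ≠ a → x ≠ b → y ≠ a → y ≠ b → ∃ l ∈ L, (l : Perm α) x = y := by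
    intro x y hxa hxb hya hyb
    by_contra hno
    have h1 : y ∉ orbit L x := by
      rintro ⟨l, hl⟩
      exact hno ⟨l, l.2, hl⟩
    have h2 : x ∉ orbit L y := by
      intro h2
      apply h1
      rw [← orbit_eq_iff] at h2
      rw [h2]; exact mem_orbit_self _
    obtain ⟨i, hi⟩ := generous_prime N' (k := 2) (by omega) hgen Nat.prime_two le_rfl {a, b} (Finset.card_pair hab) ![x, y] (by
      intro i
      match i with
      | 0 => simp [hxa, hxb]
      | 1 => simp [hya, hyb]) (by
      rw [← hL]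
      intro i j hij
      match i, j with
      | 0, 0 => exact absurd rfl hij
      | 1, 1 => exact absurd rfl hij
      | 0, 1 => exact h1
      | 1, 0 => exact h2)
    rw [← hL] at hi
    apply hodd3
    match i, hi with
    | 0, hi => rw [horbcard c x hca hcb hxa hxb]; exact hi
    | 1, hi => rw [horbcard c y hca hcb hya hyb]; exact hi
  -- conclusion
  have hN'2 : IsMultiplyPretransitive N' α 2 := by
    rw [two_trans_iff] at hN2 ⊢
    intro p q r t hpq hrt
    obtain ⟨n, hn1, hn2⟩ := hN2 p q r t hpq hrt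
    exact ⟨⟨_, hN'mem n n.2⟩, hn1, hn2⟩
  have hN'3 : IsMultiplyPretransitive N' α (2 + 1) := by
    apply mp_add hN'2 ((({a, b} : Finset α)) : Set α) (by rw [Set.ncard_coe_finset, Finset.card_pair hab])
    rw [is_one_pretransitive_iff]
    refine ⟨fun x y => ?_⟩
    have hout : ∀ z : SubMulAction.ofFixingSubgroup N' ((({a, b} : Finset α)) : Set α), (z : α) ≠ a ∧ (z : α) ≠ b := by
      intro z
      have hz : (z : α) ∉ ((({a, b} : Finset α)) : Set α) := z.2
      exact ⟨fun h => hz (by rw [h]; simp), fun h => hz (by rw [h]; simp)⟩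
    obtain ⟨l, hl, hlx⟩ := htransL x y (hout x).1 (hout x).2 (hout y).1 (hout y).2
    rw [hL] at hl
    exact ⟨⟨l, hl⟩, Subtype.ext hlx⟩
  refine ⟨fun x y => ?_⟩
  obtain ⟨g, hg⟩ := hN'3.exists_smul_eq x y
  obtain ⟨n, hn, hng⟩ := hN'of _ g.2
  refine ⟨⟨n, hn⟩, ?_⟩
  rw [← hg]
  ext i
  change (n : Perm α) (x i) = (g : Perm α) (x i)
  rw [← hng]

theorem no_deg13 {α : Type u} [Fintype α] [DecidableEq α] (hα : Fintype.card α = 13) (G : Subgroup (Perm α))
    [hGt : IsPretransitive G α] : Nat.card G ≠ 13 * 12 * 11 * 10 * 9 * 8 := by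
  intro hG
  haveI : Fact (Nat.Prime 13) := ⟨by norm_num⟩
  obtain ⟨P⟩ : Nonempty (Sylow 13 G) := inferInstance
  have hPcard : Nat.card (P : Subgroup G) = 13 := by
    have h1 : (Nat.card G).factorization 13 = 1 := by
      have hG0 : Nat.card G ≠ 0 := Nat.card_pos.ne'
      apply le_antisymm
      · by_contra h
        push Not at h
        have h2 := ((by norm_num : Nat.Prime 13).pow_dvd_iff_le_factorization hG0).2 h
        rw [hG] at h2
        norm_num at h2
      · exact ((by norm_num : Nat.Prime 13).pow_dvd_iff_le_factorization hG0).1 (by rw [hG]; norm_num)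
    rw [P.card_eq_multiplicity, h1, pow_one]
  -- P is transitive
  obtain ⟨P', hP'⟩ : ∃ P', P' = (P : Subgroup G).map G.subtype := ⟨_, rfl⟩
  have hPt : ∀ a b : α, ∃ g ∈ P', g a = b := by
    obtain ⟨g, hg⟩ : ∃ g : (P : Subgroup G), g ≠ 1 := by
      haveI : Nontrivial (P : Subgroup G) := Finite.one_lt_card_iff_nontrivial.1 (by rw [hPcard]; norm_num)
      exact exists_ne 1
    obtain ⟨x, hx⟩ : ∃ x : α, ((g : G) : Perm α) x ≠ x := by
      by_contra hno
      push Not at hno
      exact hg (Subtype.ext (Subtype.ext (Equiv.ext hno)))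
    have h1 : Nat.card (orbit (P : Subgroup G) x) ∣ 13 := by
      have := Nat.card_congr (orbitProdStabilizerEquivGroup (P : Subgroup G) x)
      rw [Nat.card_prod, hPcard] at this
      exact ⟨_, this.symm⟩
    have h2 : Nat.card (orbit (P : Subgroup G) x) ≠ 1 := by
      intro h3
      rw [Nat.card_eq_one_iff_unique] at h3
      have := h3.1.elim (⟨g • x, mem_orbit _ _⟩ : orbit (P : Subgroup G) x) ⟨x, mem_orbit_self x⟩
      exact hx (congrArg Subtype.val this)
    have h3 : Nat.card (orbit (P : Subgroup G) x) = 13 := ((Nat.dvd_prime (by norm_num)).1 h1).resolve_left h2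
    have h4 : orbit (P : Subgroup G) x = Set.univ := by
      rw [Set.eq_univ_iff_ncard, ← Nat.card_coe_set_eq, h3, Nat.card_eq_fintype_card, hα]
    have h5 : ∀ b : α, ∃ g ∈ P', g x = b := by
      intro b
      have : b ∈ orbit (P : Subgroup G) x := by rw [h4]; trivial
      obtain ⟨k, hk⟩ := this
      exact ⟨_, by rw [hP']; exact ⟨k, k.2, rfl⟩, hk⟩
    intro a b
    obtain ⟨g, hg, rfl⟩ := h5 a
    obtain ⟨k, hk, rfl⟩ := h5 b
    refine ⟨k * g⁻¹, P'.mul_mem hk (P'.inv_mem hg), ?_⟩
    rw [Perm.mul_apply]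
    exact congrArg k (g.symm_apply_apply x)
  have hcyc : IsCyclic (P : Subgroup G) := isCyclic_of_prime_card (p := 13) hPcard
  have hPc : ∀ x ∈ P', ∀ y ∈ P', x * y = y * x := by
    rw [hP']
    rintro _ ⟨x, hx, rfl⟩ _ ⟨y, hy, rfl⟩
    obtain ⟨g, hg⟩ := hcyc.exists_generator
    obtain ⟨i, hi⟩ := hg ⟨x, hx⟩
    obtain ⟨j, hj⟩ := hg ⟨y, hy⟩
    have h3 : (⟨x, hx⟩ : (P : Subgroup G)) * ⟨y, hy⟩ = ⟨y, hy⟩ * ⟨x, hx⟩ := by
      rw [← hi, ← hj]
      exact (Commute.zpow_zpow (Commute.refl g) i j).eq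
    exact congrArg (fun z : (P : Subgroup G) => ((z : G) : Perm α)) h3
  obtain ⟨a₀⟩ : Nonempty α := Fintype.card_pos_iff.1 (by omega)
  have hC := eq_of_trans_centralizer hPt hPt hPc a₀
  have hCP : Subgroup.centralizer ((P : Subgroup G) : Set G) = (P : Subgroup G) := by
    ext x
    constructor
    · intro hx
      have h1 : (x : Perm α) ∈ Subgroup.centralizer (P' : Set (Perm α)) := by
        rw [mem_centralizer_iff, hP']
        rintro _ ⟨y, hy, rfl⟩
        exact congrArg Subtype.val (mem_centralizer_iff.1 hx y hy)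
      rw [hC, hP'] at h1
      obtain ⟨y, hy, hyx⟩ := h1
      have : y = x := Subtype.ext hyx
      rw [← this]; exact hy
    · intro hx
      rw [mem_centralizer_iff]
      intro y hy
      have := hPc y (by rw [hP']; exact ⟨y, hy, rfl⟩) x (by rw [hP']; exact ⟨x, hx, rfl⟩)
      exact Subtype.ext this
  have key := card_dvd_of_injective _ (QuotientGroup.kerLift_injective (P : Subgroup G).normalizerMonoidHom)
  rw [normalizerMonoidHom_ker, ← Subgroup.index, ← relIndex, hcyc.card_mulAut, hPcard, hCP] at key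
  have h12 : Nat.totient 13 = 12 := by decide
  rw [h12] at key
  have hN : Nat.card (Subgroup.normalizer ((P : Subgroup G) : Set G)) = 13 * (P : Subgroup G).relIndex (Subgroup.normalizer ((P : Subgroup G) : Set G)) := by
    have h1 := Subgroup.relIndex_mul_relIndex ⊥ (P : Subgroup G) (Subgroup.normalizer ((P : Subgroup G) : Set G)) bot_le le_normalizer
    rw [Subgroup.relIndex_bot_left, Subgroup.relIndex_bot_left, hPcard] at h1
    exact h1.symm
  have hidx := (Subgroup.normalizer ((P : Subgroup G) : Set G)).card_mul_index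
  have hs : Nat.card (Sylow 13 G) = (Subgroup.normalizer ((P : Subgroup G) : Set G)).index := P.card_eq_index_normalizer
  rw [hN, hG, ← hs] at hidx
  have hmod := card_sylow_modEq_one 13 G
  generalize (P : Subgroup G).relIndex (Subgroup.normalizer ((P : Subgroup G) : Set G)) = d at key hidx
  generalize Nat.card (Sylow 13 G) = n at hidx hmod
  have hd : d ≤ 12 := Nat.le_of_dvd (by norm_num) key
  have hmod' : n % 13 = 1 := hmod
  interval_cases d <;> omega

end CfsgH2
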