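import Mathlib
import Cfsg.Agent.H2.PermG

/-! # Elements of small support in k-transitive groups (helper2 library) -/

set_option autoImplicit false

namespace CfsgH2

open Subgroup Equiv MulAction
open scoped Pointwise

universe u v

theorem extend_fix {α : Type u} [Fintype α] [DecidableEq α] (G : Subgroup (Perm α)) {k : ℕ}
    (hkn : k ≤ Fintype.card α) (hG : IsMultiplyPretransitive G α k) (Γ : Finset α) (hΓ : Γ.card + 1 ≤ k) {a b : α}
    (ha : a ∉ Γ) (hb : b ∉ Γ) : ∃ h ∈ G, (∀ z ∈ Γ, h z = z) ∧ h a = b := by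
  have h0 : IsMultiplyPretransitive G α (Γ.card + 1) :=
    isMultiplyPretransitive_of_le (G := G) (n := k) hΓ (by rw [Nat.card_eq_fintype_card]; exact hkn)
  obtain ⟨h, hh⟩ := exists_extend h0 (insert a Γ) (Finset.card_insert_of_notMem ha) (fun z => if z = a then b else z) (by
    intro x hx y hy hxy
    simp only [Finset.coe_insert, Set.mem_insert_iff, Finset.mem_coe] at hx hy
    simp only at hxy
    split_ifs at hxy with h1 h2 h2
    · rw [h1, h2]
    · rcases hy with hy | hy
      · exact absurd hy h2
      · rw [← hxy] at hy; exact absurd hy hb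
    · rcases hx with hx | hx
      · exact absurd hx h1
      · rw [hxy] at hx; exact absurd hx hb
    · exact hxy)
  refine ⟨h, h.2, fun z hz => ?_, ?_⟩
  · have h1 := hh z (Finset.mem_insert_of_mem hz)
    have h2 : z ≠ a := fun h => ha (h ▸ hz)
    simp only [h2, if_false] at h1
    exact h1
  · have h1 := hh a (Finset.mem_insert_self _ _)
    simp only [if_true] at h1
    exact h1

theorem exists_chain {α : Type u} [Fintype α] [DecidableEq α] (g : Perm α) (j : ℕ) (hj : j ≤ g.support.card) :
    ∃ Γ : Finset α, Γ ⊆ g.support ∧ Γ.card = j ∧ (Γ.filter (fun a => g a ∉ Γ)).card ≤ 1 := by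
  induction j with
  | zero => exact ⟨∅, Finset.empty_subset _, rfl, by simp⟩
  | succ j ih =>
    obtain ⟨Γ, h1, h2, h3⟩ := ih (by omega)
    rcases Nat.eq_zero_or_pos (Γ.filter (fun a => g a ∉ Γ)).card with h4 | h4
    · have h5 : ∀ a ∈ Γ, g a ∈ Γ := by
        intro a ha
        by_contra h6
        have h7 : a ∈ Γ.filter (fun a => g a ∉ Γ) := Finset.mem_filter.2 ⟨ha, h6⟩
        rw [Finset.card_eq_zero] at h4
        rw [h4] at h7; simp at h7
      obtain ⟨x, hx, hxΓ⟩ := Finset.exists_mem_notMem_of_card_lt_card (show Γ.card < g.support.card by omega)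
      refine ⟨insert x Γ, Finset.insert_subset hx h1, by rw [Finset.card_insert_of_notMem hxΓ, h2], ?_⟩
      refine (Finset.card_le_card (t := {x}) ?_).trans (by simp)
      intro a ha
      rw [Finset.mem_filter, Finset.mem_insert] at ha
      rcases ha.1 with ha1 | ha1
      · simp [ha1]
      · exact absurd (Finset.mem_insert_of_mem (h5 a ha1)) ha.2
    · obtain ⟨a, ha⟩ := Finset.card_pos.1 h4
      have hu : ∀ b ∈ Γ, g b ∉ Γ → b = a := by
        intro b hb hb2
        exact (Finset.card_le_one.1 h3) b (Finset.mem_filter.2 ⟨hb, hb2⟩) a ha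
      rw [Finset.mem_filter] at ha
      refine ⟨insert (g a) Γ, Finset.insert_subset (Perm.apply_mem_support.2 (h1 ha.1)) h1,
        by rw [Finset.card_insert_of_notMem ha.2, h2], ?_⟩
      refine (Finset.card_le_card (t := {g a}) ?_).trans (by simp)
      intro b hb
      rw [Finset.mem_filter, Finset.mem_insert] at hb
      rcases hb.1 with hb1 | hb1
      · simp [hb1]
      · exfalso
        have h5 : g b ∉ Γ := fun h => hb.2 (Finset.mem_insert_of_mem h)
        have h6 := hu b hb1 h5
        rw [h6] at hb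
        exact hb.2 (Finset.mem_insert_self _ _)

/-- support of `g⁻¹ h g h⁻¹` -/
theorem comm_support {α : Type u} [Fintype α] [DecidableEq α] (g h : Perm α) (Γ : Finset α) (hΓ : ∀ z ∈ Γ, h z = z)
    {z : α} (hz : (g⁻¹ * (h * g * h⁻¹)) z ≠ z) : ¬ (z ∈ Γ ∧ g z ∈ Γ) ∧ (z ∈ g.support ∨ z ∈ (h * g * h⁻¹).support) := by
  constructor
  · rintro ⟨h1, h2⟩
    apply hz
    have h3 : h⁻¹ z = z := by rw [Perm.inv_eq_iff_eq, hΓ z h1]
    change g⁻¹ (h (g (h⁻¹ z))) = z
    rw [h3, hΓ _ h2]
    exact g.symm_apply_apply z
  · by_contra hc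
    push Not at hc
    rw [Perm.notMem_support, Perm.notMem_support] at hc
    apply hz
    change g⁻¹ ((h * g * h⁻¹) z) = z
    rw [hc.2, Perm.inv_eq_iff_eq, hc.1]

theorem small_support {α : Type u} [Fintype α] [DecidableEq α] (G : Subgroup (Perm α)) {k : ℕ} (hk : 3 ≤ k)
    (hkn : k ≤ Fintype.card α) (hG : IsMultiplyPretransitive G α k) :
    ∀ m : ℕ, ∀ g ∈ G, g ≠ 1 → g.support.card = m → m < 2 * k - 2 → m < Fintype.card α →
      ∃ h ∈ G, h ≠ 1 ∧ h.support.card ≤ 3 := by
  intro m
  induction m using Nat.strong_induction_on with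
  | _ m ih =>
    intro g hg hg1 hm hmk hmn
    have hcard : ∀ h : Perm α, (h * g * h⁻¹).support.card = m := by
      intro h; rw [Perm.card_support_conj, hm]
    by_cases hmk2 : m ≤ k
    · -- m ≤ k
      obtain ⟨α₀, hα₀⟩ : ∃ a, a ∈ g.support := by
        rw [← Finset.nonempty_def, Finset.nonempty_iff_ne_empty]
        intro h; exact hg1 (Perm.support_eq_empty_iff.1 h)
      obtain ⟨γ, hγ⟩ : ∃ c, c ∉ g.support := by
        by_contra hc; push Not at hc
        have h1 : g.support = Finset.univ := Finset.eq_univ_iff_forall.2 hc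
        rw [h1, Finset.card_univ] at hm; omega
      have hγΓ : γ ∉ g.support.erase α₀ := fun h => hγ (Finset.mem_of_mem_erase h)
      obtain ⟨h, hhG, hh1, hh2⟩ := extend_fix G hkn hG (g.support.erase α₀) (by
        rw [Finset.card_erase_of_mem hα₀, hm]
        have : 0 < m := by rw [← hm]; exact Finset.card_pos.2 ⟨_, hα₀⟩
        omega) (Finset.notMem_erase _ _) hγΓ
      have hsupp : ∀ z, z ∈ (h * g * h⁻¹).support → z ∈ insert γ (g.support.erase α₀) := by
        intro z hz
        rw [Perm.support_conj, Finset.mem_map] at hz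
        obtain ⟨w, hw, hwz⟩ := hz
        change h w = z at hwz
        by_cases hwa : w = α₀
        · rw [hwa, hh2] at hwz; rw [← hwz]; exact Finset.mem_insert_self _ _
        · rw [hh1 w (Finset.mem_erase.2 ⟨hwa, hw⟩)] at hwz
          rw [← hwz]; exact Finset.mem_insert_of_mem (Finset.mem_erase.2 ⟨hwa, hw⟩)
      refine ⟨g⁻¹ * (h * g * h⁻¹), G.mul_mem (G.inv_mem hg) (G.mul_mem (G.mul_mem hhG hg) (G.inv_mem hhG)), ?_, ?_⟩
      · intro h1
        rw [inv_mul_eq_one] at h1
        have h2 : γ ∈ (h * g * h⁻¹).support := by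
          rw [Perm.support_conj, Finset.mem_map]; exact ⟨α₀, hα₀, hh2⟩
        rw [← h1] at h2; exact hγ h2
      · have h1 : (g⁻¹ * (h * g * h⁻¹)).support ⊆ {α₀, γ, g⁻¹ α₀} := by
          intro z hz
          rw [Perm.mem_support] at hz
          obtain ⟨h2, h3⟩ := comm_support g h _ hh1 hz
          simp only [Finset.mem_insert, Finset.mem_singleton]
          by_contra hc; push Not at hc
          have h4 : z ∈ g.support := by
            rcases h3 with h3 | h3
            · exact h3
            · have h5 := hsupp z h3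
              rw [Finset.mem_insert] at h5
              rcases h5 with h5 | h5
              · exact absurd h5 hc.2.1
              · exact Finset.mem_of_mem_erase h5
          apply h2
          refine ⟨Finset.mem_erase.2 ⟨hc.1, h4⟩, Finset.mem_erase.2 ⟨?_, Perm.apply_mem_support.2 h4⟩⟩
          intro h5
          apply hc.2.2
          rw [← h5]; exact (g.symm_apply_apply z).symm
        exact (Finset.card_le_card h1).trans Finset.card_le_three
    · -- m ≥ k + 1
      push Not at hmk2
      obtain ⟨Γ, hΓ1, hΓ2, hΓ3⟩ := exists_chain g (k - 1) (by omega)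
      -- general counting
      have key : ∀ (h : Perm α), h ∈ G → (∀ z ∈ Γ, h z = z) → h * g * h⁻¹ ≠ g → ∀ D : Finset α,
          Γ ⊆ D → D ⊆ g.support → D ⊆ (h * g * h⁻¹).support → D.card + (Γ.filter (fun a => g a ∈ Γ)).card = 2 * k - 2 →
          ∃ h ∈ G, h ≠ 1 ∧ h.support.card ≤ 3 := by
        intro h hhG hh1 hne D hD0 hD1 hD2 hDc
        have hmem : g⁻¹ * (h * g * h⁻¹) ∈ G := G.mul_mem (G.inv_mem hg) (G.mul_mem (G.mul_mem hhG hg) (G.inv_mem hhG))
        have hne1 : g⁻¹ * (h * g * h⁻¹) ≠ 1 := by
          intro h1; rw [inv_mul_eq_one] at h1; exact hne h1.symm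
        have hcU : (g.support ∪ (h * g * h⁻¹).support).card + D.card ≤ 2 * m := by
          have h1 := Finset.card_union_add_card_inter g.support (h * g * h⁻¹).support
          rw [hm, hcard h] at h1
          have h2 : D.card ≤ (g.support ∩ (h * g * h⁻¹).support).card := Finset.card_le_card (Finset.subset_inter hD1 hD2)
          omega
        have hsub : (g⁻¹ * (h * g * h⁻¹)).support ⊆ (g.support ∪ (h * g * h⁻¹).support) \ (Γ.filter (fun a => g a ∈ Γ)) := by
          intro z hz
          rw [Perm.mem_support] at hz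
          obtain ⟨h2, h3⟩ := comm_support g h _ hh1 hz
          rw [Finset.mem_sdiff, Finset.mem_union, Finset.mem_filter]
          exact ⟨h3, h2⟩
        have hsub2 : Γ.filter (fun a => g a ∈ Γ) ⊆ g.support ∪ (h * g * h⁻¹).support :=
          (Finset.filter_subset _ _).trans (hΓ1.trans Finset.subset_union_left)
        have hlt : (g⁻¹ * (h * g * h⁻¹)).support.card < m := by
          have h1 := Finset.card_le_card hsub
          rw [Finset.card_sdiff_of_subset hsub2] at h1
          have h2 := Finset.card_le_card hsub2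
          omega
        exact ih _ hlt _ hmem hne1 rfl (by omega) (by omega)
      have hsplit := Finset.card_filter_add_card_filter_not (s := Γ) (fun a => g a ∈ Γ)
      have hΓfix : ∀ h : Perm α, (∀ z ∈ Γ, h z = z) → Γ ⊆ (h * g * h⁻¹).support := by
        intro h hh z hz
        rw [Perm.support_conj, Finset.mem_map]
        exact ⟨z, hΓ1 hz, hh z hz⟩
      rcases Nat.eq_zero_or_pos (Γ.filter (fun a => g a ∉ Γ)).card with h4 | h4
      · obtain ⟨x, hx, hxΓ⟩ := Finset.exists_mem_notMem_of_card_lt_card (show Γ.card < g.support.card by omega)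
        obtain ⟨γ, hγ⟩ : ∃ c, c ∉ g.support := by
          by_contra hc; push Not at hc
          have h1 : g.support = Finset.univ := Finset.eq_univ_iff_forall.2 hc
          rw [h1, Finset.card_univ] at hm; omega
        obtain ⟨h, hhG, hh1, hh2⟩ := extend_fix G hkn hG Γ (by omega) hxΓ (fun h => hγ (hΓ1 h))
        refine key h hhG hh1 ?_ Γ (Finset.Subset.refl _) hΓ1 (hΓfix h hh1) (by omega)
        intro h1
        apply hγ
        rw [← h1, Perm.support_conj, Finset.mem_map]; exact ⟨x, hx, hh2⟩
      · obtain ⟨a, ha⟩ := Finset.card_pos.1 h4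
        rw [Finset.mem_filter] at ha
        obtain ⟨γ, hγ, hγΓ⟩ := Finset.exists_mem_notMem_of_card_lt_card (s := insert (g a) Γ) (t := g.support) (by
          rw [Finset.card_insert_of_notMem ha.2]; omega)
        rw [Finset.mem_insert, not_or] at hγΓ
        obtain ⟨h, hhG, hh1, hh2⟩ := extend_fix G hkn hG Γ (by omega) ha.2 hγΓ.2
        have hγ2 : γ ∈ (h * g * h⁻¹).support := by
          rw [Perm.support_conj, Finset.mem_map]
          exact ⟨g a, Perm.apply_mem_support.2 (hΓ1 ha.1), hh2⟩
        refine key h hhG hh1 ?_ (insert γ Γ) (Finset.subset_insert _ _) (Finset.insert_subset hγ hΓ1)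
          (Finset.insert_subset hγ2 (hΓfix h hh1)) ?_
        · intro h1
          have h2 : (h * g * h⁻¹) a = g a := by rw [h1]
          have h3 : h⁻¹ a = a := by rw [Perm.inv_eq_iff_eq, hh1 a ha.1]
          change h (g (h⁻¹ a)) = g a at h2
          rw [h3, hh2] at h2
          exact hγΓ.1 h2
        · rw [Finset.card_insert_of_notMem hγΓ.2]; omega

theorem min_degree {α : Type u} [Fintype α] [DecidableEq α] (G : Subgroup (Perm α)) {k : ℕ} (hk : 3 ≤ k)
    (hkn : k ≤ Fintype.card α) (hG : IsMultiplyPretransitive G α k) (g : Perm α) (hg : g ∈ G) (hg1 : g ≠ 1)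
    (hsupp : g.support.card < 2 * k - 2) : ∃ h ∈ G, h ≠ 1 ∧ h.support.card ≤ 3 := by
  rcases Nat.lt_or_ge (g.support.card) (Fintype.card α) with h1 | h1
  · exact small_support G hk hkn hG _ g hg hg1 rfl hsupp h1
  · -- n ≤ 2k - 3
    obtain ⟨Γ, -, hΓ⟩ := Finset.exists_subset_card_eq (show k - 1 ≤ (Finset.univ : Finset α).card by
      rw [Finset.card_univ]; omega)
    rcases Nat.lt_or_ge k (Fintype.card α) with h2 | h2
    · obtain ⟨x, hx, hxΓ⟩ := Finset.exists_mem_notMem_of_card_lt_card (s := Γ) (t := Finset.univ) (by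
        rw [Finset.card_univ]; omega)
      obtain ⟨y, hy, hyΓ⟩ := Finset.exists_mem_notMem_of_card_lt_card (s := insert x Γ) (t := Finset.univ) (by
        rw [Finset.card_insert_of_notMem hxΓ, Finset.card_univ]; omega)
      rw [Finset.mem_insert, not_or] at hyΓ
      obtain ⟨h, hhG, hh1, hh2⟩ := extend_fix G hkn hG Γ (by omega) hxΓ hyΓ.2
      have hcard : h.support.card ≤ Fintype.card α - (k - 1) := by
        have h3 : h.support ⊆ Γᶜ := by
          intro z hz
          rw [Finset.mem_compl]
          intro hzΓ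
          rw [Perm.mem_support] at hz
          exact hz (hh1 z hzΓ)
        have h4 := Finset.card_le_card h3
        rwa [Finset.card_compl, hΓ] at h4
      refine small_support G hk hkn hG _ h hhG ?_ rfl (by omega) (by omega)
      intro h3
      rw [h3] at hh2
      exact hyΓ.1 hh2.symm
    · have h3 : k = Nat.card α := by rw [Nat.card_eq_fintype_card]; omega
      have h4 : G = ⊤ := by
        apply Equiv.Perm.eq_top_of_isMultiplyPretransitive
        exact isMultiplyPretransitive_of_le (G := G) (n := k) (by omega) (by omega)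
      haveI : Nontrivial α := by
        rw [← Fintype.one_lt_card_iff_nontrivial]; omega
      obtain ⟨x, y, hxy⟩ := exists_pair_ne α
      refine ⟨swap x y, by rw [h4]; trivial, ?_, ?_⟩
      · intro h5
        have h6 : swap x y x = x := by rw [h5]; rfl
        rw [swap_apply_left] at h6
        exact hxy h6.symm
      · rw [Perm.card_support_swap hxy]; omega

theorem alt_of_support_le_three {α : Type u} [Fintype α] [DecidableEq α] (G : Subgroup (Perm α)) (hG : IsPreprimitive G α)
    (h : Perm α) (hh : h ∈ G) (h1 : h ≠ 1) (h3 : h.support.card ≤ 3) : alternatingGroup α ≤ G := by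
  have h4 : h.support.card ≠ 0 := by
    rw [Finset.card_ne_zero, Finset.nonempty_iff_ne_empty]
    intro h5; exact h1 (Perm.support_eq_empty_iff.1 h5)
  have h5 : h.support.card ≠ 1 := Perm.card_support_ne_one h
  rcases (show h.support.card = 2 ∨ h.support.card = 3 by omega) with h6 | h6
  · rw [Perm.card_support_eq_two] at h6
    rw [Perm.subgroup_eq_top_of_isPreprimitive_of_isSwap_mem hG h h6 hh]
    exact le_top
  · rw [card_support_eq_three_iff] at h6
    exact Perm.alternatingGroup_le_of_isPreprimitive_of_isThreeCycle_mem hG h6 hh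

end CfsgH2
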