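import Mathlib
import Cfsg.Agent.H2.PermH
import Cfsg.Agent.H2.PermC

/-! # Homogeneous groups (helper2 library) -/

set_option autoImplicit false

namespace CfsgH2

open Subgroup Equiv MulAction
open scoped Pointwise

universe u v

theorem homog_iff {α : Type u} [Fintype α] [DecidableEq α] {G : Subgroup (Perm α)} {k : ℕ} :
    IsPretransitive G (Set.powersetCard α k) ↔
      ∀ s t : Finset α, s.card = k → t.card = k → ∃ g ∈ G, s.image g = t := by
  constructor
  · intro h s t hs ht
    obtain ⟨g, hg⟩ := h.exists_smul_eq (⟨s, hs⟩ : Set.powersetCard α k) ⟨t, ht⟩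
    exact ⟨g, g.2, congrArg Subtype.val hg⟩
  · intro h
    refine ⟨fun s t => ?_⟩
    obtain ⟨g, hg, hst⟩ := h s.1 t.1 s.2 t.2
    exact ⟨⟨g, hg⟩, Subtype.ext hst⟩

theorem choose_pow_mod {p : ℕ} [hp : Fact p.Prime] (m e : ℕ) :
    (p ^ e * m + (p ^ e - 1)).choose (p ^ e - 1) ≡ 1 [MOD p] := by
  induction e with
  | zero => simp; rfl
  | succ e ih =>
    have hp2 := hp.out.two_le
    have hpe : 0 < p ^ e := pow_pos hp.out.pos e
    have h1 := Choose.choose_modEq_choose_mod_mul_choose_div_nat (n := p ^ (e + 1) * m + (p ^ (e + 1) - 1)) (k := p ^ (e + 1) - 1) (p := p)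
    have hk : p ^ (e + 1) - 1 = p * (p ^ e - 1) + (p - 1) := by
      obtain ⟨c, hc⟩ : ∃ c, p ^ e = c + 1 := ⟨p ^ e - 1, by omega⟩
      rw [pow_succ, hc, Nat.add_sub_cancel]
      have : (c + 1) * p = p * c + p := by ring
      rw [this]; omega
    have hn : p ^ (e + 1) * m + (p ^ (e + 1) - 1) = p * (p ^ e * m + (p ^ e - 1)) + (p - 1) := by
      rw [hk, pow_succ]; ring
    have h2 : (p ^ (e + 1) - 1) % p = p - 1 := by
      rw [hk, Nat.mul_add_mod, Nat.mod_eq_of_lt (by omega)]
    have h3 : (p ^ (e + 1) - 1) / p = p ^ e - 1 := by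
      rw [hk, Nat.mul_add_div (by omega), Nat.div_eq_of_lt (by omega), add_zero]
    have h4 : (p ^ (e + 1) * m + (p ^ (e + 1) - 1)) % p = p - 1 := by
      rw [hn, Nat.mul_add_mod, Nat.mod_eq_of_lt (by omega)]
    have h5 : (p ^ (e + 1) * m + (p ^ (e + 1) - 1)) / p = p ^ e * m + (p ^ e - 1) := by
      rw [hn, Nat.mul_add_div (by omega), Nat.div_eq_of_lt (by omega), add_zero]
    rw [h2, h3, h4, h5, Nat.choose_self, one_mul] at h1
    exact h1.trans ih

theorem homog_descend {α : Type u} [Fintype α] [DecidableEq α] (G : Subgroup (Perm α)) {k : ℕ} (hk : 2 ≤ k)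
    (hG : IsPretransitive G (Set.powersetCard α k))
    (hq : ∀ q : ℕ, IsPrimePow q → q ∣ k → k + q - 1 ≤ Fintype.card α) :
    IsPretransitive G (Set.powersetCard α (k - 1)) := by
  classical
  rw [homog_iff] at hG ⊢
  have hkn : k ≤ Fintype.card α := by
    have hp := Nat.minFac_prime (show k ≠ 1 by omega)
    have h1 := hq _ hp.isPrimePow (Nat.minFac_dvd k)
    have := hp.two_le
    omega
  intro S₀ S₁ hS₀ hS₁
  let A : Finset (Finset α) := Finset.univ.filter (fun S => ∃ g ∈ G, S₀.image g = S)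
  have hA : ∀ S, S ∈ A ↔ ∃ g ∈ G, S₀.image g = S := by intro S; simp [A]
  have hAcard : ∀ S ∈ A, S.card = k - 1 := by
    intro S hS
    obtain ⟨g, -, rfl⟩ := (hA S).1 hS
    rw [Finset.card_image_of_injective _ g.injective, hS₀]
  have hAG : ∀ g ∈ G, ∀ S, S.image g ∈ A ↔ S ∈ A := by
    intro g hg S
    rw [hA, hA]
    constructor
    · rintro ⟨h, hh, hh2⟩
      refine ⟨g⁻¹ * h, G.mul_mem (G.inv_mem hg) hh, ?_⟩
      have h1 : (S₀.image h).image (g⁻¹ : Perm α) = (S.image g).image (g⁻¹ : Perm α) := by rw [hh2]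
      rw [Finset.image_image, Finset.image_image] at h1
      have h2 : ((g⁻¹ : Perm α) : α → α) ∘ g = id := by
        funext x; exact g.symm_apply_apply x
      rw [h2, Finset.image_id] at h1
      exact h1
    · rintro ⟨h, hh, hh2⟩
      refine ⟨g * h, G.mul_mem hg hh, ?_⟩
      rw [← hh2, Finset.image_image]; rfl
  -- the constant a
  obtain ⟨K₀, hK₀s, hK₀⟩ : ∃ K₀ : Finset α, S₀ ⊆ K₀ ∧ K₀.card = k := by
    obtain ⟨K, h1, h2, h3⟩ := Finset.exists_subsuperset_card_eq (s := S₀) (t := Finset.univ) (Finset.subset_univ _)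
      (n := k) (by omega) (by rw [Finset.card_univ]; exact hkn)
    exact ⟨K, h1, h3⟩
  obtain ⟨a, ha⟩ : ∃ a, a = (A.filter (fun S => S ⊆ K₀)).card := ⟨_, rfl⟩
  have hconst : ∀ K : Finset α, K.card = k → (A.filter (fun S => S ⊆ K)).card = a := by
    intro K hK
    obtain ⟨g, hg, hgK⟩ := hG K₀ K hK₀ hK
    rw [ha]
    symm
    apply Finset.card_bij (fun S _ => S.image g)
    · intro S hS
      rw [Finset.mem_filter] at hS ⊢
      exact ⟨(hAG g hg S).2 hS.1, by rw [← hgK]; exact Finset.image_subset_image hS.2⟩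
    · intro S _ S' _ h
      exact Finset.image_injective g.injective h
    · intro S hS
      rw [Finset.mem_filter] at hS
      have h2 : (g : α → α) ∘ (g⁻¹ : Perm α) = id := by
        funext x; exact g.apply_symm_apply x
      have h3 : ((g⁻¹ : Perm α) : α → α) ∘ g = id := by
        funext x; exact g.symm_apply_apply x
      have h4 : (S.image (g⁻¹ : Perm α)).image g = S := by
        rw [Finset.image_image, h2, Finset.image_id]
      refine ⟨S.image (g⁻¹ : Perm α), ?_, h4⟩
      rw [Finset.mem_filter]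
      refine ⟨(hAG g hg _).1 (by rw [h4]; exact hS.1), ?_⟩
      have h5 : K.image (g⁻¹ : Perm α) = K₀ := by
        rw [← hgK, Finset.image_image, h3, Finset.image_id]
      rw [← h5]; exact Finset.image_subset_image hS.2
  have ha0 : 0 < a := by
    rw [ha, Finset.card_pos]
    exact ⟨S₀, Finset.mem_filter.2 ⟨(hA S₀).2 ⟨1, G.one_mem, by simp⟩, hK₀s⟩⟩
  have hak : ∀ K : Finset α, K.card = k → A.filter (fun S => S ⊆ K) ⊆ K.powersetCard (k - 1) := by
    intro K hK S hS
    rw [Finset.mem_filter] at hS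
    rw [Finset.mem_powersetCard]
    exact ⟨hS.2, hAcard S hS.1⟩
  have hcardK : ∀ K : Finset α, K.card = k → (K.powersetCard (k - 1)).card = k := by
    intro K hK
    rw [Finset.card_powersetCard, hK]
    obtain ⟨j, rfl⟩ : ∃ j, k = j + 1 := ⟨k - 1, by omega⟩
    rw [Nat.add_sub_cancel]
    exact Nat.choose_succ_self_right j
  have hale : a ≤ k := by
    have h1 := Finset.card_le_card (hak K₀ hK₀)
    rwa [hcardK K₀ hK₀, ← ha] at h1
  -- divisibility
  have hdvd : k ∣ a := by
    rw [← Nat.factorization_prime_le_iff_dvd (by omega) (by omega)]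
    intro p hp
    haveI : Fact p.Prime := ⟨hp⟩
    obtain ⟨e, he⟩ : ∃ e, e = k.factorization p := ⟨_, rfl⟩
    rw [← he]
    rcases Nat.eq_zero_or_pos e with h0 | hpos
    · rw [h0]; exact Nat.zero_le _
    · rw [← hp.pow_dvd_iff_le_factorization (by omega)]
      have hqk : p ^ e ∣ k := by rw [he]; exact Nat.ordProj_dvd k p
      have hq1 : 1 ≤ p ^ e := Nat.one_le_iff_ne_zero.2 (pow_pos hp.pos e).ne'
      have hle := hq (p ^ e) (hp.isPrimePow.pow hpos.ne') hqk
      obtain ⟨M, -, hM⟩ := Finset.exists_subset_card_eq (s := (Finset.univ : Finset α)) (n := k + p ^ e - 1) (by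
        rw [Finset.card_univ]; exact hle)
      have hdc := Finset.sum_card_bipartiteAbove_eq_sum_card_bipartiteBelow (s := M.powersetCard k)
        (t := A.filter (fun S => S ⊆ M)) (fun K S => S ⊆ K)
      have h1 : ∀ K ∈ M.powersetCard k, ((A.filter (fun S => S ⊆ M)).bipartiteAbove (fun K S => S ⊆ K) K).card = a := by
        intro K hK
        rw [Finset.mem_powersetCard] at hK
        rw [← hconst K hK.2]
        congr 1
        ext S
        simp only [Finset.mem_bipartiteAbove, Finset.mem_filter]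
        exact ⟨fun h => ⟨h.1.1, h.2⟩, fun h => ⟨⟨h.1, h.2.trans hK.1⟩, h.2⟩⟩
      have h2 : ∀ S ∈ A.filter (fun S => S ⊆ M), ((M.powersetCard k).bipartiteBelow (fun K S => S ⊆ K) S).card = p ^ e := by
        intro S hS
        rw [Finset.mem_filter] at hS
        have hSc := hAcard S hS.1
        have h3 : (M \ S).card = p ^ e := by
          rw [Finset.card_sdiff_of_subset hS.2, hM, hSc]; omega
        rw [← h3]
        symm
        apply Finset.card_bij (fun x _ => insert x S)
        · intro x hx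
          rw [Finset.mem_sdiff] at hx
          rw [Finset.mem_bipartiteBelow, Finset.mem_powersetCard]
          exact ⟨⟨Finset.insert_subset hx.1 hS.2, by rw [Finset.card_insert_of_notMem hx.2, hSc]; omega⟩,
            Finset.subset_insert _ _⟩
        · intro x hx y hy hxy
          rw [Finset.mem_sdiff] at hx hy
          have h4 : x ∈ insert y S := by rw [← hxy]; exact Finset.mem_insert_self _ _
          rw [Finset.mem_insert] at h4
          exact h4.resolve_right hx.2
        · intro K hK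
          rw [Finset.mem_bipartiteBelow, Finset.mem_powersetCard] at hK
          have h4 : (K \ S).card = 1 := by
            rw [Finset.card_sdiff_of_subset hK.2, hK.1.2, hSc]; omega
          obtain ⟨x, hx⟩ := Finset.card_eq_one.1 h4
          have hxK : x ∈ K \ S := by rw [hx]; exact Finset.mem_singleton_self x
          rw [Finset.mem_sdiff] at hxK
          refine ⟨x, Finset.mem_sdiff.2 ⟨hK.1.1 hxK.1, hxK.2⟩, ?_⟩
          apply Finset.eq_of_subset_of_card_le (Finset.insert_subset hxK.1 hK.2)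
          rw [Finset.card_insert_of_notMem hxK.2, hSc, hK.1.2]; omega
      rw [Finset.sum_congr rfl h1, Finset.sum_congr rfl h2, Finset.sum_const, Finset.sum_const, smul_eq_mul, smul_eq_mul,
        Finset.card_powersetCard, hM] at hdc
      have h3 : p ^ e ∣ (k + p ^ e - 1).choose k * a := ⟨_, by rw [hdc, mul_comm]⟩
      have h4 : Nat.Coprime (p ^ e) ((k + p ^ e - 1).choose k) := by
        apply Nat.Coprime.pow_left
        rw [hp.coprime_iff_not_dvd]
        intro h5
        obtain ⟨m, hm⟩ := hqk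
        have h6 : (k + p ^ e - 1).choose k = (p ^ e * m + (p ^ e - 1)).choose (p ^ e - 1) := by
          rw [show k + p ^ e - 1 = p ^ e * m + (p ^ e - 1) by omega]
          rw [← Nat.choose_symm_add (a := p ^ e * m) (b := p ^ e - 1), ← hm]
        rw [h6] at h5
        have h7 := (choose_pow_mod (p := p) m e).dvd_iff (dvd_refl p)
        have h8 := h7.1 h5
        have := hp.two_le
        have := Nat.le_of_dvd one_pos h8
        omega
      exact h4.dvd_of_dvd_mul_left h3
  have hak2 : a = k := le_antisymm hale (Nat.le_of_dvd ha0 hdvd)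
  -- every (k-1)-set is in A
  obtain ⟨K₁, hK₁s, hK₁⟩ : ∃ K₁ : Finset α, S₁ ⊆ K₁ ∧ K₁.card = k := by
    obtain ⟨K, h1, h2, h3⟩ := Finset.exists_subsuperset_card_eq (s := S₁) (t := Finset.univ) (Finset.subset_univ _)
      (n := k) (by omega) (by rw [Finset.card_univ]; exact hkn)
    exact ⟨K, h1, h3⟩
  have h1 : A.filter (fun S => S ⊆ K₁) = K₁.powersetCard (k - 1) := by
    apply Finset.eq_of_subset_of_card_le (hak K₁ hK₁)
    rw [hcardK K₁ hK₁, hconst K₁ hK₁, hak2]
  have h2 : S₁ ∈ A.filter (fun S => S ⊆ K₁) := by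
    rw [h1, Finset.mem_powersetCard]; exact ⟨hK₁s, hS₁⟩
  exact (hA S₁).1 (Finset.mem_filter.1 h2).1

end CfsgH2
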