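import Mathlib

/-! # Translation invariant subspaces (helper2 library) -/

set_option autoImplicit false

namespace CfsgH2

open Polynomial

universe u v

section

variable {p : ℕ} [hp : Fact p.Prime] {K : Type u} [Field K] [CharP K p]

theorem natCast_ne_zero_of_lt {d : ℕ} (h0 : 0 < d) (h : d < p) : (d : K) ≠ 0 := by
  intro h1
  rw [CharP.cast_eq_zero_iff K p] at h1
  exact absurd (Nat.le_of_dvd h0 h1) (by omega)

theorem shift_degree {P : K[X]} {d : ℕ} (hd : P.natDegree = d + 1) (hdp : d + 1 < p) :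
    (P - taylor (-1) P).natDegree = d := by
  have hlc : P.coeff (d + 1) ≠ 0 := by
    rw [← hd]
    exact leadingCoeff_ne_zero.2 (by rintro rfl; simp at hd)
  apply natDegree_eq_of_le_of_coeff_ne_zero
  · rw [natDegree_le_iff_coeff_eq_zero]
    intro N hN
    rw [coeff_sub, sub_eq_zero]
    rcases Nat.lt_or_ge (d + 1) N with h1 | h1
    · rw [coeff_eq_zero_of_natDegree_lt (by omega), coeff_eq_zero_of_natDegree_lt (by rw [natDegree_taylor]; omega)]
    · have h2 : N = d + 1 := by omega
      rw [h2, taylor_coeff, eval_eq_sum_range' (n := 1) (lt_of_le_of_lt (natDegree_hasseDeriv_le P (d + 1)) (by omega))]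
      simp [hasseDeriv_coeff]
  · rw [coeff_sub, taylor_coeff, eval_eq_sum_range' (n := 2) (lt_of_le_of_lt (natDegree_hasseDeriv_le P d) (by omega)),
      Finset.sum_range_succ, Finset.sum_range_one, hasseDeriv_coeff, hasseDeriv_coeff]
    have h1 : ((1 + d).choose d : K) = ((d + 1 : ℕ) : K) := by
      rw [add_comm 1 d, Nat.choose_succ_self_right]
    rw [h1, zero_add, Nat.choose_self, add_comm 1 d]
    have h2 : P.coeff d - (((1 : ℕ) : K) * P.coeff d * (-1) ^ 0 + ((d + 1 : ℕ) : K) * P.coeff (d + 1) * (-1) ^ 1) =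
        ((d + 1 : ℕ) : K) * P.coeff (d + 1) := by push_cast; ring
    rw [h2]
    exact mul_ne_zero (natCast_ne_zero_of_lt (p := p) (Nat.succ_pos d) hdp) hlc

/-- the function attached to a polynomial -/
noncomputable def pf (p : ℕ) [Fact p.Prime] (K : Type u) [Field K] : K[X] →ₗ[K] (ZMod p → K) where
  toFun P j := P.eval (ZMod.cast j : K)
  map_add' P Q := by funext j; simp
  map_smul' c P := by funext j; simp

theorem pf_apply (P : K[X]) (j : ZMod p) : pf p K P j = P.eval (ZMod.cast j : K) := rfl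

theorem cast_inj : Function.Injective (fun j : ZMod p => (ZMod.cast j : K)) :=
  (ZMod.castHom (dvd_refl p) K).injective

theorem pf_shift (P : K[X]) (j : ZMod p) : pf p K P (j - 1) = pf p K (taylor (-1) P) j := by
  rw [pf_apply, pf_apply, taylor_apply, eval_comp, eval_add, eval_X, eval_C]
  congr 1
  have h := map_sub (ZMod.castHom (dvd_refl p) K) j 1
  rw [map_one] at h
  rw [← sub_eq_add_neg]
  exact h

theorem pf_injOn {P Q : K[X]} (hP : P.degree < p) (hQ : Q.degree < p) (h : pf p K P = pf p K Q) : P = Q := by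
  apply eq_of_degrees_lt_of_eval_index_eq (s := (Finset.univ : Finset (ZMod p))) (v := fun j => (ZMod.cast j : K))
    ((cast_inj (p := p) (K := K)).injOn)
  · rw [Finset.card_univ, ZMod.card]; exact hP
  · rw [Finset.card_univ, ZMod.card]; exact hQ
  · intro j _; exact congrFun h j

theorem pf_surj (f : ZMod p → K) : ∃ P : K[X], P.degree < p ∧ pf p K P = f := by
  refine ⟨Lagrange.interpolate Finset.univ (fun j : ZMod p => (ZMod.cast j : K)) f, ?_, ?_⟩
  · have h := Lagrange.degree_interpolate_lt (s := (Finset.univ : Finset (ZMod p))) (v := fun j => (ZMod.cast j : K)) f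
      ((cast_inj (p := p) (K := K)).injOn)
    rwa [Finset.card_univ, ZMod.card] at h
  · funext j
    exact Lagrange.eval_interpolate_at_node f ((cast_inj (p := p) (K := K)).injOn) (Finset.mem_univ j)

theorem degree_closure {W : Submodule K (ZMod p → K)} (hW : ∀ f ∈ W, (fun j => f (j - 1)) ∈ W) :
    ∀ (d : ℕ) (P : K[X]), P ≠ 0 → P.natDegree = d → d < p → pf p K P ∈ W → ∀ Q : K[X], Q.natDegree ≤ d → pf p K Q ∈ W := by
  intro d
  induction d with
  | zero =>
    intro P hP0 hPd _ hPW Q hQ
    obtain ⟨c, hc⟩ := natDegree_eq_zero.1 hPd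
    obtain ⟨e, he⟩ := natDegree_eq_zero.1 (Nat.le_zero.1 hQ)
    have hc0 : c ≠ 0 := by rintro rfl; apply hP0; rw [← hc]; simp
    have h1 : Q = (e / c) • P := by
      rw [← hc, ← he, smul_C, smul_eq_mul, div_mul_cancel₀ _ hc0]
    rw [h1, map_smul]
    exact W.smul_mem _ hPW
  | succ d ih =>
    intro P hP0 hPd hdp hPW Q hQ
    have h1 : pf p K (P - taylor (-1) P) ∈ W := by
      rw [map_sub]
      refine W.sub_mem hPW ?_
      have h2 := hW _ hPW
      have h3 : (fun j => pf p K P (j - 1)) = pf p K (taylor (-1) P) := funext fun j => pf_shift P j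
      rwa [h3] at h2
    have h2 := shift_degree (p := p) hPd hdp
    have h3 : P - taylor (-1) P ≠ 0 := by
      intro h4
      have h5 : P.coeff (d + 1) ≠ 0 := by
        rw [← hPd]; exact leadingCoeff_ne_zero.2 hP0
      -- coefficient d of the difference
      have h6 : (P - taylor (-1) P).coeff d = ((d + 1 : ℕ) : K) * P.coeff (d + 1) := by
        rw [coeff_sub, taylor_coeff, eval_eq_sum_range' (n := 2) (lt_of_le_of_lt (natDegree_hasseDeriv_le P d) (by omega)),
          Finset.sum_range_succ, Finset.sum_range_one, hasseDeriv_coeff, hasseDeriv_coeff]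
        have h1 : ((1 + d).choose d : K) = ((d + 1 : ℕ) : K) := by
          rw [add_comm 1 d, Nat.choose_succ_self_right]
        rw [h1, zero_add, Nat.choose_self, add_comm 1 d]
        push_cast; ring
      rw [h4, coeff_zero] at h6
      exact mul_ne_zero (natCast_ne_zero_of_lt (p := p) (Nat.succ_pos d) hdp) h5 h6.symm
    have h4 := ih _ h3 h2 (by omega) h1
    -- subtract a multiple of P
    have hlc : P.coeff (d + 1) ≠ 0 := by rw [← hPd]; exact leadingCoeff_ne_zero.2 hP0
    have h5 : (Q - (Q.coeff (d + 1) / P.coeff (d + 1)) • P).natDegree ≤ d := by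
      rw [natDegree_le_iff_coeff_eq_zero]
      intro N hN
      rw [coeff_sub, coeff_smul, smul_eq_mul]
      rcases Nat.lt_or_ge (d + 1) N with h6 | h6
      · have h7 : P.coeff N = 0 := coeff_eq_zero_of_natDegree_lt (by omega)
        have h8 : Q.coeff N = 0 := coeff_eq_zero_of_natDegree_lt (by omega)
        rw [h7, h8, mul_zero, sub_zero]
      · have h7 : N = d + 1 := by omega
        rw [h7, div_mul_cancel₀ _ hlc, sub_self]
    have h6 := W.add_mem (h4 _ h5) (W.smul_mem (Q.coeff (d + 1) / P.coeff (d + 1)) hPW)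
    rwa [← map_smul, ← map_add, sub_add_cancel] at h6

theorem shift_inv {W : Submodule K (ZMod p → K)} (hW : ∀ f ∈ W, (fun j => f (j - 1)) ∈ W) :
    ∃ r : ℕ, r ≤ p ∧ Module.finrank K W = r ∧ ∀ f : ZMod p → K, f ∈ W ↔ ∃ P : K[X], P.degree < r ∧ pf p K P = f := by
  classical
  -- the characterisation
  have key : ∃ r : ℕ, r ≤ p ∧ ∀ f : ZMod p → K, f ∈ W ↔ ∃ P : K[X], P.degree < r ∧ pf p K P = f := by
    by_cases hbot : W = ⊥
    · refine ⟨0, Nat.zero_le _, fun f => ?_⟩
      rw [hbot, Submodule.mem_bot]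
      constructor
      · rintro rfl; exact ⟨0, by simp, by simp⟩
      · rintro ⟨P, hP, rfl⟩
        have : P = 0 := by
          rw [← degree_eq_bot]; exact Nat.WithBot.lt_zero_iff.1 (by exact_mod_cast hP)
        rw [this, map_zero]
    · let D : Finset ℕ := (Finset.range p).filter (fun d => ∃ P : K[X], P ≠ 0 ∧ P.natDegree = d ∧ pf p K P ∈ W)
      have hD : D.Nonempty := by
        obtain ⟨f, hf, hf0⟩ := (Submodule.ne_bot_iff _).1 hbot
        obtain ⟨P, hP, rfl⟩ := pf_surj f
        have hP0 : P ≠ 0 := by rintro rfl; exact hf0 (map_zero _)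
        refine ⟨P.natDegree, ?_⟩
        rw [Finset.mem_filter, Finset.mem_range]
        exact ⟨(natDegree_lt_iff_degree_lt hP0).2 hP, P, hP0, rfl, hf⟩
      obtain ⟨d, hd, hmax⟩ : ∃ d ∈ D, ∀ e ∈ D, e ≤ d := ⟨D.max' hD, D.max'_mem hD, fun e he => D.le_max' e he⟩
      rw [Finset.mem_filter, Finset.mem_range] at hd
      obtain ⟨hdp, P, hP0, hPd, hPW⟩ := hd
      refine ⟨d + 1, hdp, fun f => ?_⟩
      constructor
      · intro hf
        obtain ⟨Q, hQ, rfl⟩ := pf_surj f
        refine ⟨Q, ?_, rfl⟩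
        by_cases hQ0 : Q = 0
        · rw [hQ0, degree_zero]; exact WithBot.bot_lt_coe _
        · have h1 : Q.natDegree ∈ D := by
            rw [Finset.mem_filter, Finset.mem_range]
            exact ⟨(natDegree_lt_iff_degree_lt hQ0).2 hQ, Q, hQ0, rfl, hf⟩
          rw [← natDegree_lt_iff_degree_lt hQ0]
          exact Nat.lt_succ_of_le (hmax _ h1)
      · rintro ⟨Q, hQ, rfl⟩
        refine degree_closure hW d P hP0 hPd hdp hPW Q ?_
        by_cases hQ0 : Q = 0
        · rw [hQ0]; simp
        · rw [← natDegree_lt_iff_degree_lt hQ0] at hQ; omega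
  obtain ⟨r, hr, hW2⟩ := key
  refine ⟨r, hr, ?_, hW2⟩
  let φ : degreeLT K r →ₗ[K] W := LinearMap.codRestrict W ((pf p K).comp (degreeLT K r).subtype) (by
    rintro ⟨P, hP⟩
    exact (hW2 _).2 ⟨P, mem_degreeLT.1 hP, rfl⟩)
  have hφ : Function.Bijective φ := by
    constructor
    · rintro ⟨P, hP⟩ ⟨Q, hQ⟩ h
      apply Subtype.ext
      have h1 : pf p K P = pf p K Q := congrArg Subtype.val h
      exact pf_injOn (lt_of_lt_of_le (mem_degreeLT.1 hP) (by exact_mod_cast hr))
        (lt_of_lt_of_le (mem_degreeLT.1 hQ) (by exact_mod_cast hr)) h1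
    · rintro ⟨f, hf⟩
      obtain ⟨P, hP, hPf⟩ := (hW2 f).1 hf
      exact ⟨⟨P, mem_degreeLT.2 hP⟩, Subtype.ext hPf⟩
  rw [← (LinearEquiv.ofBijective φ hφ).finrank_eq, (degreeLTEquiv K r).finrank_eq, Module.finrank_fin_fun]

end

end CfsgH2
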