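import Mathlib
import Cfsg.Agent.H2.PrimeDeg
import Cfsg.Agent.H2.PermRep2

/-! # Permutation groups of prime degree (helper2 library) -/

set_option autoImplicit false

namespace CfsgH2

open Polynomial Cfsg MulAction

universe u v

theorem exists_coord {α : Type v} [Fintype α] [DecidableEq α] {p : ℕ} [hp : Fact p.Prime] (hα : Fintype.card α = p)
    (G : Subgroup (Equiv.Perm α)) [IsPretransitive G α] :
    ∃ σ ∈ G, ∃ e : ZMod p ≃ α, ∀ j, σ (e j) = e (j + 1) := by
  haveI : Nonempty α := by rw [← Fintype.card_pos_iff, hα]; exact hp.out.pos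
  obtain ⟨a₀⟩ := ‹Nonempty α›
  have h1 : p ∣ Nat.card G := by
    rw [← (stabilizer G a₀).card_mul_index, index_stabilizer_of_transitive, Nat.card_eq_fintype_card (α := α), hα]
    exact dvd_mul_left _ _
  obtain ⟨σ, hσ⟩ := exists_prime_orderOf_dvd_card' p h1
  have hσ' : orderOf (σ : Equiv.Perm α) = p := by rw [Subgroup.orderOf_coe]; exact hσ
  obtain ⟨x₀, hx₀⟩ : ∃ x, (σ : Equiv.Perm α) x ≠ x := by
    by_contra hc
    push Not at hc
    have h2 : (σ : Equiv.Perm α) = 1 := Equiv.ext hc
    rw [h2, orderOf_one] at hσ'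
    exact hp.out.one_lt.ne hσ'
  obtain ⟨s, hs⟩ : ∃ s, s = (σ : Equiv.Perm α) := ⟨_, rfl⟩
  rw [← hs] at hσ' hx₀
  have hpow : ∀ i : ℕ, (s ^ i) x₀ = x₀ → p ∣ i := by
    intro i hi
    by_contra hc
    have h2 : Nat.Coprime i p := ((hp.out.coprime_iff_not_dvd).2 hc).symm
    have h3 : ∃ m : ℕ, (s ^ i) ^ m = s := exists_pow_eq_self_of_coprime (by rw [hσ']; exact h2)
    obtain ⟨m, hm⟩ := h3
    apply hx₀
    conv_lhs => rw [← hm]
    clear hm
    induction m with
    | zero => rfl
    | succ m ih => rw [pow_succ, Equiv.Perm.mul_apply, hi, ih]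
  let f : ZMod p → α := fun j => (s ^ j.val) x₀
  have hinj : Function.Injective f := by
    have key : ∀ i j : ZMod p, i.val ≤ j.val → f i = f j → i = j := by
      intro i j hij h
      have h2 : (s ^ (j.val - i.val)) x₀ = x₀ := by
        have h3 : (s ^ i.val) ((s ^ (j.val - i.val)) x₀) = (s ^ i.val) x₀ := by
          rw [← Equiv.Perm.mul_apply, ← pow_add, Nat.add_sub_cancel' hij]
          exact h.symm
        exact (s ^ i.val).injective h3
      have h3 := hpow _ h2
      have h4 := ZMod.val_lt j
      have h5 : j.val - i.val = 0 := Nat.eq_zero_of_dvd_of_lt h3 (by omega)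
      exact ZMod.val_injective p (by omega)
    intro i j h
    rcases le_total i.val j.val with h2 | h2
    · exact key i j h2 h
    · exact (key j i h2 h.symm).symm
  have hbij : Function.Bijective f := by
    rw [Fintype.bijective_iff_injective_and_card]
    exact ⟨hinj, by rw [ZMod.card, hα]⟩
  refine ⟨σ, σ.2, Equiv.ofBijective f hbij, fun j => ?_⟩
  change (σ : Equiv.Perm α) ((s ^ j.val) x₀) = (s ^ (j + 1).val) x₀
  rw [← hs, ← Equiv.Perm.mul_apply, ← pow_succ']
  have h2 : s ^ (j.val + 1) = s ^ (j + 1).val := by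
    rw [pow_eq_pow_iff_modEq, hσ']
    have h3 : (((j + 1).val : ℕ) : ZMod p) = ((j.val + 1 : ℕ) : ZMod p) := by
      push_cast
      rw [ZMod.natCast_zmod_val, ZMod.natCast_zmod_val]
    exact ((ZMod.natCast_eq_natCast_iff _ _ _).1 h3).symm
  rw [h2]

/-- groups acting by affine maps on `ZMod p` are solvable -/
theorem solvable_of_affine {α : Type v} {p : ℕ} [hp : Fact p.Prime] (G : Subgroup (Equiv.Perm α)) (e : ZMod p ≃ α)
    (h : ∀ g ∈ G, ∀ x : ZMod p, e.symm (g (e x)) = (e.symm (g (e 1)) - e.symm (g (e 0))) * x + e.symm (g (e 0))) :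
    Group.IsSolvable G := by
  let s : G →* ZMod p :=
    { toFun := fun g => e.symm ((g : Equiv.Perm α) (e 1)) - e.symm ((g : Equiv.Perm α) (e 0))
      map_one' := by simp
      map_mul' := by
        intro g k
        have h1 : ∀ x, e.symm (((g * k : G) : Equiv.Perm α) (e x)) =
            e.symm ((g : Equiv.Perm α) (e (e.symm ((k : Equiv.Perm α) (e x))))) := by
          intro x; rw [Equiv.apply_symm_apply]; rfl
        simp only [h1]
        rw [h g g.2 (e.symm ((k : Equiv.Perm α) (e 1))), h g g.2 (e.symm ((k : Equiv.Perm α) (e 0)))]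
        ring }
  let s' : G →* (ZMod p)ˣ := s.toHomUnits
  have hker : ∀ g : G, g ∈ s'.ker → ∀ x : ZMod p, e.symm ((g : Equiv.Perm α) (e x)) = x + e.symm ((g : Equiv.Perm α) (e 0)) := by
    intro g hg x
    rw [MonoidHom.mem_ker] at hg
    have h1 : s g = 1 := congrArg Units.val hg
    have h2 : e.symm ((g : Equiv.Perm α) (e 1)) - e.symm ((g : Equiv.Perm α) (e 0)) = 1 := h1
    rw [h g g.2 x, h2, one_mul]
  haveI : IsMulCommutative s'.ker := by
    refine ⟨⟨fun a b => ?_⟩⟩
    apply Subtype.ext
    apply Subtype.ext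
    apply Equiv.ext
    intro z
    change ((a : G) : Equiv.Perm α) (((b : G) : Equiv.Perm α) z) = ((b : G) : Equiv.Perm α) (((a : G) : Equiv.Perm α) z)
    apply e.symm.injective
    obtain ⟨x, rfl⟩ := e.surjective z
    have h1 := hker b b.2 x
    have h2 := hker a a.2 x
    have h3 : e.symm (((a : G) : Equiv.Perm α) (((b : G) : Equiv.Perm α) (e x))) =
        e.symm (((a : G) : Equiv.Perm α) (e (e.symm (((b : G) : Equiv.Perm α) (e x))))) := by rw [Equiv.apply_symm_apply]
    have h4 : e.symm (((b : G) : Equiv.Perm α) (((a : G) : Equiv.Perm α) (e x))) =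
        e.symm (((b : G) : Equiv.Perm α) (e (e.symm (((a : G) : Equiv.Perm α) (e x))))) := by rw [Equiv.apply_symm_apply]
    rw [h3, h4, hker a a.2 (e.symm (((b : G) : Equiv.Perm α) (e x))), hker b b.2 (e.symm (((a : G) : Equiv.Perm α) (e x))), h1, h2]
    ring
  haveI : Group.IsSolvable s'.ker := Group.isSolvable_of_comm (fun a b => (IsMulCommutative.is_comm.comm a b))
  exact Group.isSolvable_of_ker_le_range s'.ker.subtype s' (by rw [Subgroup.range_subtype])

theorem affine_of_mid {α : Type v} [Fintype α] [DecidableEq α] {p : ℕ} [hp : Fact p.Prime] {K : Type u} [Field K]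
    [CharP K p] (G : Subgroup (Equiv.Perm α)) {σ : Equiv.Perm α} (hσ : σ ∈ G) (e : ZMod p ≃ α)
    (he : ∀ j, σ (e j) = e (j + 1)) (W : Subrepresentation (permRep K G α)) (h2 : 2 ≤ Module.finrank K W.toSubmodule)
    (hm : 2 * (Module.finrank K W.toSubmodule - 1) ≤ p - 1) :
    ∀ g ∈ G, ∀ x : ZMod p, e.symm (g (e x)) = (e.symm (g (e 1)) - e.symm (g (e 0))) * x + e.symm (g (e 0)) := by
  -- transport
  let T : (ZMod p → K) ≃ₗ[K] (α → K) := LinearEquiv.funCongrLeft K K e.symm
  have hT : ∀ f x, T f x = f (e.symm x) := fun f x => rfl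
  let W' : Submodule K (ZMod p → K) := W.toSubmodule.comap T.toLinearMap
  have hW'mem : ∀ f, f ∈ W' ↔ T f ∈ W.toSubmodule := fun f => Iff.rfl
  have hshift : ∀ f ∈ W', (fun j => f (j - 1)) ∈ W' := by
    intro f hf
    rw [hW'mem] at hf ⊢
    have h1 := W.apply_mem_toSubmodule ⟨σ, hσ⟩ hf
    have h3 : permRep K G α ⟨σ, hσ⟩ (T f) = T (fun j => f (j - 1)) := by
      funext x
      rw [CfsgH2.permRep_apply, hT, hT]
      congr 1
      change e.symm (σ⁻¹ x) = e.symm x - 1
      rw [Equiv.symm_apply_eq, Equiv.Perm.inv_eq_iff_eq, he, sub_add_cancel, Equiv.apply_symm_apply]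
    rwa [h3] at h1
  obtain ⟨r, hr, hfr, hchar⟩ := shift_inv hshift
  have hrW : Module.finrank K W.toSubmodule = r := by
    rw [← hfr]
    exact (LinearEquiv.finrank_eq (T.ofSubmodule' W.toSubmodule)).symm
  rw [hrW] at h2 hm
  have hp2 := hp.out.two_le
  intro g hg
  obtain ⟨γ, hγ⟩ : ∃ γ : ZMod p → ZMod p, γ = fun x => e.symm (g (e x)) := ⟨_, rfl⟩
  have hγW : ∀ f ∈ W', (fun x => f (γ x)) ∈ W' := by
    intro f hf
    rw [hW'mem] at hf ⊢
    have h1 := W.apply_mem_toSubmodule ⟨g⁻¹, G.inv_mem hg⟩ hf
    have h3 : permRep K G α ⟨g⁻¹, G.inv_mem hg⟩ (T f) = T (fun x => f (γ x)) := by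
      funext x
      rw [CfsgH2.permRep_apply, hT, hT, hγ]
      simp only
      rw [Equiv.apply_symm_apply]
      rfl
    rwa [h3] at h1
  -- the identity function
  have hX : pf p K X ∈ W' := (hchar _).2 ⟨X, lt_of_le_of_lt degree_X_le (by exact_mod_cast (by omega : 1 < r)), rfl⟩
  obtain ⟨Q, hQr, hQ⟩ := (hchar _).1 (hγW _ hX)
  have hQγ : ∀ x, Q.eval (ZMod.cast x : K) = (ZMod.cast (γ x) : K) := by
    intro x
    have h1 := congrFun hQ x
    rw [pf_apply] at h1
    rw [h1, pf_apply, eval_X]
  have hQd : Q.natDegree ≤ 1 := by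
    by_contra hc
    push Not at hc
    obtain ⟨d, hd⟩ : ∃ d, d = Q.natDegree := ⟨_, rfl⟩
    rw [← hd] at hc
    have hQ0 : Q ≠ 0 := by rintro rfl; simp at hd; omega
    have hdr : d < r := by rw [hd]; exact (natDegree_lt_iff_degree_lt hQ0).2 hQr
    have hex : ∃ j, r ≤ d * j := ⟨r, by nlinarith⟩
    classical
    obtain ⟨j, hj, hjmin⟩ : ∃ j, r ≤ d * j ∧ ∀ i < j, ¬ r ≤ d * i := ⟨Nat.find hex, Nat.find_spec hex, fun i hi => Nat.find_min hex hi⟩
    have hjr : j ≤ r - 1 := by
      by_contra h
      push Not at h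
      apply hjmin (r - 1) h
      have : r ≤ 2 * (r - 1) := by omega
      nlinarith
    have hj0 : 0 < j := by
      rcases Nat.eq_zero_or_pos j with h | h
      · rw [h, mul_zero] at hj; omega
      · exact h
    have hjle : d * j < p := by
      have h1 := hjmin (j - 1) (by omega)
      push Not at h1
      have h3 : d * j = d * (j - 1) + d := by
        obtain ⟨i, rfl⟩ : ∃ i, j = i + 1 := ⟨j - 1, by omega⟩
        rw [Nat.add_sub_cancel]; ring
      omega
    have hXj : pf p K (X ^ j) ∈ W' := (hchar _).2 ⟨X ^ j, lt_of_le_of_lt (degree_X_pow_le j) (by exact_mod_cast (by omega : j < r)), rfl⟩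
    obtain ⟨R, hRr, hR⟩ := (hchar _).1 (hγW _ hXj)
    have h4 : pf p K R = pf p K (Q ^ j) := by
      rw [hR]
      funext x
      rw [pf_apply, pf_apply, eval_pow, eval_pow, eval_X, hQγ]
    have h5 : (Q ^ j).natDegree = d * j := by rw [natDegree_pow, ← hd, mul_comm]
    have h6 : R = Q ^ j := by
      apply pf_injOn (lt_of_lt_of_le hRr (by exact_mod_cast hr)) _ h4
      rw [← natDegree_lt_iff_degree_lt (pow_ne_zero _ hQ0), h5]
      exact hjle
    have h7 : (Q ^ j).degree < r := by rw [← h6]; exact hRr
    rw [← natDegree_lt_iff_degree_lt (pow_ne_zero _ hQ0), h5] at h7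
    omega
  -- Q is linear
  have hQe : ∀ x : K, Q.eval x = Q.coeff 1 * x + Q.coeff 0 := by
    intro x
    rw [eval_eq_sum_range' (n := 2) (by omega), Finset.sum_range_succ, Finset.sum_range_one]
    ring
  intro x
  have hφ := ZMod.castHom (dvd_refl p) K
  have hc0 : (ZMod.cast (0 : ZMod p) : K) = 0 := map_zero (ZMod.castHom (dvd_refl p) K)
  have hc1 : (ZMod.cast (1 : ZMod p) : K) = 1 := map_one (ZMod.castHom (dvd_refl p) K)
  have e0 := hQγ 0
  have e1 := hQγ 1
  have ex := hQγ x
  rw [hQe, hc0] at e0
  rw [hQe, hc1] at e1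
  rw [hQe] at ex
  have hγx : ∀ y, e.symm (g (e y)) = γ y := fun y => by rw [hγ]
  rw [hγx, hγx, hγx]
  apply cast_inj (p := p) (K := K)
  change (ZMod.castHom (dvd_refl p) K) (γ x) = (ZMod.castHom (dvd_refl p) K) ((γ 1 - γ 0) * x + γ 0)
  rw [map_add, map_mul, map_sub]
  change (ZMod.cast (γ x) : K) = ((ZMod.cast (γ 1) : K) - (ZMod.cast (γ 0) : K)) * (ZMod.cast x : K) + (ZMod.cast (γ 0) : K)
  rw [← ex, ← e1, ← e0]
  ring

/-- orthogonal complement of a subrepresentation -/
def perpRep {α : Type v} [Fintype α] {K : Type u} [Field K] {G : Type*} [Group G] [MulAction G α]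
    (U : Subrepresentation (permRep K G α)) : Subrepresentation (permRep K G α) :=
  { toSubmodule :=
      { carrier := {w | ∀ u ∈ U.toSubmodule, ∑ x, w x * u x = 0}
        add_mem' := by
          intro a b ha hb u hu
          simp only [Pi.add_apply, add_mul, Finset.sum_add_distrib]
          rw [ha u hu, hb u hu, add_zero]
        zero_mem' := by intro u hu; simp
        smul_mem' := by
          intro c a ha u hu
          simp only [Pi.smul_apply, smul_eq_mul, mul_assoc, ← Finset.mul_sum]
          rw [ha u hu, mul_zero] }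
    apply_mem_toSubmodule := by
      intro g w hw u hu
      have h1 := hw _ (U.apply_mem_toSubmodule g⁻¹ hu)
      rw [← h1]
      refine (Fintype.sum_equiv (MulAction.toPerm g) _ _ (fun x => ?_)).symm
      change w x * permRep K G α g⁻¹ u x = permRep K G α g w (g • x) * u (g • x)
      rw [CfsgH2.permRep_apply, CfsgH2.permRep_apply, inv_inv, inv_smul_smul] }

theorem finrank_perpRep {α : Type v} [Fintype α] [DecidableEq α] {K : Type u} [Field K] {G : Type*} [Group G]
    [MulAction G α] (U : Subrepresentation (permRep K G α)) :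
    Module.finrank K U.toSubmodule + Module.finrank K (perpRep U).toSubmodule = Fintype.card α := by
  have h1 : (perpRep U).toSubmodule = U.toSubmodule.dualAnnihilator.comap (dotProductEquiv K α).toLinearMap := by
    ext w
    rw [Submodule.mem_comap, Submodule.mem_dualAnnihilator]
    rfl
  have h2 : Module.finrank K (perpRep U).toSubmodule = Module.finrank K U.toSubmodule.dualAnnihilator := by
    rw [h1]
    exact LinearEquiv.finrank_eq ((dotProductEquiv K α).ofSubmodule' U.toSubmodule.dualAnnihilator)
  rw [h2, Subspace.finrank_add_finrank_dualAnnihilator_eq, Module.finrank_fintype_fun_eq_card]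

theorem heart_irreducible {α : Type v} [Fintype α] [DecidableEq α] {p : ℕ} [hp : Fact p.Prime] (hα : Fintype.card α = p)
    (G : Subgroup (Equiv.Perm α)) [IsPretransitive G α] (hG : ¬ Group.IsSolvable G) {K : Type u} [Field K] [CharP K p]
    (W : Subrepresentation (permRep K G α)) (h₁ : (permConstants K G α).toSubmodule ≤ W.toSubmodule)
    (h₂ : W.toSubmodule ≤ (permSumZero K G α).toSubmodule) : W = permConstants K G α ∨ W = permSumZero K G α := by
  haveI : Nonempty α := by rw [← Fintype.card_pos_iff, hα]; exact hp.out.pos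
  obtain ⟨σ, hσ, e, he⟩ := exists_coord hα G
  obtain ⟨r, hr⟩ : ∃ r, r = Module.finrank K W.toSubmodule := ⟨_, rfl⟩
  have hC : Module.finrank K (permConstants K G α).toSubmodule = 1 := by
    apply finrank_span_singleton
    intro h
    have h3 := congrFun h (Classical.arbitrary α)
    exact one_ne_zero h3
  have hS : Module.finrank K (permSumZero K G α).toSubmodule < p := by
    rw [← hα, ← Module.finrank_fintype_fun_eq_card (R := K) (η := α)]
    apply Submodule.finrank_lt
    intro h
    have h3 : (Pi.single (Classical.arbitrary α) 1 : α → K) ∈ (permSumZero K G α).toSubmodule := by rw [h]; trivial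
    rw [mem_permSumZero] at h3
    simp at h3
  have hr1 : 1 ≤ r := by rw [← hC, hr]; exact Submodule.finrank_mono h₁
  have hr2 : r < p := lt_of_le_of_lt (by rw [hr]; exact Submodule.finrank_mono h₂) hS
  by_cases e1 : r = 1
  · left
    apply Subrepresentation.toSubmodule_injective
    exact (Submodule.eq_of_le_of_finrank_eq h₁ (by rw [hC, ← hr, e1])).symm
  · by_cases e2 : r = p - 1
    · right
      apply Subrepresentation.toSubmodule_injective
      exact Submodule.eq_of_le_of_finrank_le h₂ (by rw [← hr]; omega)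
    · exfalso
      apply hG
      by_cases h3 : 2 * (r - 1) ≤ p - 1
      · exact solvable_of_affine G e (affine_of_mid G hσ e he W (by omega) (by rw [← hr]; exact h3))
      · have h4 := finrank_perpRep W
        rw [← hr, hα] at h4
        exact solvable_of_affine G e (affine_of_mid G hσ e he (perpRep W) (by omega) (by omega))

theorem perm2_affine : ∀ γ : Equiv.Perm (ZMod 2), ∀ x, γ x = (γ 1 - γ 0) * x + γ 0 := by decide

theorem perm3_affine : ∀ γ : Equiv.Perm (ZMod 3), ∀ x, γ x = (γ 1 - γ 0) * x + γ 0 := by decide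

theorem solvable_of_le_three {α : Type v} [Fintype α] [DecidableEq α] {p : ℕ} [hp : Fact p.Prime] (hα : Fintype.card α = p)
    (h3 : p ≤ 3) (G : Subgroup (Equiv.Perm α)) [IsPretransitive G α] : Group.IsSolvable G := by
  obtain ⟨σ, hσ, e, he⟩ := exists_coord hα G
  apply solvable_of_affine G e
  intro g _ x
  have hp2 := hp.out.two_le
  have key : ∀ γ : Equiv.Perm (ZMod p), ∀ x, γ x = (γ 1 - γ 0) * x + γ 0 := by
    clear he x e hα σ hσ
    rcases (show p = 2 ∨ p = 3 by omega) with h | h
    · subst h; exact perm2_affine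
    · subst h; exact perm3_affine
  exact key ((e.trans g).trans e.symm) x

/-- Burnside's theorem on groups of prime degree -/
theorem burnside_prime {α : Type v} [Fintype α] [DecidableEq α] {p : ℕ} [hp : Fact p.Prime] (hα : Fintype.card α = p)
    (G : Subgroup (Equiv.Perm α)) [IsPretransitive G α] (hG : ¬ Group.IsSolvable G) : IsMultiplyPretransitive G α 2 := by
  have hp3 : 3 < p := by
    by_contra h
    exact hG (solvable_of_le_three hα (by omega) G)
  apply heart_two_trans (K := ZMod p) (f := 1) (by rw [hα, pow_one])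
  intro W W' hCW hlt hW'S
  by_contra hno
  push Not at hno
  have hS : Module.finrank (ZMod p) (permSumZero (ZMod p) G α).toSubmodule + 1 = p := by
    have h1 := finrank_perpRep (permConstants (ZMod p) G α)
    have hC : Module.finrank (ZMod p) (permConstants (ZMod p) G α).toSubmodule = 1 := by
      apply finrank_span_singleton
      intro h
      haveI : Nonempty α := by rw [← Fintype.card_pos_iff, hα]; exact hp.out.pos
      have h3 := congrFun h (Classical.arbitrary α)
      exact one_ne_zero h3
    have h2 : (perpRep (permConstants (ZMod p) G α)).toSubmodule = (permSumZero (ZMod p) G α).toSubmodule := by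
      ext w
      rw [mem_permSumZero]
      constructor
      · intro h
        have h3 := h (fun _ => 1) (mem_permConstants.2 ⟨1, fun _ => rfl⟩)
        simpa using h3
      · intro h u hu
        obtain ⟨c, hc⟩ := mem_permConstants.1 hu
        rw [Finset.sum_congr rfl (fun x _ => by rw [hc x]), ← Finset.sum_mul, h, zero_mul]
    rw [hC, h2, hα] at h1
    omega
  rcases heart_irreducible hα G hG W hCW (hlt.le.trans hW'S) with hW | hW
  · -- pick v in W' not in W = constants
    obtain ⟨v, hv, hvW⟩ := SetLike.exists_of_lt hlt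
    let U : Subrepresentation (permRep (ZMod p) G α) :=
      { toSubmodule := (permConstants (ZMod p) G α).toSubmodule ⊔ Submodule.span (ZMod p) {v}
        apply_mem_toSubmodule := by
          intro g u hu
          obtain ⟨c, hc, w, hw, rfl⟩ := Submodule.mem_sup.1 hu
          obtain ⟨t, rfl⟩ := Submodule.mem_span_singleton.1 hw
          rw [map_add, map_smul]
          refine Submodule.add_mem _ (Submodule.mem_sup_left ((permConstants (ZMod p) G α).apply_mem_toSubmodule g hc)) ?_
          apply Submodule.smul_mem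
          have h1 := hno g v hv
          rw [hW] at h1
          have h2 := Submodule.add_mem _ (Submodule.mem_sup_left h1 : _ ∈ (permConstants (ZMod p) G α).toSubmodule ⊔ Submodule.span (ZMod p) {v})
            (Submodule.mem_sup_right (Submodule.mem_span_singleton_self v))
          rwa [sub_add_cancel] at h2 }
    have hU1 : (permConstants (ZMod p) G α).toSubmodule ≤ U.toSubmodule := le_sup_left
    have hU2 : U.toSubmodule ≤ (permSumZero (ZMod p) G α).toSubmodule := by
      refine sup_le (hW ▸ (hlt.le.trans hW'S)) ?_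
      rw [Submodule.span_singleton_le_iff_mem]
      exact hW'S hv
    have hvU : v ∈ U.toSubmodule := Submodule.mem_sup_right (Submodule.mem_span_singleton_self v)
    rcases heart_irreducible hα G hG U hU1 hU2 with h | h
    · rw [h, ← hW] at hvU
      exact hvW hvU
    · have h1 : Module.finrank (ZMod p) U.toSubmodule ≤ 2 := by
        have h2 := Submodule.finrank_add_le_finrank_add_finrank (permConstants (ZMod p) G α).toSubmodule
          (Submodule.span (ZMod p) {v})
        have h3 : Module.finrank (ZMod p) (permConstants (ZMod p) G α).toSubmodule ≤ 1 := (finrank_span_le_card (R := ZMod p) _).trans (by simp)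
        have h4 : Module.finrank (ZMod p) (Submodule.span (ZMod p) {v}) ≤ 1 := (finrank_span_le_card (R := ZMod p) _).trans (by simp)
        exact h2.trans (by omega)
      rw [h] at h1
      omega
  · rw [hW] at hlt
    exact absurd hW'S (not_le_of_gt hlt)

end CfsgH2
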