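import Mathlib
import Cfsg.Agent.H2.PrimeDeg2
import Cfsg.Agent.H2.PermF

/-! # Triple transitivity from the permutation module (helper2 library) -/

set_option autoImplicit false

namespace CfsgH2

open Cfsg MulAction
open scoped Pointwise

universe u v w

theorem three_trans_of {G : Type u} {X : Type v} [Group G] [MulAction G X]
    (h : ∀ a b c a' b' c' : X, a ≠ b → a ≠ c → b ≠ c → a' ≠ b' → a' ≠ c' → b' ≠ c' →
      ∃ g : G, g • a = a' ∧ g • b = b' ∧ g • c = c') : IsMultiplyPretransitive G X 3 := by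
  refine ⟨fun x y => ?_⟩
  obtain ⟨g, h1, h2, h3⟩ := h (x 0) (x 1) (x 2) (y 0) (y 1) (y 2) (x.injective.ne (by decide)) (x.injective.ne (by decide))
    (x.injective.ne (by decide)) (y.injective.ne (by decide)) (y.injective.ne (by decide)) (y.injective.ne (by decide))
  refine ⟨g, ?_⟩
  ext i
  match i with
  | 0 => exact h1
  | 1 => exact h2
  | 2 => exact h3

/-- from transitivity on pairs (point, pair) and a swap to triple transitivity -/
theorem three_of_homog {G : Type u} {X : Type v} [Group G] [MulAction G X] (h2 : IsMultiplyPretransitive G X 2)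
    (hh : ∀ y z : X, y ≠ z → ∀ x₁ x₂, x₁ ≠ y → x₁ ≠ z → x₂ ≠ y → x₂ ≠ z →
      ∃ g : G, g • x₁ = x₂ ∧ ((g • y = y ∧ g • z = z) ∨ (g • y = z ∧ g • z = y)))
    (t : G) {x y z : X} (hxy : x ≠ y) (hxz : x ≠ z) (hyz : y ≠ z) (htx : t • x = x) (hty : t • y = z) (htz : t • z = y) :
    IsMultiplyPretransitive G X 3 := by
  rw [is_two_pretransitive_iff] at h2
  have hom : ∀ a b c a' b' c' : X, a ≠ b → a ≠ c → b ≠ c → a' ≠ b' → a' ≠ c' → b' ≠ c' →
      ∃ g : G, g • a = a' ∧ ((g • b = b' ∧ g • c = c') ∨ (g • b = c' ∧ g • c = b')) := by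
    intro a b c a' b' c' hab hac hbc hab' hac' hbc'
    obtain ⟨g, hg1, hg2⟩ := h2 hbc hbc'
    obtain ⟨k, hk1, hk2⟩ := hh b' c' hbc' (g • a) a' (by rw [← hg1]; intro h; exact hab (smul_left_cancel g h))
      (by rw [← hg2]; intro h; exact hac (smul_left_cancel g h)) hab' hac'
    refine ⟨k * g, by rw [mul_smul, hk1], ?_⟩
    rw [mul_smul, mul_smul, hg1, hg2]
    exact hk2
  apply three_trans_of
  intro a b c a' b' c' hab hac hbc hab' hac' hbc'
  obtain ⟨g, hg1, hg2 | hg2⟩ := hom a b c a' b' c' hab hac hbc hab' hac' hbc'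
  · exact ⟨g, hg1, hg2⟩
  · obtain ⟨k, hk1, hk2⟩ := hom x y z a' b' c' hxy hxz hyz hab' hac' hbc'
    have key : (k * t * k⁻¹) • a' = a' ∧ (k * t * k⁻¹) • b' = c' ∧ (k * t * k⁻¹) • c' = b' := by
      have e1 : k⁻¹ • a' = x := by rw [← hk1, inv_smul_smul]
      refine ⟨by rw [mul_smul, mul_smul, e1, htx, hk1], ?_⟩
      rcases hk2 with ⟨h3, h4⟩ | ⟨h3, h4⟩
      · have e2 : k⁻¹ • b' = y := by rw [← h3, inv_smul_smul]
        have e3 : k⁻¹ • c' = z := by rw [← h4, inv_smul_smul]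
        exact ⟨by rw [mul_smul, mul_smul, e2, hty, h4], by rw [mul_smul, mul_smul, e3, htz, h3]⟩
      · have e2 : k⁻¹ • c' = y := by rw [← h3, inv_smul_smul]
        have e3 : k⁻¹ • b' = z := by rw [← h4, inv_smul_smul]
        exact ⟨by rw [mul_smul, mul_smul, e3, htz, h3], by rw [mul_smul, mul_smul, e2, hty, h4]⟩
    refine ⟨k * t * k⁻¹ * g, ?_, ?_, ?_⟩
    · rw [mul_smul, hg1, key.1]
    · rw [mul_smul, hg2.1, key.2.2]
    · rw [mul_smul, hg2.2, key.2.1]

theorem heart_three_trans {G : Type u} [Group G] {K : Type v} [Field K] {Ω : Type w} [Fintype Ω]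
    [DecidableEq Ω] [MulAction G Ω] (h2 : IsMultiplyPretransitive G Ω 2)
    (t : G) {x y z : Ω} (hxy : x ≠ y) (hxz : x ≠ z) (hyz : y ≠ z) (htx : t • x = x) (hty : t • y = z) (htz : t • z = y)
    (h : ∀ f : Representation.IntertwiningMap (permSumZero K G Ω).toRepresentation
      (permRep K G (Set.powersetCard Ω 2)),
      (∀ v : (permSumZero K G Ω).toSubmodule, (v : Ω → K) ∈ (permConstants K G Ω).toSubmodule → f v = 0) → f = 0) :
    IsMultiplyPretransitive G Ω 3 := by
  classical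
  refine three_of_homog h2 ?_ t hxy hxz hyz htx hty htz
  clear htz hty htx hyz hxz hxy x y z t
  intro y z hyz x₁ x₂ h1y h1z h2y h2z
  by_contra hno
  let s₀ : Set.powersetCard Ω 2 := ⟨{y, z}, by rw [Set.powersetCard.mem_iff, Finset.card_pair hyz]⟩
  have hs₀ : ∀ w, w ∈ (s₀ : Finset Ω) ↔ w = y ∨ w = z := by
    intro w; change w ∈ ({y, z} : Finset Ω) ↔ _; simp
  have hx12 : ¬ (x₂, s₀) ∈ orbit G (x₁, s₀) := by
    rintro ⟨g, hg⟩
    apply hno
    have e1 : g • x₁ = x₂ := congrArg Prod.fst hg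
    have e2 : g • s₀ = s₀ := congrArg Prod.snd hg
    have e3 : g • ({y, z} : Finset Ω) = {y, z} := congrArg Subtype.val e2
    have e4 : g • y ∈ ({y, z} : Finset Ω) := by
      rw [← e3]; exact Finset.smul_mem_smul_finset (by simp)
    have e5 : g • z ∈ ({y, z} : Finset Ω) := by
      rw [← e3]; exact Finset.smul_mem_smul_finset (by simp)
    refine ⟨g, e1, ?_⟩
    simp only [Finset.mem_insert, Finset.mem_singleton] at e4 e5
    rcases e4 with e4 | e4
    · rcases e5 with e5 | e5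
      · exfalso; exact hyz (smul_left_cancel g (e4.trans e5.symm))
      · exact Or.inl ⟨e4, e5⟩
    · rcases e5 with e5 | e5
      · exact Or.inr ⟨e4, e5⟩
      · exfalso; exact hyz (smul_left_cancel g (e4.trans e5.symm))
  let M₁ : Ω → Set.powersetCard Ω 2 → K := fun x s => if (x, s) ∈ orbit G (x₁, s₀) then 1 else 0
  let M₀ : Ω → Set.powersetCard Ω 2 → K := fun x s => if x ∈ (s : Finset Ω) then 1 else 0
  have hM₁ : ∀ (g : G) x s, M₁ (g • x) (g • s) = M₁ x s := by
    intro g x s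
    have h1 : ((g • x, g • s) ∈ orbit G (x₁, s₀)) ↔ ((x, s) ∈ orbit G (x₁, s₀)) := by
      change g • (x, s) ∈ orbit G (x₁, s₀) ↔ _
      refine ⟨fun h => ?_, fun h => mem_orbit_of_mem_orbit g h⟩
      have h2 := mem_orbit_of_mem_orbit g⁻¹ h
      rwa [inv_smul_smul] at h2
    simp only [M₁, h1]
  have hM₀ : ∀ (g : G) x s, M₀ (g • x) (g • s) = M₀ x s := by
    intro g x s
    have h1 : g • x ∈ ((g • s : Set.powersetCard Ω 2) : Finset Ω) ↔ x ∈ (s : Finset Ω) := by
      rw [Set.powersetCard.coe_smul]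
      exact Finset.smul_mem_smul_finset_iff g
    simp only [M₀, h1]
  obtain ⟨d, hd⟩ : ∃ d : K, d = ∑ x, M₁ x s₀ := ⟨_, rfl⟩
  have h1s : M₁ x₁ s₀ = 1 := by simp only [M₁]; rw [if_pos (mem_orbit_self _)]
  have h2s : M₁ x₂ s₀ = 0 := by simp only [M₁]; rw [if_neg hx12]
  have hys : M₁ y s₀ = 0 := by
    simp only [M₁]
    rw [if_neg]
    rintro ⟨g, hg⟩
    have e1 : g • x₁ = y := congrArg Prod.fst hg
    have e2 : g • s₀ = s₀ := congrArg Prod.snd hg
    have e3 : g • x₁ ∈ ((g • s₀ : Set.powersetCard Ω 2) : Finset Ω) := by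
      rw [e2, e1, hs₀]; exact Or.inl rfl
    rw [Set.powersetCard.coe_smul, Finset.smul_mem_smul_finset_iff, hs₀] at e3
    rcases e3 with e3 | e3
    · exact h1y e3
    · exact h1z e3
  have h10 : M₀ x₁ s₀ = 0 := by
    simp only [M₀]; rw [if_neg]; rw [hs₀]; push Not; exact ⟨h1y, h1z⟩
  have h20 : M₀ x₂ s₀ = 0 := by
    simp only [M₀]; rw [if_neg]; rw [hs₀]; push Not; exact ⟨h2y, h2z⟩
  have hy0 : M₀ y s₀ = 1 := by
    simp only [M₀]; rw [if_pos]; rw [hs₀]; exact Or.inl rfl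
  have hsum0 : ∀ s : Set.powersetCard Ω 2, ∑ x, M₀ x s = 2 := by
    intro s
    simp only [M₀]
    rw [Finset.sum_boole, Finset.filter_mem_eq_inter, Finset.univ_inter, Set.powersetCard.card_eq]
    norm_num
  have hsum1 : ∀ s : Set.powersetCard Ω 2, ∑ x, M₁ x s = d := by
    intro s
    obtain ⟨a, b, hab, hs⟩ := Finset.card_eq_two.1 (Set.powersetCard.card_eq s)
    rw [is_two_pretransitive_iff] at h2
    obtain ⟨g, hg1, hg2⟩ := h2 hyz hab
    have e1 : g • s₀ = s := by
      apply Subtype.ext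
      rw [Set.powersetCard.coe_smul]
      change g • ({y, z} : Finset Ω) = (s : Finset Ω)
      rw [hs, Finset.smul_finset_insert, Finset.smul_finset_singleton, hg1, hg2]
    rw [← e1, hd]
    exact (Fintype.sum_equiv (MulAction.toPerm g) (fun x => M₁ x s₀) (fun x => M₁ x (g • s₀))
      (fun x => (hM₁ g x s₀).symm)).symm
  -- coefficients
  obtain ⟨α, β, hαβ, hne⟩ : ∃ α β : K, α * d + 2 * β = 0 ∧ ¬ (α = 0 ∧ β = 0) := by
    by_cases h0 : (2 : K) = 0 ∧ d = 0
    · exact ⟨1, 0, by rw [h0.2]; simp, by simp⟩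
    · refine ⟨2, -d, by ring, ?_⟩
      rintro ⟨e1, e2⟩
      exact h0 ⟨e1, by rwa [neg_eq_zero] at e2⟩
  let N : Ω → Set.powersetCard Ω 2 → K := fun x s => α * M₁ x s + β * M₀ x s
  have hN : ∀ (g : G) x s, N (g • x) (g • s) = N x s := by
    intro g x s; simp only [N, hM₁, hM₀]
  let φ : (Ω → K) →ₗ[K] (Set.powersetCard Ω 2 → K) :=
    { toFun := fun v s => ∑ x, v x * N x s
      map_add' := by
        intro v w; funext s
        simp only [Pi.add_apply, add_mul, Finset.sum_add_distrib]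
      map_smul' := by
        intro c v; funext s
        simp only [Pi.smul_apply, smul_eq_mul, RingHom.id_apply, mul_assoc, ← Finset.mul_sum] }
  have hφ : ∀ g v, φ (permRep K G Ω g v) = permRep K G (Set.powersetCard Ω 2) g (φ v) := by
    intro g v
    funext s
    change ∑ x, v (g⁻¹ • x) * N x s = ∑ x, v x * N x (g⁻¹ • s)
    refine Fintype.sum_equiv (MulAction.toPerm g⁻¹) _ _ (fun x => ?_)
    change v (g⁻¹ • x) * N x s = v (g⁻¹ • x) * N (g⁻¹ • x) (g⁻¹ • s)
    rw [hN]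
  let f : Representation.IntertwiningMap (permSumZero K G Ω).toRepresentation (permRep K G (Set.powersetCard Ω 2)) :=
    ⟨φ ∘ₗ (permSumZero K G Ω).toSubmodule.subtype, fun g => LinearMap.ext fun v => hφ g (v : Ω → K)⟩
  have hf := h f (by
    intro v hv
    obtain ⟨c, hc⟩ := mem_permConstants.1 hv
    funext s
    change ∑ x, (v : Ω → K) x * N x s = 0
    rw [Finset.sum_congr rfl (fun x _ => by rw [hc x]), ← Finset.mul_sum]
    simp only [N, Finset.sum_add_distrib, ← Finset.mul_sum]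
    rw [hsum0, hsum1]
    linear_combination c * hαβ)
  have hval : ∀ a b : Ω, N a s₀ = N b s₀ := by
    intro a b
    have e1 : (Pi.single a 1 - Pi.single b 1 : Ω → K) ∈ (permSumZero K G Ω).toSubmodule := by
      rw [mem_permSumZero]; simp
    have e2 : f ⟨_, e1⟩ = 0 := by rw [hf]; rfl
    have e3 := congrFun e2 s₀
    change ∑ x, (Pi.single a 1 - Pi.single b 1 : Ω → K) x * N x s₀ = 0 at e3
    simp only [Pi.sub_apply, sub_mul, Finset.sum_sub_distrib] at e3
    have e4 : ∀ c : Ω, ∑ x, (Pi.single c 1 : Ω → K) x * N x s₀ = N c s₀ := by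
      intro c
      rw [Finset.sum_eq_single c]
      · simp
      · intro x _ hx; rw [Pi.single_eq_of_ne hx, zero_mul]
      · simp
    rw [e4, e4, sub_eq_zero] at e3
    exact e3
  apply hne
  have v1 := hval x₁ x₂
  have v2 := hval y x₂
  simp only [N] at v1 v2
  rw [h1s, h2s, h10, h20] at v1
  rw [hys, h2s, hy0, h20] at v2
  constructor
  · linear_combination v1
  · linear_combination v2

end CfsgH2
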