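import Mathlib
import Cfsg.Agent.H2.PrimeDeg3

/-! # Prime degree with even Sylow normaliser (helper2 library) -/

set_option autoImplicit false

namespace CfsgH2

open Cfsg MulAction
open scoped Pointwise

universe u v w

theorem exists_coord' {α : Type v} [Fintype α] [DecidableEq α] {p : ℕ} [hp : Fact p.Prime] (hα : Fintype.card α = p)
    (s : Equiv.Perm α) (hσ' : orderOf s = p) :
    ∃ e : ZMod p ≃ α, ∀ j, s (e j) = e (j + 1) := by
  obtain ⟨x₀, hx₀⟩ : ∃ x, s x ≠ x := by
    by_contra hc
    push Not at hc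
    have h2 : s = 1 := Equiv.ext hc
    rw [h2, orderOf_one] at hσ'
    exact hp.out.one_lt.ne hσ'
  have hpow : ∀ i : ℕ, (s ^ i) x₀ = x₀ → p ∣ i := by
    intro i hi
    by_contra hc
    have h2 : Nat.Coprime i p := ((hp.out.coprime_iff_not_dvd).2 hc).symm
    have h3 : ∃ m : ℕ, (s ^ i) ^ m = s := exists_pow_eq_self_of_coprime (by rw [hσ']; exact h2)
    obtain ⟨m, hm⟩ := h3
    apply hx₀
    conv_lhs => rw [← hm]
    clear hm
    induction m with
    | zero => rfl
    | succ m ih => rw [pow_succ, Equiv.Perm.mul_apply, hi, ih]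
  let f : ZMod p → α := fun j => (s ^ j.val) x₀
  have hinj : Function.Injective f := by
    have key : ∀ i j : ZMod p, i.val ≤ j.val → f i = f j → i = j := by
      intro i j hij h
      have h2 : (s ^ (j.val - i.val)) x₀ = x₀ := by
        have h3 : (s ^ i.val) ((s ^ (j.val - i.val)) x₀) = (s ^ i.val) x₀ := by
          rw [← Equiv.Perm.mul_apply, ← pow_add, Nat.add_sub_cancel' hij]
          exact h.symm
        exact (s ^ i.val).injective h3
      have h3 := hpow _ h2
      have h4 := ZMod.val_lt j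
      have h5 : j.val - i.val = 0 := Nat.eq_zero_of_dvd_of_lt h3 (by omega)
      exact ZMod.val_injective p (by omega)
    intro i j h
    rcases le_total i.val j.val with h2 | h2
    · exact key i j h2 h
    · exact (key j i h2 h.symm).symm
  have hbij : Function.Bijective f := by
    rw [Fintype.bijective_iff_injective_and_card]
    exact ⟨hinj, by rw [ZMod.card, hα]⟩
  refine ⟨Equiv.ofBijective f hbij, fun j => ?_⟩
  change s ((s ^ j.val) x₀) = (s ^ (j + 1).val) x₀
  rw [← Equiv.Perm.mul_apply, ← pow_succ']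
  have h2 : s ^ (j.val + 1) = s ^ (j + 1).val := by
    rw [pow_eq_pow_iff_modEq, hσ']
    have h3 : (((j + 1).val : ℕ) : ZMod p) = ((j.val + 1 : ℕ) : ZMod p) := by
      push_cast
      rw [ZMod.natCast_zmod_val, ZMod.natCast_zmod_val]
    exact ((ZMod.natCast_eq_natCast_iff _ _ _).1 h3).symm
  rw [h2]

theorem coord_zpow {α : Type v} {p : ℕ} [hp : Fact p.Prime] {s : Equiv.Perm α} {e : ZMod p ≃ α}
    (he : ∀ j, s (e j) = e (j + 1)) (n : ℤ) (j : ZMod p) : (s ^ n) (e j) = e (j + (n : ZMod p)) := by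
  have h1 : ∀ (n : ℕ) (j : ZMod p), (s ^ n) (e j) = e (j + (n : ZMod p)) := by
    intro n
    induction n with
    | zero => intro j; simp
    | succ n ih => intro j; rw [pow_succ, Equiv.Perm.mul_apply, he, ih]; congr 1; push_cast; ring
  rcases n with n | n
  · rw [Int.ofNat_eq_natCast, zpow_natCast, h1]; push_cast; rfl
  · rw [zpow_negSucc, Equiv.Perm.inv_eq_iff_eq, h1]
    congr 1
    push_cast
    ring

/-- Sylow subgroups in prime degree have order `p` -/
theorem sylow_card_prime {α : Type v} [Fintype α] [DecidableEq α] {p : ℕ} [hp : Fact p.Prime] (hα : Fintype.card α = p)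
    (G : Subgroup (Equiv.Perm α)) [IsPretransitive G α] (P : Sylow p G) : Nat.card P = p := by
  haveI : Nonempty α := by rw [← Fintype.card_pos_iff, hα]; exact hp.out.pos
  obtain ⟨a₀⟩ := ‹Nonempty α›
  have h1 : p ∣ Nat.card G := by
    rw [← (stabilizer G a₀).card_mul_index, index_stabilizer_of_transitive, Nat.card_eq_fintype_card (α := α), hα]
    exact dvd_mul_left _ _
  have h2 := P.card_eq_multiplicity
  have h3 : (Nat.card G).factorization p = 1 := by
    have h4 : 1 ≤ (Nat.card G).factorization p := by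
      rw [← hp.out.pow_dvd_iff_le_factorization Nat.card_pos.ne', pow_one]; exact h1
    have h5 : (Nat.card G).factorization p ≤ 1 := by
      by_contra hc
      push Not at hc
      have h6 := (hp.out.pow_dvd_iff_le_factorization Nat.card_pos.ne').2 hc
      have h7 : Nat.card G ∣ p.factorial := by
        have h8 := Subgroup.card_subgroup_dvd_card G
        rwa [Nat.card_perm, Nat.card_eq_fintype_card (α := α), hα] at h8
      have h8 : p * p ∣ p * (p - 1).factorial := by
        rw [Nat.mul_factorial_pred hp.out.ne_zero, ← pow_two]; exact h6.trans h7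
      have h9 := Nat.dvd_of_mul_dvd_mul_left hp.out.pos h8
      have h10 := (hp.out.dvd_factorial).1 h9
      have := hp.out.pos
      omega
    omega
  rw [h2, h3, pow_one]

theorem exists_coord_inv {α : Type v} [Fintype α] [DecidableEq α] {p : ℕ} [hp : Fact p.Prime] (hp2 : p ≠ 2)
    (hα : Fintype.card α = p) (G : Subgroup (Equiv.Perm α)) [IsPretransitive G α] (P : Sylow p G)
    (heven : Even (Nat.card (Subgroup.normalizer ((P : Subgroup G) : Set G)))) :
    ∃ σ τ : G, σ ∈ P ∧ ∃ e : ZMod p ≃ α, (∀ j, (σ : Equiv.Perm α) (e j) = e (j + 1)) ∧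
      (∀ j, (τ : Equiv.Perm α) (e j) = e (-j)) ∧ (P : Subgroup G) = Subgroup.zpowers σ := by
  have hPc := sylow_card_prime hα G P
  obtain ⟨σ', hσ'⟩ := exists_prime_orderOf_dvd_card' (G := P) p (by rw [hPc])
  obtain ⟨σ, hσP, hσo⟩ : ∃ σ : G, σ ∈ P ∧ orderOf σ = p := ⟨σ', σ'.2, by rw [Subgroup.orderOf_coe]; exact hσ'⟩
  have hσo' : orderOf (σ : Equiv.Perm α) = p := by rw [Subgroup.orderOf_coe]; exact hσo
  have hPz : (P : Subgroup G) = Subgroup.zpowers σ := by
    symm
    apply Subgroup.eq_of_le_of_card_ge (Subgroup.zpowers_le.2 hσP)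
    rw [Nat.card_zpowers, hσo]; exact hPc.le
  obtain ⟨e, he⟩ := exists_coord' hα (σ : Equiv.Perm α) hσo'
  haveI : Fact (Nat.Prime 2) := ⟨Nat.prime_two⟩
  obtain ⟨τ', hτ'⟩ := exists_prime_orderOf_dvd_card' (G := Subgroup.normalizer ((P : Subgroup G) : Set G)) 2
    (even_iff_two_dvd.1 heven)
  obtain ⟨τ, hτn, hτo⟩ : ∃ τ : G, τ ∈ Subgroup.normalizer ((P : Subgroup G) : Set G) ∧ orderOf τ = 2 :=
    ⟨τ', τ'.2, by rw [Subgroup.orderOf_coe]; exact hτ'⟩
  have hττ : τ * τ = 1 := by rw [← pow_two, ← hτo]; exact pow_orderOf_eq_one _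
  have h1 : τ * σ * τ⁻¹ ∈ (P : Subgroup G) := (Subgroup.mem_normalizer_iff.1 hτn σ).1 hσP
  rw [hPz] at h1
  obtain ⟨a, ha⟩ := Subgroup.mem_zpowers_iff.1 h1
  have h2ne : (2 : ZMod p) ≠ 0 := by
    intro h
    have h3 : ((2 : ℕ) : ZMod p) = 0 := by exact_mod_cast h
    rw [ZMod.natCast_eq_zero_iff] at h3
    exact hp2 ((Nat.prime_dvd_prime_iff_eq hp.out Nat.prime_two).1 h3)
  obtain ⟨γ, hγ⟩ : ∃ γ : ZMod p → ZMod p, ∀ j, (τ : Equiv.Perm α) (e j) = e (γ j) :=
    ⟨fun j => e.symm ((τ : Equiv.Perm α) (e j)), fun j => by rw [Equiv.apply_symm_apply]⟩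
  have hstep : ∀ j, γ (j + 1) = γ j + (a : ZMod p) := by
    intro j
    apply e.injective
    rw [← hγ, ← he, ← coord_zpow he a, ← hγ]
    have h3 : τ * σ = σ ^ a * τ := by rw [ha]; group
    have h4 := congrArg (fun g : G => (g : Equiv.Perm α) (e j)) h3
    simp only [Subgroup.coe_mul, Subgroup.coe_zpow, Equiv.Perm.mul_apply] at h4
    exact h4
  have hlin : ∀ j, γ j = (a : ZMod p) * j + γ 0 := by
    intro j
    have h3 : ∀ n : ℕ, γ (n : ZMod p) = (a : ZMod p) * (n : ZMod p) + γ 0 := by
      intro n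
      induction n with
      | zero => simp
      | succ n ih => push_cast; rw [hstep, ih]; ring
    have h4 := h3 j.val
    rwa [ZMod.natCast_zmod_val] at h4
  have hinv : ∀ j, γ (γ j) = j := by
    intro j
    apply e.injective
    rw [← hγ, ← hγ]
    have h4 := congrArg (fun g : G => (g : Equiv.Perm α) (e j)) hττ
    exact h4
  have ha1 : (a : ZMod p) = -1 := by
    have h3 := hinv 0
    have h4 := hinv 1
    rw [hlin (γ 0)] at h3
    rw [hlin (γ 1), hlin 1] at h4
    have h5 : ((a : ZMod p) - 1) * ((a : ZMod p) + 1) = 0 := by linear_combination h4 - h3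
    rcases mul_eq_zero.1 h5 with h6 | h6
    · exfalso
      have h7 : (a : ZMod p) = 1 := sub_eq_zero.1 h6
      rw [h7] at h3
      have h8 : (2 : ZMod p) * γ 0 = 0 := by linear_combination h3
      have h9 := (mul_eq_zero.1 h8).resolve_left h2ne
      have h10 : τ = 1 := by
        apply Subtype.ext
        apply Equiv.ext
        intro x
        obtain ⟨j, rfl⟩ := e.surjective x
        rw [hγ, hlin, h7, h9, one_mul, add_zero]; rfl
      rw [h10, orderOf_one] at hτo
      omega
    · exact eq_neg_of_add_eq_zero_left h6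
  refine ⟨σ, τ, hσP, (Equiv.addRight (γ 0 / 2)).trans e, ?_, ?_, hPz⟩
  · intro j
    change (σ : Equiv.Perm α) (e (j + γ 0 / 2)) = e (j + 1 + γ 0 / 2)
    rw [he]; congr 1; ring
  · intro j
    change (τ : Equiv.Perm α) (e (j + γ 0 / 2)) = e (-j + γ 0 / 2)
    rw [hγ, hlin, ha1]
    congr 1
    field_simp
    ring

theorem prime_three_trans {α : Type v} [Fintype α] [DecidableEq α] {p : ℕ} [hp : Fact p.Prime] (hα : Fintype.card α = p)
    (G : Subgroup (Equiv.Perm α)) [IsPretransitive G α] (hG : ¬ Group.IsSolvable G) (P : Sylow p G)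
    (heven : Even (Nat.card (Subgroup.normalizer ((P : Subgroup G) : Set G)))) : IsMultiplyPretransitive G α 3 := by
  have hp3 : 3 < p := by
    by_contra h
    exact hG (solvable_of_le_three hα (by omega) G)
  obtain ⟨σ, τ, hσP, e, he, hτ, -⟩ := exists_coord_inv (by omega) hα G P heven
  have h2t := burnside_prime hα G hG
  have h2ne : (2 : ZMod p) ≠ 0 := by
    intro h
    have h3 : ((2 : ℕ) : ZMod p) = 0 := by exact_mod_cast h
    rw [ZMod.natCast_eq_zero_iff] at h3
    have := Nat.le_of_dvd (by norm_num) h3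
    omega
  have h10 : (1 : ZMod p) ≠ 0 := one_ne_zero
  have h1n : (1 : ZMod p) ≠ -1 := by
    intro h
    apply h2ne
    linear_combination h
  apply heart_three_trans (K := ZMod p) h2t τ (x := e 0) (y := e 1) (z := e (-1)) (e.injective.ne h10.symm)
    (e.injective.ne (by intro h; exact h10 (by linear_combination h))) (e.injective.ne h1n)
    (by change (τ : Equiv.Perm α) (e 0) = e 0; rw [hτ, neg_zero])
    (by change (τ : Equiv.Perm α) (e 1) = e (-1); rw [hτ])
    (by change (τ : Equiv.Perm α) (e (-1)) = e 1; rw [hτ, neg_neg])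
  intro f hf
  -- the linear function
  let l : α → ZMod p := fun x => e.symm x
  have hl : ∀ j, l (e j) = j := fun j => e.symm_apply_apply j
  have hlS : l ∈ (permSumZero (ZMod p) G α).toSubmodule := by
    rw [mem_permSumZero]
    have h1 : ∑ x, l x = ∑ j : ZMod p, j := (Fintype.sum_equiv e (fun j => j) l (fun j => (hl j).symm)).symm
    have h2 : ∑ j : ZMod p, j = ∑ j : ZMod p, -j := Fintype.sum_equiv (Equiv.neg (ZMod p)) _ _ (fun j => by simp)
    rw [h1]
    rw [Finset.sum_neg_distrib] at h2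
    have h3 : (2 : ZMod p) * ∑ j : ZMod p, j = 0 := by linear_combination h2
    exact (mul_eq_zero.1 h3).resolve_left h2ne
  have hcS : (fun _ => 1 : α → ZMod p) ∈ (permSumZero (ZMod p) G α).toSubmodule := by
    rw [mem_permSumZero, Finset.sum_const, Finset.card_univ, hα]; simp
  obtain ⟨F, hF⟩ : ∃ F, F = f ⟨l, hlS⟩ := ⟨_, rfl⟩
  have hσi : ∀ j, (σ⁻¹ : G) • e j = e (j - 1) := by
    intro j
    rw [inv_smul_eq_iff]
    change e j = (σ : Equiv.Perm α) (e (j - 1))
    rw [he, sub_add_cancel]
  have hτi : ∀ j, (τ⁻¹ : G) • e j = e (-j) := by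
    intro j
    rw [inv_smul_eq_iff]
    change e j = (τ : Equiv.Perm α) (e (-j))
    rw [hτ, neg_neg]
  have hint : ∀ (g : G) (v : (permSumZero (ZMod p) G α).toSubmodule) s,
      f ((permSumZero (ZMod p) G α).toRepresentation g v) s = f v (g⁻¹ • s) := by
    intro g v s
    have h1 := congrArg (fun φ : (permSumZero (ZMod p) G α).toSubmodule →ₗ[ZMod p] (Set.powersetCard α 2 → ZMod p) => φ v)
      (f.isIntertwining' g)
    exact congrFun h1 s
  have hFσ : ∀ s, F (σ⁻¹ • s) = F s := by
    intro s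
    have h1 : (permSumZero (ZMod p) G α).toRepresentation σ ⟨l, hlS⟩ = ⟨l, hlS⟩ - ⟨fun _ => 1, hcS⟩ := by
      apply Subtype.ext
      funext x
      change l (σ⁻¹ • x) = l x - 1
      obtain ⟨j, rfl⟩ := e.surjective x
      rw [hσi, hl, hl]
    rw [hF, ← hint, h1, map_sub, hf ⟨fun _ => 1, hcS⟩ (mem_permConstants.2 ⟨1, fun _ => rfl⟩), sub_zero]
  have hFτ : ∀ s, F (τ⁻¹ • s) = - F s := by
    intro s
    have h1 : (permSumZero (ZMod p) G α).toRepresentation τ ⟨l, hlS⟩ = - ⟨l, hlS⟩ := by
      apply Subtype.ext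
      funext x
      change l (τ⁻¹ • x) = - l x
      obtain ⟨j, rfl⟩ := e.surjective x
      rw [hτi, hl, hl]
    rw [hF, ← hint, h1, map_neg]; rfl
  have hFσn : ∀ (n : ℕ) s, F ((σ⁻¹) ^ n • s) = F s := by
    intro n
    induction n with
    | zero => intro s; simp
    | succ n ih => intro s; rw [pow_succ, mul_smul, ih, hFσ]
  have hF0 : F = 0 := by
    funext s
    obtain ⟨a, b, hab, hs⟩ := Finset.card_eq_two.1 (Set.powersetCard.card_eq s)
    obtain ⟨i, rfl⟩ := e.surjective a
    obtain ⟨j, rfl⟩ := e.surjective b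
    have hpowi : ∀ (n : ℕ) (k : ZMod p), ((σ⁻¹) ^ n : G) • e k = e (k - n) := by
      intro n
      induction n with
      | zero => intro k; simp
      | succ n ih => intro k; rw [pow_succ, mul_smul, hσi, ih]; congr 1; push_cast; ring
    have h1 : τ⁻¹ • s = (σ⁻¹) ^ (i + j).val • s := by
      apply Subtype.ext
      change τ⁻¹ • (s : Finset α) = (σ⁻¹) ^ (i + j).val • (s : Finset α)
      rw [hs, Finset.smul_finset_insert, Finset.smul_finset_singleton,
        Finset.smul_finset_insert, Finset.smul_finset_singleton, hτi, hτi, hpowi, hpowi, ZMod.natCast_zmod_val]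
      rw [show i - (i + j) = -j by ring, show j - (i + j) = -i by ring, Finset.pair_comm]
    have h2 := hFτ s
    rw [h1, hFσn] at h2
    have h3 : (2 : ZMod p) * F s = 0 := by linear_combination h2
    exact (mul_eq_zero.1 h3).resolve_left h2ne
  -- the kernel
  let W : Subrepresentation (permRep (ZMod p) G α) :=
    { toSubmodule := (LinearMap.ker f.toLinearMap).map (permSumZero (ZMod p) G α).toSubmodule.subtype
      apply_mem_toSubmodule := by
        rintro g _ ⟨v, hv, rfl⟩
        refine ⟨(permSumZero (ZMod p) G α).toRepresentation g v, ?_, rfl⟩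
        have hv' : f v = 0 := hv
        change f ((permSumZero (ZMod p) G α).toRepresentation g v) = 0
        funext s
        rw [hint, hv']; rfl }
  have hW1 : (permConstants (ZMod p) G α).toSubmodule ≤ W.toSubmodule := by
    intro v hv
    have hvS : v ∈ (permSumZero (ZMod p) G α).toSubmodule := by
      obtain ⟨c, hc⟩ := mem_permConstants.1 hv
      rw [mem_permSumZero, Finset.sum_congr rfl (fun x _ => hc x), Finset.sum_const, Finset.card_univ, hα]; simp
    exact ⟨⟨v, hvS⟩, hf ⟨v, hvS⟩ hv, rfl⟩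
  have hW2 : W.toSubmodule ≤ (permSumZero (ZMod p) G α).toSubmodule := by
    rintro _ ⟨v, hv, rfl⟩; exact v.2
  have hlW : l ∈ W.toSubmodule := ⟨⟨l, hlS⟩, by change f ⟨l, hlS⟩ = 0; rw [← hF, hF0], rfl⟩
  rcases heart_irreducible hα G hG W hW1 hW2 with h | h
  · exfalso
    rw [h] at hlW
    obtain ⟨c, hc⟩ := mem_permConstants.1 hlW
    have h1 := hc (e 0)
    have h2 := hc (e 1)
    rw [hl] at h1 h2
    exact h10 (h2.trans h1.symm)
  · apply Representation.IntertwiningMap.ext
    refine LinearMap.ext fun v => ?_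
    have h1 : (v : α → ZMod p) ∈ W.toSubmodule := by rw [h]; exact v.2
    obtain ⟨v', hv', hvv⟩ := h1
    have h2 : v' = v := Subtype.ext hvv
    rw [← h2]
    exact hv'

end CfsgH2
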