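import Mathlib
import Cfsg.Agent.H1.Hall
import Cfsg.Agent.H2.PrimeDeg4

set_option autoImplicit false

/-! # Groups of prime degree: subgroups of index `p` (helper2 library) -/

namespace CfsgH2

universe u v

open MulAction

theorem sym_diff_set {p : ℕ} [hp : Fact p.Prime] (hp2 : p ≠ 2) (D : Finset (ZMod p)) (hsym : ∀ j, j ∈ D → -j ∈ D)
    (hconst : ∀ d d' : ZMod p, d ≠ 0 → d' ≠ 0 →
      (D.filter (fun v => v + d ∈ D)).card = (D.filter (fun v => v + d' ∈ D)).card) :
    (∀ d : ZMod p, d ≠ 0 → d ∈ D) ∨ (∀ d : ZMod p, d ≠ 0 → d ∉ D) := by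
  classical
  have h2 : (2 : ZMod p) ≠ 0 := by
    intro h
    have h1 : ((2 : ℕ) : ZMod p) = 0 := by exact_mod_cast h
    rw [ZMod.natCast_eq_zero_iff] at h1
    exact hp2 ((Nat.prime_dvd_prime_iff_eq hp.out Nat.prime_two).1 h1)
  have key : ∀ d : ZMod p, d ≠ 0 → ((D.filter (fun v => v + 2 * d ∈ D)).card % 2 = 1 ↔ d ∈ D) := by
    intro d hd
    set S := D.filter (fun v => v + 2 * d ∈ D) with hS
    let f : Function.End S := fun v => ⟨-((v : ZMod p) + 2 * d), by
      have h1 := (Finset.mem_filter.1 v.2)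
      refine Finset.mem_filter.2 ⟨hsym _ h1.2, ?_⟩
      have h3 : -((v : ZMod p) + 2 * d) + 2 * d = -(v : ZMod p) := by ring
      rw [h3]; exact hsym _ h1.1⟩
    have hf : f ^ 2 ^ 1 = 1 := by
      rw [pow_one, pow_two]
      funext v
      apply Subtype.ext
      show -(-((v : ZMod p) + 2 * d) + 2 * d) = (v : ZMod p)
      ring
    haveI : Fact (Nat.Prime 2) := ⟨Nat.prime_two⟩
    have h1 := Equiv.Perm.card_fixedPoints_modEq hf
    have hfp : ∀ v : S, v ∈ Function.fixedPoints f ↔ (v : ZMod p) = -d := by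
      intro v
      have h3 : v ∈ Function.fixedPoints f ↔ -((v : ZMod p) + 2 * d) = (v : ZMod p) := by
        constructor
        · intro h; exact congrArg Subtype.val h
        · intro h; exact Subtype.ext h
      rw [h3]
      constructor
      · intro h
        have h4 : (2 : ZMod p) * (v : ZMod p) = 2 * (-d) := by linear_combination -h
        exact mul_left_cancel₀ h2 h4
      · intro h; rw [h]; ring
    rw [Fintype.card_coe] at h1
    by_cases hdD : d ∈ D
    · have h3 : Fintype.card (Function.fixedPoints f) = 1 := by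
        rw [Fintype.card_eq_one_iff]
        have hm : -d ∈ S := by
          rw [hS, Finset.mem_filter]
          refine ⟨hsym d hdD, ?_⟩
          have h4 : -d + 2 * d = d := by ring
          rw [h4]; exact hdD
        refine ⟨⟨⟨-d, hm⟩, (hfp _).2 rfl⟩, ?_⟩
        rintro ⟨v, hv⟩
        exact Subtype.ext (Subtype.ext ((hfp v).1 hv))
      rw [h3] at h1
      exact ⟨fun _ => hdD, fun _ => h1⟩
    · have h3 : Fintype.card (Function.fixedPoints f) = 0 := by
        rw [Fintype.card_eq_zero_iff]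
        refine ⟨?_⟩
        rintro ⟨v, hv⟩
        apply hdD
        have h4 := (hfp v).1 hv
        have h5 := (Finset.mem_filter.1 v.2).1
        rw [h4] at h5
        have h6 := hsym _ h5
        rwa [neg_neg] at h6
      rw [h3] at h1
      have h4 : S.card % 2 = 0 := h1
      constructor
      · intro h; omega
      · intro h; exact absurd h hdD
  by_cases hex : ∃ d : ZMod p, d ≠ 0 ∧ d ∈ D
  · obtain ⟨d, hd, hdD⟩ := hex
    left
    intro d' hd'
    rw [← key d' hd', ← hconst (2 * d) (2 * d') (mul_ne_zero h2 hd) (mul_ne_zero h2 hd'), key d hd]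
    exact hdD
  · right
    intro d hd hdD
    exact hex ⟨d, hd, hdD⟩

theorem transl_inv {p : ℕ} [hp : Fact p.Prime] (D : Finset (ZMod p)) {t : ZMod p} (ht : t ≠ 0)
    (h : ∀ x, x ∈ D → x + t ∈ D) {x0 : ZMod p} (hx0 : x0 ∈ D) : ∀ y, y ∈ D := by
  have h1 : ∀ n : ℕ, x0 + n * t ∈ D := by
    intro n
    induction n with
    | zero => simpa using hx0
    | succ n ih =>
      have h2 := h _ ih
      have h3 : x0 + (n : ZMod p) * t + t = x0 + ((n + 1 : ℕ) : ZMod p) * t := by push_cast; ring
      rwa [h3] at h2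
  intro y
  have h2 := h1 ((y - x0) / t).val
  rw [ZMod.natCast_zmod_val, div_mul_cancel₀ _ ht, add_sub_cancel] at h2
  exact h2

theorem not_dvd_of_index_prime {α : Type v} [Fintype α] [DecidableEq α] {p : ℕ} [hp : Fact p.Prime]
    (hα : Fintype.card α = p) (G : Subgroup (Equiv.Perm α)) [IsPretransitive G α] (H : Subgroup G) (hH : H.index = p) :
    ¬ p ∣ Nat.card H := by
  obtain ⟨P⟩ : Nonempty (Sylow p G) := inferInstance
  have hPc := sylow_card_prime hα G P
  have hHG : Nat.card H * p = Nat.card G := by rw [← hH]; exact H.card_mul_index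
  intro h
  have h1 : p ^ 2 ∣ Nat.card G := by
    rw [← hHG, pow_two]; exact Nat.mul_dvd_mul_right h p
  have h3 : p ^ 2 ∣ Nat.card P := by
    obtain ⟨Q, hQ⟩ := Sylow.exists_subgroup_card_pow_prime p h1
    have h4 : IsPGroup p Q := IsPGroup.of_card hQ
    obtain ⟨R, hR⟩ := h4.exists_le_sylow
    have h5 : Nat.card R = Nat.card P := by rw [R.card_eq_multiplicity, P.card_eq_multiplicity]
    rw [← hQ, ← h5]
    exact Subgroup.card_dvd_of_le hR
  rw [hPc] at h3
  have h4 := Nat.le_of_dvd hp.out.pos h3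
  have h5 := hp.out.one_lt
  nlinarith

theorem index_prime_stab_solv {α : Type v} [Fintype α] [DecidableEq α] {p : ℕ} [hp : Fact p.Prime]
    (hα : Fintype.card α = p) (G : Subgroup (Equiv.Perm α)) [IsPretransitive G α] (hs : Group.IsSolvable G)
    (H : Subgroup G) (hH : H.index = p) : ∃ a : α, H = stabilizer G a := by
  haveI : Nonempty α := by rw [← Fintype.card_pos_iff, hα]; exact hp.out.pos
  obtain ⟨a₀⟩ := ‹Nonempty α›
  have hidx : (stabilizer G a₀).index = p := by
    rw [index_stabilizer_of_transitive, Nat.card_eq_fintype_card, hα]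
  have hP1 : ∀ K : Subgroup G, K.index = p → CfsgH1.PiNum ({p}ᶜ : Set ℕ) (Nat.card K) := by
    intro K hK q _ hqK hqp
    rw [Set.mem_singleton_iff] at hqp
    rw [hqp] at hqK
    exact not_dvd_of_index_prime hα G K hK hqK
  have hP2 : ∀ K : Subgroup G, K.index = p → CfsgH1.PiNum (({p}ᶜ : Set ℕ)ᶜ) K.index := by
    intro K hK q hq hqK
    rw [hK] at hqK
    rw [compl_compl, Set.mem_singleton_iff]
    exact (Nat.prime_dvd_prime_iff_eq hq hp.out).1 hqK
  haveI := hs
  obtain ⟨g, hg⟩ := (CfsgH1.hallD_of_solvable (G := G) ({p}ᶜ : Set ℕ)).conj (hP1 _ hidx) (hP2 _ hidx) (hP1 _ hH) (hP2 _ hH)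
  refine ⟨g • a₀, ?_⟩
  rw [stabilizer_smul_eq_stabilizer_map_conj, ← hg]
  rfl

theorem index_prime_stab {α : Type v} [Fintype α] [DecidableEq α] {p : ℕ} [hp : Fact p.Prime] (hp2 : p ≠ 2)
    (hα : Fintype.card α = p) (G : Subgroup (Equiv.Perm α)) [IsPretransitive G α] (h2t : IsMultiplyPretransitive G α 2)
    (P : Sylow p G) (heven : Even (Nat.card (Subgroup.normalizer ((P : Subgroup G) : Set G))))
    (H : Subgroup G) (hH : H.index = p) : ∃ a : α, H = stabilizer G a := by
  classical
  obtain ⟨σ, τ, hσP, e, he, hτ, hPz⟩ := exists_coord_inv hp2 hα G P heven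
  have hPc := sylow_card_prime hα G P
  have hHG : Nat.card H * p = Nat.card G := by rw [← hH]; exact H.card_mul_index
  have hcop : ¬ p ∣ Nat.card H := by
    intro h
    have h1 : p ^ 2 ∣ Nat.card G := by
      rw [← hHG, pow_two]; exact Nat.mul_dvd_mul_right h p
    have h3 : p ^ 2 ∣ Nat.card P := by
      obtain ⟨Q, hQ⟩ := Sylow.exists_subgroup_card_pow_prime p h1
      have h4 : IsPGroup p Q := IsPGroup.of_card hQ
      obtain ⟨R, hR⟩ := h4.exists_le_sylow
      have h5 : Nat.card R = Nat.card P := by rw [R.card_eq_multiplicity, P.card_eq_multiplicity]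
      rw [← hQ, ← h5]
      exact Subgroup.card_dvd_of_le hR
    rw [hPc] at h3
    have h4 := Nat.le_of_dvd hp.out.pos h3
    have h5 := hp.out.one_lt
    nlinarith
  have hcompl : Subgroup.IsComplement' (P : Subgroup G) H := by
    apply Subgroup.isComplement'_of_coprime
    · rw [hPc, mul_comm]; exact hHG
    · rw [hPc]; exact (Nat.Prime.coprime_iff_not_dvd hp.out).2 hcop
  have hfac : ∀ g : G, ∃ i : ℤ, ∃ h ∈ H, g = σ ^ i * h := by
    intro g
    obtain ⟨⟨x, h⟩, hxh⟩ := hcompl.2 g
    have hx : (x : G) ∈ Subgroup.zpowers σ := by rw [← hPz]; exact x.2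
    obtain ⟨i, hi⟩ := hx
    exact ⟨i, h, h.2, by rw [show σ ^ i = (x : G) from hi]; exact hxh.symm⟩
  have hsz : ∀ (i : ℤ) (j : ZMod p), ((σ ^ i : G) : Equiv.Perm α) (e j) = e (j + (i : ZMod p)) := by
    intro i j
    rw [Subgroup.coe_zpow]; exact coord_zpow he i j
  -- the orbit
  let O : Set α := orbit H (e 0)
  have hO : ∀ h ∈ H, ∀ a : α, (h : Equiv.Perm α) a ∈ O ↔ a ∈ O := by
    intro h hh a
    constructor
    · intro h1
      rw [mem_orbit_iff] at h1 ⊢
      obtain ⟨k, hk⟩ := h1
      refine ⟨⟨h, hh⟩⁻¹ * k, ?_⟩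
      rw [mul_smul, hk]
      exact inv_smul_smul (⟨h, hh⟩ : H) a
    · intro h1
      rw [mem_orbit_iff] at h1 ⊢
      obtain ⟨k, hk⟩ := h1
      refine ⟨⟨h, hh⟩ * k, ?_⟩
      rw [mul_smul, hk]
      rfl
  let D : Finset (ZMod p) := Finset.univ.filter (fun j => e j ∈ O)
  have hD : ∀ j, j ∈ D ↔ e j ∈ O := fun j => by simp [D]
  have hD0 : (0 : ZMod p) ∈ D := by rw [hD]; exact mem_orbit_self _
  have hDne : ∃ j : ZMod p, j ∉ D := by
    by_contra hcon
    push Not at hcon
    apply hcop
    have h1 : O = Set.univ := by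
      ext a
      have h3 := (hD (e.symm a)).1 (hcon _)
      rw [e.apply_symm_apply] at h3
      simp [h3]
    have h3 : (stabilizer H (e 0)).index = p := by
      rw [index_stabilizer]
      show O.ncard = p
      rw [h1, Set.ncard_univ, Nat.card_eq_fintype_card, hα]
    rw [← h3]
    exact Subgroup.index_dvd_card _
  have hB : ∀ g : G, ∃ c : ZMod p, ∀ x x' : ZMod p, (g : Equiv.Perm α) (e x) = e x' → (x ∈ D ↔ x' - c ∈ D) := by
    intro g
    obtain ⟨i, h, hh, rfl⟩ := hfac g
    refine ⟨(i : ZMod p), ?_⟩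
    intro x x' hx
    obtain ⟨y, hy⟩ := e.surjective ((h : Equiv.Perm α) (e x))
    have h1 : e (y + (i : ZMod p)) = e x' := by
      rw [← hsz, hy, ← hx]; rfl
    have h3 : x' - (i : ZMod p) = y := by rw [← e.injective h1]; ring
    rw [h3, hD, hD, hy, hO h hh]
  have hB' : ∀ (g : G) (c : ZMod p), ∃ c' : ZMod p, ∀ x x' : ZMod p, (g : Equiv.Perm α) (e x) = e x' → (x - c ∈ D ↔ x' - c' ∈ D) := by
    intro g c
    obtain ⟨i, hi⟩ := ZMod.intCast_surjective c
    obtain ⟨c', hc'⟩ := hB (g * σ ^ i)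
    refine ⟨c', fun x x' hx => hc' _ _ ?_⟩
    show (g : Equiv.Perm α) (((σ ^ i : G) : Equiv.Perm α) (e (x - c))) = e x'
    rw [hsz, hi, sub_add_cancel, hx]
  -- counting
  have hN : ∀ x y : ZMod p, (D.filter (fun v => v + (x - y) ∈ D)).card = (Finset.univ.filter (fun c : ZMod p => x - c ∈ D ∧ y - c ∈ D)).card := by
    intro x y
    apply Finset.card_bij' (fun v _ => y - v) (fun c _ => y - c)
    · intro v hv
      rw [Finset.mem_filter] at hv
      simp only [Finset.mem_filter, Finset.mem_univ, true_and]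
      refine ⟨?_, ?_⟩
      · have : x - (y - v) = v + (x - y) := by ring
        rw [this]; exact hv.2
      · rw [sub_sub_cancel]; exact hv.1
    · intro c hc
      simp only [Finset.mem_filter, Finset.mem_univ, true_and] at hc
      rw [Finset.mem_filter]
      refine ⟨hc.2, ?_⟩
      have : y - c + (x - y) = x - c := by ring
      rw [this]; exact hc.1
    · intro v _; ring
    · intro c _; ring
  have hmono : ∀ x y x' y' : ZMod p, x ≠ y → x' ≠ y' →
      (Finset.univ.filter (fun c : ZMod p => x - c ∈ D ∧ y - c ∈ D)).card ≤ (Finset.univ.filter (fun c : ZMod p => x' - c ∈ D ∧ y' - c ∈ D)).card := by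
    intro x y x' y' hxy hxy'
    have h2t' := h2t
    rw [is_two_pretransitive_iff] at h2t'
    obtain ⟨g, hg1, hg2⟩ := h2t' (e.injective.ne hxy) (e.injective.ne hxy')
    have hg1' : (g : Equiv.Perm α) (e x) = e x' := hg1
    have hg2' : (g : Equiv.Perm α) (e y) = e y' := hg2
    choose π hπ using hB' g
    apply Finset.card_le_card_of_injOn π
    · intro c hc
      simp only [Finset.coe_filter, Finset.mem_univ, true_and, Set.mem_ofPred_eq] at hc ⊢
      exact ⟨(hπ c x x' hg1').1 hc.1, (hπ c y y' hg2').1 hc.2⟩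
    · intro c1 _ c2 _ hcc
      by_contra hne
      obtain ⟨j, hj⟩ := hDne
      apply hj
      apply transl_inv D (t := c1 - c2) (sub_ne_zero.2 hne) _ hD0
      intro z hz
      obtain ⟨w, hw⟩ := e.surjective ((g : Equiv.Perm α) (e (z + c1)))
      have h1 := (hπ c1 (z + c1) w hw.symm).1 (by rw [add_sub_cancel_right]; exact hz)
      rw [hcc] at h1
      have h3 := (hπ c2 (z + c1) w hw.symm).2 h1
      have h4 : z + c1 - c2 = z + (c1 - c2) := by ring
      rwa [h4] at h3
  have hconst : ∀ d d' : ZMod p, d ≠ 0 → d' ≠ 0 → (D.filter (fun v => v + d ∈ D)).card = (D.filter (fun v => v + d' ∈ D)).card := by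
    intro d d' hd hd'
    have h1 := hN d 0
    have h3 := hN d' 0
    rw [sub_zero] at h1 h3
    rw [h1, h3]
    exact le_antisymm (hmono d 0 d' 0 hd hd') (hmono d' 0 d 0 hd' hd)
  -- symmetric translate
  have h2 : (2 : ZMod p) ≠ 0 := by
    intro h
    have h1 : ((2 : ℕ) : ZMod p) = 0 := by exact_mod_cast h
    rw [ZMod.natCast_eq_zero_iff] at h1
    exact hp2 ((Nat.prime_dvd_prime_iff_eq hp.out Nat.prime_two).1 h1)
  obtain ⟨c, hc⟩ := hB τ
  set m := c / 2 with hm
  have hcm : c = m + m := by rw [hm]; field_simp; ring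
  have hsym0 : ∀ x : ZMod p, x ∈ D ↔ -x - c ∈ D := fun x => hc x (-x) (hτ x)
  let D' : Finset (ZMod p) := Finset.univ.filter (fun j => j - m ∈ D)
  have hD' : ∀ j, j ∈ D' ↔ j - m ∈ D := fun j => by simp [D']
  have hres := sym_diff_set hp2 D' (by
    intro j hj
    rw [hD'] at hj ⊢
    have h1 := (hsym0 _).1 hj
    have h3 : -(j - m) - c = -j - m := by rw [hcm]; ring
    rwa [h3] at h1) (by
    intro d d' hd hd'
    have h1 : ∀ d : ZMod p, (D'.filter (fun v => v + d ∈ D')).card = (D.filter (fun v => v + d ∈ D)).card := by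
      intro d
      apply Finset.card_bij' (fun v _ => v - m) (fun v _ => v + m)
      · intro v hv
        rw [Finset.mem_filter] at hv ⊢
        refine ⟨(hD' v).1 hv.1, ?_⟩
        have h3 := (hD' _).1 hv.2
        have h4 : v + d - m = v - m + d := by ring
        rwa [h4] at h3
      · intro v hv
        rw [Finset.mem_filter] at hv ⊢
        refine ⟨(hD' _).2 (by rw [add_sub_cancel_right]; exact hv.1), (hD' _).2 ?_⟩
        have h4 : v + m + d - m = v + d := by ring
        rw [h4]; exact hv.2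
      · intro v _; ring
      · intro v _; ring
    rw [h1, h1]; exact hconst d d' hd hd')
  -- a fixed point of `H`
  have hfixed : ∀ h ∈ H, (h : Equiv.Perm α) (e (-m)) = e (-m) := by
    intro h hh
    obtain ⟨w, hw⟩ := e.surjective ((h : Equiv.Perm α) (e (-m)))
    have h1 : e w ∈ O ↔ e (-m) ∈ O := by rw [hw, hO h hh]
    rw [← hD, ← hD] at h1
    have h3 : w + m ∈ D' ↔ (0 : ZMod p) ∈ D' := by
      rw [hD', hD', add_sub_cancel_right, zero_sub]; exact h1
    by_cases hwm : w + m = 0
    · rw [← hw, eq_neg_of_add_eq_zero_left hwm]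
    · exfalso
      rcases hres with hres | hres
      · -- everything but 0
        have h4 := h3.1 (hres _ hwm)
        obtain ⟨j, hj⟩ := hDne
        apply hj
        have h5 : j + m ∈ D' := by
          by_cases hjm : j + m = 0
          · rw [hjm]; exact h4
          · exact hres _ hjm
        rw [hD', add_sub_cancel_right] at h5
        exact h5
      · have h4 : ¬ (0 : ZMod p) ∈ D' := fun h => hres _ hwm (h3.2 h)
        have h5 : (0 : ZMod p) + m ∈ D' := by rw [hD', add_sub_cancel_right]; exact hD0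
        by_cases hm0 : (0 : ZMod p) + m = 0
        · rw [hm0] at h5; exact h4 h5
        · exact hres _ hm0 h5
  refine ⟨e (-m), ?_⟩
  have hle : H ≤ stabilizer G (e (-m)) := fun h hh => hfixed h hh
  have hidx : (stabilizer G (e (-m))).index = p := by
    rw [index_stabilizer_of_transitive, Nat.card_eq_fintype_card, hα]
  apply Subgroup.eq_of_le_of_card_ge hle
  have h4 := (stabilizer G (e (-m))).card_mul_index
  rw [hidx, ← hHG] at h4
  exact (Nat.eq_of_mul_eq_mul_right hp.out.pos h4).le

end CfsgH2
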