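import Mathlib
import Cfsg.Agent.H1.PNilp
import Cfsg.Agent.H1.MinNormal
import Cfsg.Agent.H2.PrimeDeg5

set_option autoImplicit false

/-! # Groups of prime degree: Sylow normalisers, degree 7 (helper2 library) -/

namespace CfsgH2

universe u v

open MulAction

section
variable {α : Type v} [Fintype α] [DecidableEq α] {p : ℕ} [hp : Fact p.Prime]

theorem primitive_of_prime (hα : Fintype.card α = p) (G : Subgroup (Equiv.Perm α)) [IsPretransitive G α] : IsPreprimitive G α :=
  IsPreprimitive.of_prime_card (by rw [Nat.card_eq_fintype_card, hα]; exact hp.out)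

theorem centralizer_sylow_prime (hα : Fintype.card α = p) (G : Subgroup (Equiv.Perm α)) [IsPretransitive G α] (P : Sylow p G) :
    Subgroup.centralizer ((P : Subgroup G) : Set G) = P := by
  have hPc := sylow_card_prime hα G P
  obtain ⟨σ', hσ'⟩ := exists_prime_orderOf_dvd_card' (G := P) p (by rw [hPc])
  obtain ⟨σ, hσP, hσo⟩ : ∃ σ : G, σ ∈ P ∧ orderOf σ = p := ⟨σ', σ'.2, by rw [Subgroup.orderOf_coe]; exact hσ'⟩
  have hσo' : orderOf (σ : Equiv.Perm α) = p := by rw [Subgroup.orderOf_coe]; exact hσo
  obtain ⟨e, he⟩ := exists_coord' hα (σ : Equiv.Perm α) hσo'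
  apply le_antisymm
  · intro c hc
    obtain ⟨k, hk⟩ := e.surjective ((c : Equiv.Perm α) (e 0))
    have h1 : c = σ ^ (k.val : ℤ) := by
      apply Subtype.ext
      ext a
      obtain ⟨j, rfl⟩ := e.surjective a
      have hcs : c * σ ^ (j.val : ℤ) = σ ^ (j.val : ℤ) * c := by
        have h2 := Subgroup.mem_centralizer_iff.1 hc _ (zpow_mem hσP (j.val : ℤ))
        exact h2.symm
      have h3 : e j = ((σ ^ (j.val : ℤ) : G) : Equiv.Perm α) (e 0) := by
        rw [Subgroup.coe_zpow, coord_zpow he, zero_add]; simp
      have h4 : (c : Equiv.Perm α) (e j) = e (k + j) := by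
        rw [h3]
        have h5 : (c : Equiv.Perm α) (((σ ^ (j.val : ℤ) : G) : Equiv.Perm α) (e 0)) = ((σ ^ (j.val : ℤ) : G) : Equiv.Perm α) ((c : Equiv.Perm α) (e 0)) := by
          have h6 := congrArg (fun x : G => (x : Equiv.Perm α) (e 0)) hcs
          exact h6
        rw [h5, ← hk, Subgroup.coe_zpow, coord_zpow he]; simp
      rw [h4, Subgroup.coe_zpow, coord_zpow he]
      simp [add_comm]
    rw [h1]
    exact zpow_mem hσP _
  · haveI : IsCyclic (P : Subgroup G) := isCyclic_of_prime_card hPc
    intro x hx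
    rw [Subgroup.mem_centralizer_iff]
    intro y hy
    have h1 := IsCyclic.commutative (α := (P : Subgroup G))
    have h2 := h1.is_comm.comm ⟨y, hy⟩ ⟨x, hx⟩
    exact congrArg Subtype.val h2

theorem normalizer_card_dvd (hα : Fintype.card α = p) (G : Subgroup (Equiv.Perm α)) [IsPretransitive G α] (P : Sylow p G) :
    Nat.card (Subgroup.normalizer ((P : Subgroup G) : Set G)) ∣ p * (p - 1) ∧
      p ∣ Nat.card (Subgroup.normalizer ((P : Subgroup G) : Set G)) := by
  have hPc := sylow_card_prime hα G P
  have key := Subgroup.card_dvd_of_injective _ (QuotientGroup.kerLift_injective (P : Subgroup G).normalizerMonoidHom)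
  rw [Subgroup.normalizerMonoidHom_ker, centralizer_sylow_prime hα G P] at key
  haveI : IsCyclic (P : Subgroup G) := isCyclic_of_prime_card hPc
  rw [IsCyclic.card_mulAut, hPc, Nat.totient_prime hp.out] at key
  have h1 := ((P : Subgroup G).subgroupOf (Subgroup.normalizer ((P : Subgroup G) : Set G))).card_mul_index
  rw [CfsgH1.card_subgroupOf (Subgroup.le_normalizer), hPc] at h1
  constructor
  · rw [← h1]
    exact Nat.mul_dvd_mul_left p key
  · rw [← h1]; exact Dvd.intro _ rfl

theorem solvable_of_normalizer_card (hα : Fintype.card α = p) (G : Subgroup (Equiv.Perm α)) [IsPretransitive G α] (P : Sylow p G)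
    (hN : Nat.card (Subgroup.normalizer ((P : Subgroup G) : Set G)) = p) : Group.IsSolvable G := by
  have hPc := sylow_card_prime hα G P
  have h1 : (P : Subgroup G) = Subgroup.normalizer ((P : Subgroup G) : Set G) :=
    Subgroup.eq_of_le_of_card_ge Subgroup.le_normalizer (by rw [hN, hPc])
  have h2 : Cfsg.HasNormalPComplement p G := CfsgH1.burnside_npc P (by
    rw [centralizer_sylow_prime hα G P, ← h1])
  obtain ⟨K, hK, hKP⟩ := CfsgH1.hasNPC_of_sylow h2 P
  haveI := primitive_of_prime hα G
  have hKc := hKP.card_mul_card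
  rw [hPc] at hKc
  have hKi : K.index = p := by
    have h3 := K.card_mul_index
    rw [← hKc] at h3
    exact Nat.eq_of_mul_eq_mul_left Nat.card_pos h3
  have hpK := not_dvd_of_index_prime hα G K hKi
  have hKt : ¬ IsPretransitive K α := by
    intro hKt
    apply hpK
    haveI : Nonempty α := by rw [← Fintype.card_pos_iff, hα]; exact hp.out.pos
    obtain ⟨a₀⟩ := ‹Nonempty α›
    have h3 := index_stabilizer_of_transitive K a₀
    rw [Nat.card_eq_fintype_card, hα] at h3
    rw [← h3]
    exact Subgroup.index_dvd_card _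
  have hKb : K = ⊥ := by
    by_contra hne
    apply hKt
    haveI := hK
    apply IsQuasiPreprimitive.isPretransitive_of_normal (G := G)
    intro hfix
    apply hne
    rw [Subgroup.eq_bot_iff_forall]
    intro k hk
    apply Subtype.ext
    ext a
    have h3 : a ∈ fixedPoints K α := by rw [hfix]; trivial
    exact h3 ⟨k, hk⟩
  rw [hKb, Subgroup.card_bot, one_mul] at hKc
  haveI : IsCyclic G := isCyclic_of_prime_card hKc.symm
  letI := IsCyclic.commGroup (α := G)
  infer_instance

theorem normal_pretransitive (hα : Fintype.card α = p) (G : Subgroup (Equiv.Perm α)) [IsPretransitive G α]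
    (K : Subgroup G) (hK : K.Normal) (hne : K ≠ ⊥) : IsPretransitive K α := by
  haveI := primitive_of_prime hα G
  haveI := hK
  apply IsQuasiPreprimitive.isPretransitive_of_normal (G := G)
  intro hfix
  apply hne
  rw [Subgroup.eq_bot_iff_forall]
  intro k hk
  apply Subtype.ext
  ext a
  have h3 : a ∈ fixedPoints K α := by rw [hfix]; trivial
  exact h3 ⟨k, hk⟩

theorem prime_dvd_of_trans (hα : Fintype.card α = p) {K : Type*} [Group K] [MulAction K α] [Finite K] [IsPretransitive K α] :
    p ∣ Nat.card K := by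
  haveI : Nonempty α := by rw [← Fintype.card_pos_iff, hα]; exact hp.out.pos
  obtain ⟨a₀⟩ := ‹Nonempty α›
  have h3 := index_stabilizer_of_transitive K a₀
  rw [Nat.card_eq_fintype_card, hα] at h3
  rw [← h3]
  exact Subgroup.index_dvd_card _

theorem sylow_normal_of_solvable_normal (hα : Fintype.card α = p) (G : Subgroup (Equiv.Perm α)) [IsPretransitive G α]
    (K : Subgroup G) (hK : K.Normal) (hne : K ≠ ⊥) (hs : Group.IsSolvable K) (P : Sylow p G) : (P : Subgroup G).Normal := by
  obtain ⟨A, hA1, hA2, hA3, hA4⟩ := CfsgH1.exists_min_invariant_le (B := ⊤) (K := K) (by rw [Subgroup.normalizer_eq_top_iff.2 hK]) hne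
  haveI := hs
  have hAs : Group.IsSolvable A := by
    haveI : Group.IsSolvable (A.subgroupOf K) := inferInstance
    exact Group.isSolvable_of_isSolvable_injective (Subgroup.inclusion_injective hA2)
  obtain ⟨-, r, hr, hrA⟩ := CfsgH1.elemAb_of_min_invariant hA1 hA3 hAs hA4
  haveI : Fact r.Prime := ⟨hr⟩
  have hAn : A.Normal := Subgroup.normalizer_eq_top_iff.1 (top_le_iff.1 hA1)
  haveI := normal_pretransitive hα G A hAn hA3
  have h1 : p ∣ Nat.card A := prime_dvd_of_trans hα
  have h2 : IsPGroup r A := CfsgH1.isPGroup_of_forall_pow_eq_one hrA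
  have h3 : p = r := by
    obtain ⟨k, hk⟩ := IsPGroup.iff_card.1 h2
    rw [hk] at h1
    exact (Nat.prime_dvd_prime_iff_eq hp.out hr).1 (hp.out.dvd_of_dvd_pow h1)
  subst h3
  obtain ⟨Q, hQ⟩ := h2.exists_le_sylow
  have h4 : A = Q := by
    apply Subgroup.eq_of_le_of_card_ge hQ
    rw [sylow_card_prime hα G Q]
    exact Nat.le_of_dvd Nat.card_pos h1
  have hQn : (Q : Subgroup G).Normal := by rw [← h4]; exact hAn
  haveI := Sylow.unique_of_normal Q hQn
  rw [Subsingleton.elim P Q]
  exact hQn

end

theorem sign_neg7 : Equiv.Perm.sign (Equiv.neg (ZMod 7)) = -1 := by decide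

theorem deg7_alt {α : Type v} [Fintype α] [DecidableEq α] (hα : Fintype.card α = 7) (G : Subgroup (Equiv.Perm α))
    [IsPretransitive G α] (hG : ¬ Group.IsSolvable G) (hGA : G ≤ alternatingGroup α) (hne : G ≠ alternatingGroup α) :
    Nat.card G = 168 := by
  haveI : Fact (Nat.Prime 7) := ⟨by norm_num⟩
  obtain ⟨P⟩ : Nonempty (Sylow 7 G) := inferInstance
  obtain ⟨hN1, hN2⟩ := normalizer_card_dvd hα G P
  set m := Nat.card (Subgroup.normalizer ((P : Subgroup G) : Set G)) with hm
  -- odd
  have hodd : ¬ Even m := by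
    intro heven
    obtain ⟨σ, τ, -, e, -, hτ, -⟩ := exists_coord_inv (by norm_num) hα G P heven
    have h1 : (τ : Equiv.Perm α) = e.permCongr (Equiv.neg (ZMod 7)) := by
      ext a
      obtain ⟨j, rfl⟩ := e.surjective a
      rw [hτ, Equiv.permCongr_apply, e.symm_apply_apply]; rfl
    have h2 := Equiv.Perm.mem_alternatingGroup.1 (hGA τ.2)
    rw [h1, Equiv.Perm.sign_permCongr, sign_neg7] at h2
    exact absurd h2 (by decide)
  have hm7 : m ≠ 7 := fun h => hG (solvable_of_normalizer_card hα G P h)
  have hm21 : m = 21 := by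
    have h1 : m ∣ 42 := hN1
    have h2 : m ≤ 42 := Nat.le_of_dvd (by norm_num) h1
    have hmpos : 0 < m := Nat.card_pos
    obtain ⟨k, hk⟩ := hN2
    have hk6 : k ≤ 6 := by omega
    interval_cases k
    · omega
    · omega
    · exact absurd (by rw [hk]; decide) hodd
    · exact hk
    · exact absurd (by rw [hk]; decide) hodd
    · rw [hk] at h1; norm_num at h1
    · exact absurd (by rw [hk]; decide) hodd
  have hn1 := card_sylow_modEq_one 7 G
  have hn2 : Nat.card (Sylow 7 G) = (Subgroup.normalizer ((P : Subgroup G) : Set G)).index := P.card_eq_index_normalizer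
  set n := Nat.card (Sylow 7 G) with hn
  have hGc : 21 * n = Nat.card G := by
    have h1 := (Subgroup.normalizer ((P : Subgroup G) : Set G)).card_mul_index
    rw [← hn2, ← hm, hm21] at h1
    exact h1
  have hA7 : Nat.card (alternatingGroup α) = 2520 := by
    haveI : Nontrivial α := by rw [← Fintype.one_lt_card_iff_nontrivial, hα]; norm_num
    rw [nat_card_alternatingGroup, Nat.card_eq_fintype_card, hα]; rfl
  have hd : 21 * n ∣ 2520 := by
    rw [hGc, ← hA7]; exact Subgroup.card_dvd_of_le hGA
  have hd' : n ∣ 120 := by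
    have h1 : 21 * n ∣ 21 * 120 := hd
    exact Nat.dvd_of_mul_dvd_mul_left (by norm_num) h1
  have h2t := burnside_prime hα G hG
  have hn3 : n ≤ 120 := Nat.le_of_dvd (by norm_num) hd'
  have hn4 : n = 1 ∨ n = 8 ∨ n = 15 ∨ n = 120 := by
    unfold Nat.ModEq at hn1
    clear_value n
    clear hn2 hGc hd
    interval_cases n <;> first | omega | (exfalso; revert hd'; norm_num)
  rcases hn4 with h | h | h | h
  · exfalso
    have h1 : Subsingleton (Sylow 7 G) := (Nat.card_eq_one_iff_unique.1 h).1
    have h3 : (P : Subgroup G).Normal := Sylow.normal_of_subsingleton P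
    rw [h, mul_one] at hGc
    -- order 21 is solvable
    apply hG
    have h4 : Nat.card (P : Subgroup G) = 7 := sylow_card_prime hα G P
    haveI := h3
    haveI : IsCyclic (P : Subgroup G) := isCyclic_of_prime_card h4
    have h5 : Group.IsSolvable (P : Subgroup G) := by
      letI := IsCyclic.commGroup (α := (P : Subgroup G))
      infer_instance
    have h6 : Nat.card (G ⧸ (P : Subgroup G)) = 3 := by
      have h7 := (P : Subgroup G).card_mul_index
      rw [h4, ← hGc] at h7
      have h8 : (P : Subgroup G).index = 3 := by omega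
      exact h8
    haveI : Fact (Nat.Prime 3) := ⟨by norm_num⟩
    haveI : IsCyclic (G ⧸ (P : Subgroup G)) := isCyclic_of_prime_card h6
    have h7 : Group.IsSolvable (G ⧸ (P : Subgroup G)) := by
      letI := IsCyclic.commGroup (α := (G ⧸ (P : Subgroup G)))
      infer_instance
    exact Group.isSolvable_of_ker_le_range (P : Subgroup G).subtype (QuotientGroup.mk' (P : Subgroup G)) (by
      rw [QuotientGroup.ker_mk', Subgroup.range_subtype])
  · rw [← hGc, h]
  · exfalso
    -- 2-transitive, hence even order
    rw [is_two_pretransitive_iff] at h2t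
    have h1 : ∃ a b : α, a ≠ b := by
      haveI : Nontrivial α := by rw [← Fintype.one_lt_card_iff_nontrivial, hα]; norm_num
      exact exists_pair_ne α
    obtain ⟨a, b, hab⟩ := h1
    obtain ⟨g, hg1, hg2⟩ := h2t hab hab.symm
    have hGo : Nat.card G = 315 := by rw [← hGc, h]
    have hgo : orderOf g ∣ 315 := by rw [← hGo]; exact orderOf_dvd_natCard g
    have h6 : (g * g) • a = a := by rw [mul_smul, hg1, hg2]
    have h7 : ∀ k : ℕ, ((g * g) ^ k) • a = a := by
      intro k
      induction k with
      | zero => simp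
      | succ k ih => rw [pow_succ, mul_smul, h6, ih]
    have h8 : g ^ 315 = 1 := orderOf_dvd_iff_pow_eq_one.1 hgo
    have h9 : (g ^ 315) • a = g • a := by
      have h10 : g ^ 315 = g * (g * g) ^ 157 := by
        rw [← pow_two, ← pow_mul, ← pow_succ']
      rw [h10, mul_smul, h7]
    rw [h8, one_smul, hg1] at h9
    exact hab h9
  · exfalso
    apply hne
    apply Subgroup.eq_of_le_of_card_ge hGA
    rw [hA7, ← hGc, h]

theorem deg7 {α : Type v} [Fintype α] [DecidableEq α] (hα : Fintype.card α = 7) (G : Subgroup (Equiv.Perm α))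
    [IsPretransitive G α] (hG : ¬ Group.IsSolvable G) (hA : ¬ alternatingGroup α ≤ G) : G ≤ alternatingGroup α ∧ Nat.card G = 168 := by
  classical
  haveI : Fact (Nat.Prime 7) := ⟨by norm_num⟩
  have hGA : G ≤ alternatingGroup α := by
    by_contra hGA
    let s : G →* ℤˣ := Equiv.Perm.sign.comp G.subtype
    have hK : s.ker ≠ ⊥ := by
      intro hk
      apply hG
      haveI : Group.IsSolvable ℤˣ := inferInstance
      exact Group.isSolvable_of_isSolvable_injective ((MonoidHom.ker_eq_bot_iff s).1 hk)
    let G0 : Subgroup (Equiv.Perm α) := s.ker.map G.subtype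
    haveI hKt := normal_pretransitive hα G s.ker inferInstance hK
    haveI : IsPretransitive G0 α := trans_iff.2 (trans_iff_map.1 hKt)
    have hG0A : G0 ≤ alternatingGroup α := by
      rintro _ ⟨x, hx, rfl⟩
      exact Equiv.Perm.mem_alternatingGroup.2 hx
    have hG0G : G0 ≤ G := Subgroup.map_subtype_le _
    have hG0s : ¬ Group.IsSolvable G0 := by
      intro hs
      apply hG
      have e1 : s.ker ≃* G0 := s.ker.equivMapOfInjective _ G.subtype_injective
      haveI := hs
      haveI : Group.IsSolvable s.ker := Group.isSolvable_of_isSolvable_injective (f := e1.toMonoidHom) e1.injective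
      exact Group.isSolvable_of_ker_le_range s.ker.subtype s (by rw [Subgroup.range_subtype])
    have h168 := deg7_alt hα G0 hG0s hG0A (fun h => hA (by rw [← h]; exact hG0G))
    have hcG : Nat.card G = 336 := by
      have h1 := s.ker.card_mul_index
      have h2 : Nat.card s.ker = 168 := by
        rw [← h168]
        exact Nat.card_congr (s.ker.equivMapOfInjective _ G.subtype_injective).toEquiv
      have h3 : s.ker.index = 2 := by
        have h4 : s.ker.index ∣ 2 := by
          rw [Subgroup.index_ker]
          have h5 := Subgroup.card_subgroup_dvd_card s.range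
          rwa [Nat.card_eq_fintype_card (α := ℤˣ), Fintype.card_units_int] at h5
        rcases (Nat.dvd_prime Nat.prime_two).1 h4 with h5 | h5
        · exfalso
          apply hGA
          intro g hg
          rw [Subgroup.index_eq_one] at h5
          have h6 : (⟨g, hg⟩ : G) ∈ s.ker := by rw [h5]; trivial
          exact Equiv.Perm.mem_alternatingGroup.2 h6
        · exact h5
      rw [h2, h3] at h1
      exact h1.symm
    -- a transposition in a Sylow 2-subgroup
    haveI : Fact (Nat.Prime 2) := ⟨Nat.prime_two⟩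
    haveI : Nontrivial α := by rw [← Fintype.one_lt_card_iff_nontrivial, hα]; norm_num
    obtain ⟨a, b, hab⟩ := exists_pair_ne α
    obtain ⟨T, hT⟩ := Sylow.exists_subgroup_card_pow_prime (G := G) 2 (n := 4) (by rw [hcG]; norm_num)
    let T' : Subgroup (Equiv.Perm α) := T.map G.subtype
    have hT'c : Nat.card T' = 2 ^ 4 := by
      rw [← hT]
      exact (Nat.card_congr (T.equivMapOfInjective _ G.subtype_injective).toEquiv).symm
    have hT'p : IsPGroup 2 T' := IsPGroup.of_card hT'c
    obtain ⟨S, hS⟩ := hT'p.exists_le_sylow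
    have hSc : Nat.card S = 2 ^ 4 := by
      rw [S.card_eq_multiplicity, Nat.card_eq_fintype_card, Fintype.card_perm, hα]
      have h1 : Nat.factorial 7 = 2 ^ 4 * 315 := by decide
      rw [h1, Nat.factorization_mul (by norm_num) (by norm_num), Nat.Prime.factorization_pow Nat.prime_two]
      have h2 : Nat.factorization 315 2 = 0 := Nat.factorization_eq_zero_of_not_dvd (by norm_num)
      simp [h2]
    have hST : T' = S := Subgroup.eq_of_le_of_card_ge hS (by rw [hSc, hT'c])
    have hsw : IsPGroup 2 (Subgroup.zpowers (Equiv.swap a b)) := by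
      apply IsPGroup.of_card (n := 1)
      rw [Nat.card_zpowers, (Equiv.Perm.isCycle_swap hab).orderOf, Equiv.Perm.card_support_swap hab]
      rfl
    obtain ⟨R, hR⟩ := hsw.exists_le_sylow
    obtain ⟨g, hg⟩ := MulAction.exists_smul_eq (Equiv.Perm α) R S
    have h1 : g * Equiv.swap a b * g⁻¹ ∈ (S : Subgroup (Equiv.Perm α)) := by
      rw [← hg]
      exact Subgroup.smul_mem_pointwise_smul (Equiv.swap a b) (MulAut.conj g) _ (hR (Subgroup.mem_zpowers _))
    have h2 : g * Equiv.swap a b * g⁻¹ ∈ G := by
      rw [← hST] at h1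
      exact Subgroup.map_subtype_le _ h1
    have h3 : (g * Equiv.swap a b * g⁻¹).IsSwap := by
      refine ⟨g a, g b, g.injective.ne hab, ?_⟩
      rw [Equiv.swap_apply_apply]
    have h4 := Equiv.Perm.subgroup_eq_top_of_isPreprimitive_of_isSwap_mem (primitive_of_prime hα G) _ h3 h2
    apply hA
    rw [h4]; exact le_top
  exact ⟨hGA, deg7_alt hα G hG hGA (fun h => hA h.ge)⟩

theorem deg7_simple {α : Type v} [Fintype α] [DecidableEq α] (hα : Fintype.card α = 7) (G : Subgroup (Equiv.Perm α))
    [IsPretransitive G α] (hG : ¬ Group.IsSolvable G) (hA : ¬ alternatingGroup α ≤ G) : IsSimpleGroup G := by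
  classical
  haveI : Fact (Nat.Prime 7) := ⟨by norm_num⟩
  obtain ⟨hGA, h168⟩ := deg7 hα G hG hA
  haveI : Nontrivial G := by
    rw [← Finite.one_lt_card_iff_nontrivial, h168]; norm_num
  refine ⟨fun K hK => ?_⟩
  by_cases hne : K = ⊥
  · exact Or.inl hne
  right
  haveI hKt := normal_pretransitive hα G K hK hne
  have hKs : ¬ Group.IsSolvable K := by
    intro hs
    obtain ⟨P⟩ : Nonempty (Sylow 7 G) := inferInstance
    have h1 := sylow_normal_of_solvable_normal hα G K hK hne hs P
    have h2 := (normalizer_card_dvd hα G P).1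
    rw [Subgroup.normalizer_eq_top_iff.2 h1, Subgroup.card_top, h168] at h2
    norm_num at h2
  let K0 : Subgroup (Equiv.Perm α) := K.map G.subtype
  haveI : IsPretransitive K0 α := trans_iff.2 (trans_iff_map.1 hKt)
  have hK0G : K0 ≤ G := Subgroup.map_subtype_le _
  have e1 : K ≃* K0 := K.equivMapOfInjective _ G.subtype_injective
  have hK0s : ¬ Group.IsSolvable K0 := by
    intro hs
    apply hKs
    haveI := hs
    exact Group.isSolvable_of_isSolvable_injective (f := e1.toMonoidHom) e1.injective
  have h1 := deg7_alt hα K0 hK0s (hK0G.trans hGA) (fun h => hA (by rw [← h]; exact hK0G))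
  apply Subgroup.eq_top_of_card_eq
  rw [h168, ← h1]
  exact Nat.card_congr e1.toEquiv

end CfsgH2
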