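import Cfsg.Agent.S0201
import Cfsg.Agent.S0219
import Cfsg.Agent.H1.PUnique
import Cfsg.Agent.H2.LocBal3

/-! Quasisimple groups of 2-rank 1. -/

set_option autoImplicit false

namespace CfsgH2

open Subgroup Cfsg

variable {L : Type*} [Group L] [Finite L]

/-- two commuting distinct involutions contradict 2-rank one -/
theorem eq_of_rank_one (hrk : PRankLE 2 1 L) {u z : L} (hu : orderOf u = 2) (hz : orderOf z = 2) 
    (huz : u * z = z * u) : u = z := by
  by_contra hne
  have hu2 : u ^ 2 = 1 := by rw [← hu]; exact pow_orderOf_eq_one u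
  have hz2 : z ^ 2 = 1 := by rw [← hz]; exact pow_orderOf_eq_one z
  have hu1 : u ≠ 1 := by rintro rfl; rw [orderOf_one] at hu; omega
  have hz1 : z ≠ 1 := by rintro rfl; rw [orderOf_one] at hz; omega
  have hform : ∀ x ∈ zpowers u ⊔ zpowers z, ∃ i j : ℤ, x = u ^ i * z ^ j := by
    intro x hx
    have hle : zpowers u ⊔ zpowers z ≤ _ := le_rfl
    obtain ⟨w, hw, e, he, hwe⟩ := exists_mul_of_mem_sup (A := zpowers u) (B := zpowers z) (by
      rw [zpowers_le]
      refine (CfsgH1.le_normalizer_iff_conj (H := zpowers u)).mpr ?_ (mem_zpowers u)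
      intro a ha x hx
      obtain ⟨i, rfl⟩ := mem_zpowers_iff.mp ha
      obtain ⟨k, rfl⟩ := mem_zpowers_iff.mp hx
      have h2 : Commute (u ^ i) (z ^ k) := ((show Commute u z from huz).zpow_left i).zpow_right k
      rw [h2.eq, mul_inv_cancel_right]
      exact hx) hx
    obtain ⟨i, rfl⟩ := mem_zpowers_iff.mp hw
    obtain ⟨k, rfl⟩ := mem_zpowers_iff.mp he
    exact ⟨i, k, hwe.symm⟩
  have hc : Commute u z := huz
  have h1 : IsMulCommutative (zpowers u ⊔ zpowers z : Subgroup L) := by
    refine ⟨⟨?_⟩⟩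
    rintro ⟨x, hx⟩ ⟨y, hy⟩
    obtain ⟨i, j, rfl⟩ := hform x hx
    obtain ⟨k, l, rfl⟩ := hform y hy
    apply Subtype.ext
    have c1 : Commute (u ^ i * z ^ j) (u ^ k * z ^ l) := by
      refine Commute.mul_left (Commute.mul_right ?_ ?_) (Commute.mul_right ?_ ?_)
      · exact ((Commute.refl u).zpow_left i).zpow_right k
      · exact (hc.zpow_left i).zpow_right l
      · exact (hc.symm.zpow_left j).zpow_right k
      · exact ((Commute.refl z).zpow_left j).zpow_right l
    exact c1.eq
  have h2 := hrk (zpowers u ⊔ zpowers z) h1 (by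
    intro a ha
    obtain ⟨i, j, rfl⟩ := hform a ha
    have c1 : Commute (u ^ i) (z ^ j) := (hc.zpow_left i).zpow_right j
    rw [c1.mul_pow, ← zpow_natCast, ← zpow_mul, mul_comm i, zpow_mul, zpow_natCast, hu2, one_zpow, one_mul, 
      ← zpow_natCast, ← zpow_mul, mul_comm j, zpow_mul, zpow_natCast, hz2, one_zpow])
  have hum : u ∈ zpowers u ⊔ zpowers z := (le_sup_left : zpowers u ≤ _) (mem_zpowers u)
  have hzm : z ∈ zpowers u ⊔ zpowers z := (le_sup_right : zpowers z ≤ _) (mem_zpowers z)
  classical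
  have h3 : ({1, ⟨u, hum⟩, ⟨z, hzm⟩} : Finset (zpowers u ⊔ zpowers z : Subgroup L)).card = 3 := by
    refine Finset.card_eq_three.mpr ⟨_, _, _, ?_, ?_, ?_, rfl⟩
    · intro h; exact hu1 (congrArg Subtype.val h).symm
    · intro h; exact hz1 (congrArg Subtype.val h).symm
    · intro h; exact hne (congrArg Subtype.val h)
  haveI := Fintype.ofFinite (zpowers u ⊔ zpowers z : Subgroup L)
  have h4 := Finset.card_le_univ ({1, ⟨u, hum⟩, ⟨z, hzm⟩} : Finset (zpowers u ⊔ zpowers z : Subgroup L))
  rw [h3, ← Nat.card_eq_fintype_card] at h4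
  omega

theorem sylow_quaternion (hq : IsQuasisimple L) (heven : Even (Nat.card L)) (hrk : PRankLE 2 1 L) :
    ∃ (S : Sylow 2 L) (m : ℕ), Nonempty ((S : Subgroup L) ≃* QuaternionGroup (2 ^ (m + 1))) := by
  haveI : Fact (Nat.Prime 2) := ⟨Nat.prime_two⟩
  obtain ⟨S⟩ : Nonempty (Sylow 2 L) := inferInstance
  have hdvd : 2 ∣ Nat.card S := by
    have := S.dvd_card_of_dvd_card (even_iff_two_dvd.mp heven)
    exact this
  have hnt : Nontrivial S := by
    rw [← Finite.one_lt_card_iff_nontrivial]
    exact lt_of_lt_of_le one_lt_two (Nat.le_of_dvd Nat.card_pos hdvd)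
  -- a central involution of S
  obtain ⟨c, hc⟩ : ∃ c : S, c ∈ center S ∧ orderOf c = 2 := by
    have h1 : Nontrivial (center S) := S.isPGroup'.center_nontrivial
    obtain ⟨n, hn⟩ := IsPGroup.iff_card.mp (S.isPGroup'.to_subgroup (center S))
    have h2 : 2 ∣ Nat.card (center S) := by
      rcases n with _ | n
      · rw [pow_zero] at hn
        have := Finite.one_lt_card_iff_nontrivial.mpr h1
        omega
      · rw [hn]; exact dvd_pow_self 2 (by omega)
    obtain ⟨c, hc⟩ := exists_prime_orderOf_dvd_card' 2 h2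
    exact ⟨c, c.2, by rw [Subgroup.orderOf_coe]; exact hc⟩
  have hinv : ∀ u : S, orderOf u = 2 → u = c := by
    intro u hu
    apply Subtype.ext
    refine eq_of_rank_one hrk (by rw [Subgroup.orderOf_coe]; exact hu) (by rw [Subgroup.orderOf_coe]; exact hc.2) ?_
    exact congrArg Subtype.val (mem_center_iff.mp hc.1 u)
  have huniq : ∀ H K : Subgroup S, Nat.card H = 2 → Nat.card K = 2 → H = K := by
    have key : ∀ H : Subgroup S, Nat.card H = 2 → H = zpowers c := by
      intro H hH
      symm
      refine eq_of_le_of_card_ge ?_ (hH.le.trans (by rw [Nat.card_zpowers, hc.2]))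
      obtain ⟨h, hh⟩ := exists_prime_orderOf_dvd_card' (G := H) 2 (by rw [hH])
      have := hinv h (by rw [Subgroup.orderOf_coe]; exact hh)
      rw [zpowers_le, ← this]
      exact h.2
    intro H K hH hK
    rw [key H hH, key K hK]
  have hnc : ¬ IsCyclic S := by
    intro hcyc
    obtain ⟨H, hH⟩ := Cfsg.Agent.S0219.result heven S hcyc
    have hHn : H.Normal := normal_of_index_eq_two hH
    rcases IsQuasisimple.normal_eq_top_or_le_center hq H with h | h
    · rw [h, index_top] at hH; omega
    · have h1 : (center L).index ∣ 2 := by rw [← hH]; exact index_dvd_of_le h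
      have h2 : IsCyclic (L ⧸ center L) := by
        rcases (Nat.dvd_prime Nat.prime_two).mp h1 with h3 | h3
        · have : Subsingleton (L ⧸ center L) := by
            rw [← Finite.card_le_one_iff_subsingleton]
            exact h3.le
          exact isCyclic_of_subsingleton
        · exact isCyclic_of_prime_card (p := 2) h3
      apply IsQuasisimple.not_isMulCommutative hq
      have h4 : ∀ a b : L, a * b = b * a := 
        commutative_of_cyclic_center_quotient (QuotientGroup.mk' (center L)) (by rw [QuotientGroup.ker_mk'])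
      exact ⟨⟨h4⟩⟩
  rcases CfsgH1.punique_classification S.isPGroup' huniq with h | ⟨-, n, ⟨e⟩⟩
  · exact absurd h hnc
  · rcases n with _ | n
    · exfalso
      apply hnc
      have : IsCyclic (QuaternionGroup (2 ^ 0)) := QuaternionGroup.quaternionGroup_one_isCyclic
      exact isCyclic_of_surjective e.symm e.symm.surjective
    · exact ⟨S, n, ⟨e⟩⟩

theorem exists_central_involution (hq : IsQuasisimple L) (S : Sylow 2 L) {m : ℕ} 
    (e : (S : Subgroup L) ≃* QuaternionGroup (2 ^ (m + 1))) : ∃ z : L, z ∈ center L ∧ orderOf z = 2 := by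
  haveI : Fact (Nat.Prime 2) := ⟨Nat.prime_two⟩
  obtain ⟨π, hπ⟩ : ∃ π : L →* L ⧸ pPrimeCore 2 L, π = QuotientGroup.mk' (pPrimeCore 2 L) := ⟨_, rfl⟩
  have hπs : Function.Surjective π := by rw [hπ]; exact QuotientGroup.mk'_surjective _
  have hπ1 : ∀ x : L, π x = 1 ↔ x ∈ pPrimeCore 2 L := by
    intro x; rw [hπ]; exact QuotientGroup.eq_one_iff x
  let S' : Sylow 2 (L ⧸ pPrimeCore 2 L) := S.mapSurjective hπs
  have hbij : Function.Bijective (π.subgroupMap (S : Subgroup L)) := by
    refine ⟨?_, π.subgroupMap_surjective _⟩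
    rw [injective_iff_map_eq_one]
    intro s hs
    have h1 : π s = 1 := congrArg Subtype.val hs
    rw [hπ1] at h1
    obtain ⟨k, hk⟩ := S.isPGroup' s
    have h2 : (s : L) ^ (2 ^ k) = 1 := by
      have := congrArg Subtype.val hk
      exact this
    have h3 : orderOf (s : L) ∣ Nat.card (pPrimeCore 2 L) := by
      have := orderOf_dvd_natCard (⟨(s : L), h1⟩ : pPrimeCore 2 L)
      rwa [← Subgroup.orderOf_coe] at this
    have h4 := coprime_card_pPrimeCore 2 (G := L)
    have h5 : orderOf (s : L) = 1 := Nat.eq_one_of_dvd_coprimes (Nat.Coprime.pow_right k h4) h3 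
      (orderOf_dvd_of_pow_eq_one h2)
    exact Subtype.ext (orderOf_eq_one_iff.mp h5)
  have e' : (S' : Subgroup (L ⧸ pPrimeCore 2 L)) ≃* QuaternionGroup (2 ^ (m + 1)) :=
    (MulEquiv.ofBijective _ hbij).symm.trans e
  have hcard := Cfsg.Agent.S0201.result S' m e' (by
    intro N hN hodd
    have h1 : N ≤ pPrimeCore 2 (L ⧸ pPrimeCore 2 L) := CfsgH2.le_pPrimeCore hN (Nat.coprime_two_right.mpr hodd)
    rw [pPrimeCore_quotient_pPrimeCore 2] at h1
    exact le_bot_iff.mp h1)
  obtain ⟨w, hw⟩ := exists_prime_orderOf_dvd_card' (G := center (L ⧸ pPrimeCore 2 L)) 2 (by rw [hcard])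
  obtain ⟨x, hx⟩ := hπs (w : L ⧸ pPrimeCore 2 L)
  have hxc : x ∈ center L := by
    haveI : ((center (L ⧸ pPrimeCore 2 L)).comap π).Normal := inferInstance
    rcases IsQuasisimple.normal_eq_top_or_le_center hq ((center (L ⧸ pPrimeCore 2 L)).comap π) with h | h
    · exfalso
      have hcomm : center (L ⧸ pPrimeCore 2 L) = ⊤ := by
        rw [eq_top_iff]
        intro y _
        obtain ⟨l, rfl⟩ := hπs y
        have : l ∈ (center (L ⧸ pPrimeCore 2 L)).comap π := by rw [h]; exact mem_top _
        exact this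
      have h1 : ⁅(⊤ : Subgroup L), ⊤⁆ ≤ pPrimeCore 2 L := by
        rw [commutator_le]
        intro a _ b _
        rw [← hπ1, map_commutatorElement, commutatorElement_eq_one_iff_mul_comm]
        have : π a ∈ center (L ⧸ pPrimeCore 2 L) := by rw [hcomm]; exact mem_top _
        exact (mem_center_iff.mp this (π b)).symm
      have h2 : (⊤ : Subgroup L) ≤ pPrimeCore 2 L := by
        have h3 := IsQuasisimple.commutator_top hq
        rw [commutator_def] at h3
        rwa [h3] at h1
      have h3 : π x = 1 := (hπ1 x).mpr (h2 (mem_top x))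
      rw [hx] at h3
      have h4 : w = 1 := Subtype.ext h3
      rw [h4, orderOf_one] at hw
      omega
    · exact h (by rw [mem_comap, hx]; exact w.2)
  have h2 : 2 ∣ orderOf x := by
    have h3 := orderOf_map_dvd π x
    rw [hx, Subgroup.orderOf_coe, hw] at h3
    exact h3
  refine ⟨x ^ (orderOf x / 2), pow_mem hxc _, ?_⟩
  rw [orderOf_pow_of_dvd (by have := orderOf_pos x; have := Nat.div_pos (Nat.le_of_dvd this h2) two_pos; omega) 
    (Nat.div_dvd_of_dvd h2)]
  exact Nat.div_div_self h2 (orderOf_pos x).ne'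

end CfsgH2
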