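import Mathlib
import Cfsg.Agent.H1.Fpf
import Cfsg.Agent.H2.CycCount

set_option autoImplicit false

/-! # Regular linear groups (helper2 library) -/

namespace CfsgH2

universe u v

theorem card_dvd_of_free {A : Type u} {X : Type v} [Group A] [MulAction A X] [Finite X] [Finite A] (hfree : ∀ (a : A) (x : X), a • x = x → a = 1) :
    Nat.card A ∣ Nat.card X := by
  apply dvd_card_of_fibers (fun x : X => (Quotient.mk _ x : MulAction.orbitRel.Quotient A X))
  intro x0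
  have h1 : Nat.card {x : X // (Quotient.mk _ x : MulAction.orbitRel.Quotient A X) = Quotient.mk _ x0} = Nat.card A := by
    symm
    refine Nat.card_eq_of_bijective (fun a => ⟨a • x0, Quotient.sound ⟨a, rfl⟩⟩) ⟨?_, ?_⟩
    · intro a b hab
      have h2 : a • x0 = b • x0 := congrArg Subtype.val hab
      have h3 : (b⁻¹ * a) • x0 = x0 := by rw [mul_smul, h2, inv_smul_smul]
      have h4 := hfree _ _ h3
      exact (inv_mul_eq_one.1 h4).symm
    · rintro ⟨x, hx⟩
      obtain ⟨a, ha⟩ := Quotient.exact hx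
      exact ⟨a, Subtype.ext ha⟩
  rw [h1]

section lin
variable {p : ℕ} [Fact p.Prime] {V : Type u} [AddCommGroup V] [Module (ZMod p) V] [Finite V]

theorem reg_fpf {H : Subgroup (V ≃ₗ[ZMod p] V)} (hreg : ∀ v w : V, v ≠ 0 → w ≠ 0 → ∃! h : H, (h : V ≃ₗ[ZMod p] V) v = w)
    {h : H} {v : V} (hv : v ≠ 0) (hh : (h : V ≃ₗ[ZMod p] V) v = v) : h = 1 := by
  obtain ⟨h0, -, hu⟩ := hreg v v hv hv
  rw [hu h hh, hu 1 rfl]

theorem reg_abelian_cyclic {H : Subgroup (V ≃ₗ[ZMod p] V)} [Nontrivial V] (hreg : ∀ v w : V, v ≠ 0 → w ≠ 0 → ∃! h : H, (h : V ≃ₗ[ZMod p] V) v = w)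
    (A : Subgroup H) (hA : ∀ a b : A, a * b = b * a) : IsCyclic A := by
  letI : MulDistribMulAction A (Multiplicative V) :=
    { smul := fun a v => Multiplicative.ofAdd (((a : H) : V ≃ₗ[ZMod p] V) (Multiplicative.toAdd v))
      one_smul := fun v => rfl
      mul_smul := fun a b v => rfl
      smul_mul := fun a v w => congrArg Multiplicative.ofAdd (map_add ((a : H) : V ≃ₗ[ZMod p] V) _ _)
      smul_one := fun a => congrArg Multiplicative.ofAdd (map_zero ((a : H) : V ≃ₗ[ZMod p] V)) }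
  haveI : Finite (V ≃ₗ[ZMod p] V) := Finite.of_injective (fun f => (f : V → V)) DFunLike.coe_injective
  apply CfsgH1.isCyclic_of_fpf (A := A) (V := Multiplicative V) (Or.inl hA)
  intro a ha v hv
  by_contra hv1
  apply ha
  have h1 : ((a : H) : V ≃ₗ[ZMod p] V) (Multiplicative.toAdd v) = Multiplicative.toAdd v := congrArg Multiplicative.toAdd hv
  exact Subtype.ext (reg_fpf hreg (v := Multiplicative.toAdd v) (fun h => hv1 h) h1)

theorem exists_minimal_inv (A : Set (V ≃ₗ[ZMod p] V)) (W0 : Submodule (ZMod p) V) (hW0 : W0 ≠ ⊥) (hinv : ∀ a ∈ A, ∀ v ∈ W0, a v ∈ W0) :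
    ∃ W : Submodule (ZMod p) V, W ≤ W0 ∧ W ≠ ⊥ ∧ (∀ a ∈ A, ∀ v ∈ W, a v ∈ W) ∧
      ∀ W' : Submodule (ZMod p) V, W' ≤ W → (∀ a ∈ A, ∀ v ∈ W', a v ∈ W') → W' = ⊥ ∨ W' = W := by
  haveI : Finite (Submodule (ZMod p) V) := Finite.of_injective (fun W => (W : Set V)) SetLike.coe_injective
  obtain ⟨W, hW⟩ := (Set.toFinite {W : Submodule (ZMod p) V | W ≤ W0 ∧ W ≠ ⊥ ∧ ∀ a ∈ A, ∀ v ∈ W, a v ∈ W}).exists_minimal ⟨W0, le_rfl, hW0, hinv⟩
  refine ⟨W, hW.1.1, hW.1.2.1, hW.1.2.2, ?_⟩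
  intro W' hle hinv'
  by_cases hb : W' = ⊥
  · exact Or.inl hb
  · exact Or.inr (le_antisymm hle (hW.2 ⟨hle.trans hW.1.1, hb, hinv'⟩ hle))

theorem card_dvd_sub {H : Subgroup (V ≃ₗ[ZMod p] V)} (hreg : ∀ v w : V, v ≠ 0 → w ≠ 0 → ∃! h : H, (h : V ≃ₗ[ZMod p] V) v = w)
    (A : Subgroup H) (W : Submodule (ZMod p) V) (hinv : ∀ a ∈ A, ∀ v ∈ W, ((a : H) : V ≃ₗ[ZMod p] V) v ∈ W) :
    Nat.card A ∣ Nat.card W - 1 := by
  haveI : Finite (V ≃ₗ[ZMod p] V) := Finite.of_injective (fun f => (f : V → V)) DFunLike.coe_injective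
  letI : MulAction A {v : W // v ≠ 0} :=
    { smul := fun a v => ⟨⟨((a : H) : V ≃ₗ[ZMod p] V) v.1, hinv a a.2 v.1 v.1.2⟩, fun h => v.2 (by
        have h1 : ((a : H) : V ≃ₗ[ZMod p] V) (v.1 : V) = 0 := congrArg Subtype.val h
        exact Subtype.ext (((a : H) : V ≃ₗ[ZMod p] V).map_eq_zero_iff.1 h1))⟩
      one_smul := fun v => rfl
      mul_smul := fun a b v => rfl }
  have h1 := card_dvd_of_free (A := A) (X := {v : W // v ≠ 0}) (by
    intro a x hx
    have h2 : ((a : H) : V ≃ₗ[ZMod p] V) ((x : W) : V) = ((x : W) : V) := congrArg (fun y : {v : W // v ≠ 0} => ((y : W) : V)) hx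
    exact Subtype.ext (reg_fpf hreg (v := ((x : W) : V)) (fun h => x.2 (Subtype.ext h)) h2))
  have h2 : Nat.card {v : W // v ≠ 0} = Nat.card W - 1 := by
    classical
    haveI : Fintype W := Fintype.ofFinite W
    rw [Nat.card_eq_fintype_card, Nat.card_eq_fintype_card, Fintype.card_subtype_compl, Fintype.card_subtype_eq]
  rwa [h2] at h1

theorem reg_centralizer {H : Subgroup (V ≃ₗ[ZMod p] V)} (hreg : ∀ v w : V, v ≠ 0 → w ≠ 0 → ∃! h : H, (h : V ≃ₗ[ZMod p] V) v = w)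
    (hI : ∀ A : Subgroup H, A.Normal → IsCyclic A → ∃ W : Submodule (ZMod p) V, W ≠ ⊥ ∧ W ≠ ⊤ ∧ ∀ a ∈ A, ∀ v ∈ W, ((a : H) : V ≃ₗ[ZMod p] V) v ∈ W)
    (A : Subgroup H) (hAn : A.Normal) (hAc : ∀ a b : A, a * b = b * a) : Subgroup.centralizer (A : Set H) ≠ A := by
  intro hCA
  haveI : Finite (V ≃ₗ[ZMod p] V) := Finite.of_injective (fun f => (f : V → V)) DFunLike.coe_injective
  haveI hVn : Nontrivial V := by
    obtain ⟨W, hW, -⟩ := hI ⊥ inferInstance inferInstance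
    by_contra h
    rw [not_nontrivial_iff_subsingleton] at h
    exact hW (Subsingleton.elim _ _)
  have hcyc : IsCyclic A := reg_abelian_cyclic hreg A hAc
  obtain ⟨W0, hW0, hW0t, hW0i⟩ := hI A hAn hcyc
  obtain ⟨W, hWW0, hWb, hWi, hWmin⟩ := exists_minimal_inv {f : V ≃ₗ[ZMod p] V | ∃ a ∈ A, ((a : H) : V ≃ₗ[ZMod p] V) = f} W0 hW0 (by
    rintro _ ⟨a, ha, rfl⟩ v hv
    exact hW0i a ha v hv)
  have hWi' : ∀ a ∈ A, ∀ v ∈ W, ((a : H) : V ≃ₗ[ZMod p] V) v ∈ W := fun a ha v hv => hWi _ ⟨a, ha, rfl⟩ v hv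
  have hWt : W ≠ ⊤ := by
    intro h
    rw [h] at hWW0
    exact hW0t (top_le_iff.1 hWW0)
  obtain ⟨v, hvW⟩ : ∃ v, v ∉ W := by
    by_contra hcon
    push Not at hcon
    exact hWt (eq_top_iff.2 fun v _ => hcon v)
  obtain ⟨w, hwW, hw0⟩ := (Submodule.ne_bot_iff W).1 hWb
  have hv0 : v ≠ 0 := fun h => hvW (h ▸ W.zero_mem)
  obtain ⟨h, hh, -⟩ := hreg w v hw0 hv0
  -- the translate
  let W1 : Submodule (ZMod p) V := W.map ((h : V ≃ₗ[ZMod p] V) : V →ₗ[ZMod p] V)
  have hW1i : ∀ a ∈ A, ∀ u ∈ W1, ((a : H) : V ≃ₗ[ZMod p] V) u ∈ W1 := by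
    rintro a ha _ ⟨u, hu, rfl⟩
    have h1 : h⁻¹ * a * h ∈ A := by
      have := hAn.conj_mem a ha h⁻¹
      rwa [inv_inv] at this
    refine ⟨((h⁻¹ * a * h : H) : V ≃ₗ[ZMod p] V) u, hWi' _ h1 u hu, ?_⟩
    show ((h * (h⁻¹ * a * h) : H) : V ≃ₗ[ZMod p] V) u = ((a * h : H) : V ≃ₗ[ZMod p] V) u
    have e : h * (h⁻¹ * a * h) = a * h := by group
    rw [e]
  have hinf : W ⊓ W1 = ⊥ := by
    rcases hWmin (W ⊓ W1) inf_le_left (by
      rintro _ ⟨a, ha, rfl⟩ u hu
      exact ⟨hWi' a ha u hu.1, hW1i a ha u hu.2⟩) with h1 | h1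
    · exact h1
    · exfalso
      have h2 : W ≤ W1 := inf_eq_left.1 h1
      have h3 : Module.finrank (ZMod p) W1 = Module.finrank (ZMod p) W := LinearEquiv.finrank_map_eq (h : V ≃ₗ[ZMod p] V) W
      have h4 : W = W1 := Submodule.eq_of_le_of_finrank_eq h2 h3.symm
      apply hvW
      rw [h4]
      exact ⟨w, hwW, hh⟩
  have hcW1 : Nat.card W1 = Nat.card W := by
    rw [Module.natCard_eq_pow_finrank (K := ZMod p), Module.natCard_eq_pow_finrank (K := ZMod p) (V := W)]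
    congr 1
    exact LinearEquiv.finrank_map_eq (h : V ≃ₗ[ZMod p] V) W
  have hcV : Nat.card W * Nat.card W ≤ Nat.card V := by
    have h1 : Nat.card (W × W1) ≤ Nat.card V := by
      apply Nat.card_le_card_of_injective (fun x : W × W1 => (x.1 : V) + x.2)
      rintro ⟨a, b⟩ ⟨c, d⟩ hab
      have h2 : (a : V) + b = c + d := hab
      have h3 : (a : V) - c = d - b := by
        rw [sub_eq_sub_iff_add_eq_add, h2, add_comm]
      have h4 : (a : V) - c ∈ W ⊓ W1 := ⟨W.sub_mem a.2 c.2, h3 ▸ W1.sub_mem d.2 b.2⟩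
      rw [hinf, Submodule.mem_bot] at h4
      have h5 : a = c := Subtype.ext (sub_eq_zero.1 h4)
      have h6 : b = d := by
        rw [h4] at h3
        exact Subtype.ext (sub_eq_zero.1 h3.symm).symm
      rw [h5, h6]
    rwa [Nat.card_prod, hcW1] at h1
  -- order of H
  have hHc : Nat.card V ≤ Nat.card H + 1 := by
    have h1 : Nat.card V ≤ Nat.card (Option H) := by
      classical
      apply Nat.card_le_card_of_surjective (fun o : Option H => match o with | none => (0 : V) | some x => ((x : V ≃ₗ[ZMod p] V) w))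
      intro u
      by_cases hu : u = 0
      · exact ⟨none, hu.symm⟩
      · obtain ⟨x, hx, -⟩ := hreg w u hw0 hu
        exact ⟨some x, hx⟩
    rwa [Finite.card_option] at h1
  have hAW : Nat.card A + 1 ≤ Nat.card W := by
    have h1 := card_dvd_sub hreg A W hWi'
    have h2 : 1 < Nat.card W := by
      haveI : Nontrivial W := Submodule.nontrivial_iff_ne_bot.2 hWb
      exact Finite.one_lt_card
    have h3 := Nat.le_of_dvd (by omega) h1
    omega
  have hHA : Nat.card H ≤ Nat.card A * Nat.card A := by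
    obtain ⟨g, hg⟩ := hcyc.exists_generator
    have h1 : Nat.card (H ⧸ A) ≤ Nat.card A := by
      apply Nat.card_le_card_of_injective (fun x : H ⧸ A => (⟨x.out * g * x.out⁻¹, hAn.conj_mem g g.2 x.out⟩ : A))
      intro x y hxy
      have h2 : x.out * (g : H) * x.out⁻¹ = y.out * g * y.out⁻¹ := congrArg Subtype.val hxy
      have h3 : x.out⁻¹ * y.out ∈ Subgroup.centralizer (A : Set H) := by
        rw [Subgroup.mem_centralizer_iff]
        intro a ha
        obtain ⟨k, hk⟩ := hg ⟨a, ha⟩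
        have h4 : a = (g : H) ^ k := (congrArg Subtype.val hk).symm
        have h5 : Commute (x.out⁻¹ * y.out) (g : H) := by
          show x.out⁻¹ * y.out * (g : H) = g * (x.out⁻¹ * y.out)
          calc x.out⁻¹ * y.out * (g : H) = x.out⁻¹ * (y.out * g * y.out⁻¹) * y.out := by group
            _ = x.out⁻¹ * (x.out * g * x.out⁻¹) * y.out := by rw [h2]
            _ = _ := by group
        rw [h4]
        exact (h5.zpow_right k).eq.symm
      rw [hCA] at h3
      rw [← QuotientGroup.out_eq' x, ← QuotientGroup.out_eq' y]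
      exact QuotientGroup.eq.2 h3
    rw [Subgroup.card_eq_card_quotient_mul_card_subgroup A]
    exact Nat.mul_le_mul_right _ h1
  have h7 : Nat.card A * Nat.card A + 1 < Nat.card W * Nat.card W := by
    have hApos : 0 < Nat.card A := Nat.card_pos
    calc Nat.card A * Nat.card A + 1 < (Nat.card A + 1) * (Nat.card A + 1) := by nlinarith
      _ ≤ Nat.card W * Nat.card W := Nat.mul_le_mul hAW hAW
  omega

end lin

end CfsgH2
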