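import Mathlib
import Cfsg.Agent.H2.PGLRec
import Cfsg.Agent.S0680

/-! Sharply triply transitive groups. -/

set_option autoImplicit false

namespace CfsgH2

open Subgroup

variable {α : Type*} [Fintype α] [DecidableEq α]

theorem three_trans {G : Subgroup (Equiv.Perm α)} (h3 : MulAction.IsMultiplyPretransitive G α 3)
    {x1 x2 x3 y1 y2 y3 : α} (h12 : x1 ≠ x2) (h13 : x1 ≠ x3) (h23 : x2 ≠ x3) (k12 : y1 ≠ y2) 
    (k13 : y1 ≠ y3) (k23 : y2 ≠ y3) : ∃ g ∈ G, g x1 = y1 ∧ g x2 = y2 ∧ g x3 = y3 := by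
  let X : Fin 3 ↪ α := ⟨![x1, x2, x3], by
    intro i j h
    fin_cases i <;> fin_cases j <;> simp_all⟩
  let Y : Fin 3 ↪ α := ⟨![y1, y2, y3], by
    intro i j h
    fin_cases i <;> fin_cases j <;> simp_all⟩
  obtain ⟨g, hg⟩ := h3.exists_smul_eq X Y
  have hgi : ∀ i, g • X i = Y i := fun i => by rw [← hg]; rfl
  exact ⟨g, g.2, hgi 0, hgi 1, hgi 2⟩

theorem three_sharp {G : Subgroup (Equiv.Perm α)} (hsharp : ∀ x : Fin 3 ↪ α, MulAction.stabilizer G x = ⊥)
    {x1 x2 x3 : α} (h12 : x1 ≠ x2) (h13 : x1 ≠ x3) (h23 : x2 ≠ x3) {g : Equiv.Perm α} (hg : g ∈ G)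
    (h1 : g x1 = x1) (h2 : g x2 = x2) (h3 : g x3 = x3) : g = 1 := by
  let X : Fin 3 ↪ α := ⟨![x1, x2, x3], by
    intro i j h
    fin_cases i <;> fin_cases j <;> simp_all⟩
  have h : (⟨g, hg⟩ : G) ∈ MulAction.stabilizer G X := by
    rw [MulAction.mem_stabilizer_iff]
    ext i
    change g (X i) = X i
    fin_cases i
    · exact h1
    · exact h2
    · exact h3
  rw [hsharp X] at h
  exact congrArg Subtype.val (mem_bot.mp h)

theorem exists_fpf_subgroup {G : Subgroup (Equiv.Perm α)} (h3 : MulAction.IsMultiplyPretransitive G α 3)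
    (hsharp : ∀ x : Fin 3 ↪ α, MulAction.stabilizer G x = ⊥) (hcard : 3 ≤ Fintype.card α) (a : α) :
    ∃ (V : Subgroup (Equiv.Perm α)) (p j : ℕ), V ≤ G ∧ (∀ v ∈ V, v a = a) ∧ 
      (∀ x y, x ≠ a → y ≠ a → ∃ v ∈ V, v x = y) ∧ (∀ v ∈ V, ∀ y, y ≠ a → v y = y → v = 1) ∧
      (∀ v ∈ V, ∀ w ∈ V, v * w = w * v) ∧ (∀ h ∈ G, h a = a → ∀ v ∈ V, h * v * h⁻¹ ∈ V) ∧
      p.Prime ∧ 1 ≤ j ∧ Fintype.card α = p ^ j + 1 ∧ (∀ v ∈ V, v ^ p = 1) ∧ 
      (∀ g ∈ G, g a = a → (∀ y, y ≠ a → g y ≠ y) → g ∈ V) := by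
  classical
  let Ω := {y : α // y ≠ a}
  have hΩ : Fintype.card Ω + 1 = Fintype.card α := by
    have h1 : Fintype.card Ω = Fintype.card α - 1 := by
      simp [Ω, Fintype.card_subtype_compl]
    omega
  let G' : Subgroup (Equiv.Perm Ω) := 
    { carrier := {σ | ∃ g ∈ G, g a = a ∧ ∀ y : Ω, g y = σ y}
      mul_mem' := by
        rintro σ τ ⟨g, hg, hga, hgs⟩ ⟨k, hk, hka, hks⟩
        refine ⟨g * k, G.mul_mem hg hk, by rw [Equiv.Perm.mul_apply, hka, hga], fun y => ?_⟩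
        rw [Equiv.Perm.mul_apply, hks, hgs]; rfl
      one_mem' := ⟨1, G.one_mem, rfl, fun y => rfl⟩
      inv_mem' := by
        rintro σ ⟨g, hg, hga, hgs⟩
        refine ⟨g⁻¹, G.inv_mem hg, by rw [Equiv.Perm.inv_eq_iff_eq, hga], fun y => ?_⟩
        rw [Equiv.Perm.inv_eq_iff_eq, hgs, perm_self_inv] }
  have hres : ∀ g ∈ G, g a = a → ∃ σ ∈ G', ∀ y : Ω, g y = σ y := by
    intro g hg hga
    have h1 : ∀ y, g y ≠ a ↔ y ≠ a := by
      intro y
      constructor
      · rintro h rfl; exact h hga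
      · intro h h2; exact h (g.injective (h2.trans hga.symm))
    let σ : Equiv.Perm Ω := 
      { toFun := fun y => ⟨g y, (h1 y).mpr y.2⟩
        invFun := fun y => ⟨g⁻¹ y, (h1 _).mp (by rw [perm_self_inv]; exact y.2)⟩
        left_inv := fun y => Subtype.ext (perm_inv_self g y)
        right_inv := fun y => Subtype.ext (perm_self_inv g y) }
    exact ⟨σ, ⟨g, hg, hga, fun y => rfl⟩, fun y => rfl⟩
  have h2' : MulAction.IsMultiplyPretransitive G' Ω 2 := by
    constructor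
    intro X Y
    have hX : X 0 ≠ X 1 := fun h => absurd (X.injective h) (by decide)
    have hY : Y 0 ≠ Y 1 := fun h => absurd (Y.injective h) (by decide)
    obtain ⟨g, hg, hga, hg1, hg2⟩ := three_trans h3 (X 0).2.symm (X 1).2.symm 
      (fun h => hX (Subtype.ext h)) (Y 0).2.symm (Y 1).2.symm (fun h => hY (Subtype.ext h))
    obtain ⟨σ, hσ, hgσ⟩ := hres g hg hga
    refine ⟨⟨σ, hσ⟩, ?_⟩
    ext i
    change ((σ (X i) : Ω) : α) = Y i
    rw [← hgσ]
    fin_cases i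
    · exact hg1
    · exact hg2
  have hsh2 : ∀ X : Fin 2 ↪ Ω, MulAction.stabilizer G' X = ⊥ := by
    intro X
    rw [eq_bot_iff]
    rintro ⟨σ, hσ⟩ h
    rw [MulAction.mem_stabilizer_iff] at h
    have hX : X 0 ≠ X 1 := fun h => absurd (X.injective h) (by decide)
    obtain ⟨g, hg, hga, hgσ⟩ := hσ
    have hi : ∀ i, σ (X i) = X i := fun i => by
      have := congrArg (fun Z : Fin 2 ↪ Ω => Z i) h
      exact this
    have h1 : g = 1 := three_sharp hsharp (X 0).2.symm (X 1).2.symm (fun h => hX (Subtype.ext h)) hg hga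
      (by rw [hgσ, hi]) (by rw [hgσ, hi])
    rw [mem_bot]
    apply Subtype.ext
    ext y
    change ((σ y : Ω) : α) = y
    rw [← hgσ, h1]; rfl
  obtain ⟨p, j, hp, hj, hcardp, hP⟩ := Cfsg.Agent.S0680.result G' hsh2 (by
    omega)
  haveI := Fact.mk hp
  obtain ⟨P⟩ : Nonempty (Sylow p G') := inferInstance
  obtain ⟨hPn, hPc, hPe, hPt, hPs, hPf⟩ := hP ⟨hp⟩ P
  have hext : ∀ g g' : Equiv.Perm α, g a = g' a → (∀ k : Ω, g k = g' k) → g = g' := by
    intro g g' h1 h2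
    ext y
    by_cases hy : y = a
    · rw [hy, h1]
    · exact h2 ⟨y, hy⟩
  let V : Subgroup (Equiv.Perm α) := 
    { carrier := {g | g ∈ G ∧ g a = a ∧ ∃ σ ∈ (P : Subgroup G'), ∀ y : Ω, g y = σ.val y}
      mul_mem' := by
        rintro g k ⟨hg, hga, σ, hσ, hgs⟩ ⟨hk, hka, τ, hτ, hks⟩
        refine ⟨G.mul_mem hg hk, by rw [Equiv.Perm.mul_apply, hka, hga], σ * τ, mul_mem hσ hτ, fun y => ?_⟩
        rw [Equiv.Perm.mul_apply, hks, hgs]; rfl
      one_mem' := ⟨G.one_mem, rfl, 1, one_mem _, fun y => rfl⟩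
      inv_mem' := by
        rintro g ⟨hg, hga, σ, hσ, hgs⟩
        refine ⟨G.inv_mem hg, by rw [Equiv.Perm.inv_eq_iff_eq, hga], σ⁻¹, inv_mem hσ, fun y => ?_⟩
        rw [Equiv.Perm.inv_eq_iff_eq, hgs]
        change (y : α) = ((σ.val ((σ.val)⁻¹ y) : Ω) : α)
        rw [perm_self_inv] }
  refine ⟨V, p, j, fun v hv => hv.1, fun v hv => hv.2.1, ?_, ?_, ?_, ?_, hp, hj, by omega, ?_, ?_⟩
  · intro x y hx hy
    obtain ⟨σ, hσ⟩ := hPt.exists_smul_eq (⟨x, hx⟩ : Ω) ⟨y, hy⟩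
    obtain ⟨g, hg, hga, hgs⟩ := σ.1.2
    refine ⟨g, ⟨hg, hga, σ.1, σ.2, hgs⟩, ?_⟩
    have := hgs ⟨x, hx⟩
    rw [this]
    exact congrArg Subtype.val hσ
  · rintro v ⟨hv, hva, σ, hσ, hvs⟩ y hy hvy
    have h1 : (⟨σ, hσ⟩ : (P : Subgroup G')) ∈ MulAction.stabilizer (P : Subgroup G') (⟨y, hy⟩ : Ω) := by
      rw [MulAction.mem_stabilizer_iff]
      apply Subtype.ext
      exact (hvs ⟨y, hy⟩).symm.trans hvy
    rw [hPs] at h1
    have h2 : σ = 1 := congrArg Subtype.val (mem_bot.mp h1)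
    apply hext
    · exact hva
    · intro k
      rw [hvs, h2]; rfl
  · rintro v ⟨hv, hva, σ, hσ, hvs⟩ w ⟨hw, hwa, τ, hτ, hws⟩
    apply hext
    · rw [Equiv.Perm.mul_apply, Equiv.Perm.mul_apply, hva, hwa, hva]
    · intro k
      rw [Equiv.Perm.mul_apply, Equiv.Perm.mul_apply, hws, hvs, hvs, hws]
      have h1 : σ * τ = τ * σ := congrArg Subtype.val (hPc.is_comm.comm ⟨σ, hσ⟩ ⟨τ, hτ⟩)
      have h2 := congrArg (fun ρ : G' => ((ρ.val k : Ω) : α)) h1
      exact h2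
  · rintro h hh hha v ⟨hv, hva, σ, hσ, hvs⟩
    obtain ⟨τ, hτ, hτs⟩ := hres h hh hha
    refine ⟨G.mul_mem (G.mul_mem hh hv) (G.inv_mem hh), ?_, ⟨τ, hτ⟩ * σ * ⟨τ, hτ⟩⁻¹, hPn.conj_mem _ hσ _, ?_⟩
    · have : h⁻¹ a = a := by rw [Equiv.Perm.inv_eq_iff_eq, hha]
      rw [Equiv.Perm.mul_apply, Equiv.Perm.mul_apply, this, hva, hha]
    · intro y
      have h1 : h⁻¹ y = ((τ⁻¹ y : Ω) : α) := by
        rw [Equiv.Perm.inv_eq_iff_eq, hτs, perm_self_inv]
      rw [Equiv.Perm.mul_apply, Equiv.Perm.mul_apply, h1, hvs, hτs]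
      rfl
  · rintro v ⟨hv, hva, σ, hσ, hvs⟩
    have h1 := hPe σ hσ
    have h2 : ∀ (n : ℕ) (y : Ω), (v ^ n) y = ((σ ^ n).val y : Ω) := by
      intro n
      induction n with
      | zero => intro y; rfl
      | succ n ih =>
        intro y
        rw [pow_succ, Equiv.Perm.mul_apply, hvs, ih, pow_succ]; rfl
    have h3 : ∀ n : ℕ, (v ^ n) a = a := by
      intro n
      induction n with
      | zero => rfl
      | succ n ih => rw [pow_succ, Equiv.Perm.mul_apply, hva, ih]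
    apply hext
    · exact h3 p
    · intro y
      rw [h2, h1]; rfl
  · intro g hg hga hgf
    obtain ⟨σ, hσ, hσs⟩ := hres g hg hga
    refine ⟨hg, hga, ⟨σ, hσ⟩, ?_, hσs⟩
    rw [hPf]
    right
    intro y h
    have := hσs y
    have h2 : σ y = y := h
    rw [h2] at this
    exact hgf y y.2 this

/-- the two point stabiliser, as a subgroup of the symmetric group -/
def twoStab (G : Subgroup (Equiv.Perm α)) (a b : α) : Subgroup (Equiv.Perm α) where
  carrier := {g | g ∈ G ∧ g a = a ∧ g b = b}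
  mul_mem' := by
    rintro g k ⟨hg, hga, hgb⟩ ⟨hk, hka, hkb⟩
    exact ⟨G.mul_mem hg hk, by rw [Equiv.Perm.mul_apply, hka, hga], by rw [Equiv.Perm.mul_apply, hkb, hgb]⟩
  one_mem' := ⟨G.one_mem, rfl, rfl⟩
  inv_mem' := by
    rintro g ⟨hg, hga, hgb⟩
    exact ⟨G.inv_mem hg, by rw [Equiv.Perm.inv_eq_iff_eq, hga], by rw [Equiv.Perm.inv_eq_iff_eq, hgb]⟩

theorem mem_twoStab {G : Subgroup (Equiv.Perm α)} {a b : α} {g : Equiv.Perm α} : 
    g ∈ twoStab G a b ↔ g ∈ G ∧ g a = a ∧ g b = b := Iff.rfl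

theorem card_twoStab {G : Subgroup (Equiv.Perm α)} (h3 : MulAction.IsMultiplyPretransitive G α 3)
    (hsharp : ∀ x : Fin 3 ↪ α, MulAction.stabilizer G x = ⊥) {a b c : α} (hab : a ≠ b) (hac : a ≠ c)
    (hbc : b ≠ c) : Nat.card (twoStab G a b) + 2 = Fintype.card α := by
  classical
  let f : twoStab G a b → {y : α // y ≠ a ∧ y ≠ b} := fun h => 
    ⟨h.1 c, fun hh => hac.symm (h.1.injective (hh.trans h.2.2.1.symm)), 
      fun hh => hbc.symm (h.1.injective (hh.trans h.2.2.2.symm))⟩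
  have hf : Function.Bijective f := by
    constructor
    · intro h k hhk
      have h1 : h.1 c = k.1 c := congrArg Subtype.val hhk
      have h2 : k.1⁻¹ * h.1 = 1 := three_sharp hsharp hab hac hbc (G.mul_mem (G.inv_mem k.2.1) h.2.1)
        (by rw [Equiv.Perm.mul_apply, h.2.2.1, Equiv.Perm.inv_eq_iff_eq, k.2.2.1])
        (by rw [Equiv.Perm.mul_apply, h.2.2.2, Equiv.Perm.inv_eq_iff_eq, k.2.2.2])
        (by rw [Equiv.Perm.mul_apply, h1, perm_inv_self])
      exact Subtype.ext (inv_mul_eq_one.mp h2).symm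
    · rintro ⟨y, hya, hyb⟩
      obtain ⟨g, hg, h1, h2, h3⟩ := three_trans h3 hab hac hbc hab hya.symm hyb.symm
      exact ⟨⟨g, hg, h1, h2⟩, Subtype.ext h3⟩
  rw [Nat.card_eq_of_bijective f hf, Nat.card_eq_fintype_card]
  have h1 : (Finset.univ.filter fun y : α => y ≠ a ∧ y ≠ b) = (Finset.univ.erase a).erase b := by
    ext y
    simp [and_comm]
  rw [Fintype.card_subtype, h1, Finset.card_erase_of_mem (by simp [hab.symm]), Finset.card_erase_of_mem (by simp),
    Finset.card_univ]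
  have h2 : 3 ≤ Fintype.card α := by
    have h3 : ({a, b, c} : Finset α).card = 3 := by
      rw [Finset.card_insert_of_notMem (by simp [hab, hac]), Finset.card_insert_of_notMem (by simp [hbc]),
        Finset.card_singleton]
    rw [← h3]
    exact Finset.card_le_univ _
  omega

theorem pgl_of_swap_inv {G : Subgroup (Equiv.Perm α)} (h3 : MulAction.IsMultiplyPretransitive G α 3)
    (hsharp : ∀ x : Fin 3 ↪ α, MulAction.stabilizer G x = ⊥) {a b c : α} (hab : a ≠ b) (hac : a ≠ c)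
    (hbc : b ≠ c) (hswap : ∀ g ∈ G, g a = b → g b = a → g * g = 1) :
    ∃ (K : Type) (_ : Field K) (_ : Fintype K), Fintype.card K + 1 = Fintype.card α ∧ 
      Nonempty (G ≃* Matrix.ProjGenLinGroup (Fin 2) K) := by
  classical
  have hcard : 3 ≤ Fintype.card α := by
    have h3 : ({a, b, c} : Finset α).card = 3 := by
      rw [Finset.card_insert_of_notMem (by simp [hab, hac]), Finset.card_insert_of_notMem (by simp [hbc]),
        Finset.card_singleton]
    rw [← h3]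
    exact Finset.card_le_univ _
  obtain ⟨V, p, j, hVG, hVa, hVt, hVs, hVc, hVn, hp, -, -, -, -⟩ := exists_fpf_subgroup h3 hsharp hcard a
  obtain ⟨s, hsG, hsa, hsb, hsc⟩ := three_trans h3 hab hac hbc hab.symm hbc hac
  have hss : s * s = 1 := hswap s hsG hsa hsb
  have hinv : ∀ h ∈ twoStab G a b, s * h * s⁻¹ = h⁻¹ := by
    intro h hh
    have h1 := hswap (s * h) (G.mul_mem hsG hh.1) (by rw [Equiv.Perm.mul_apply, hh.2.1, hsa])
      (by rw [Equiv.Perm.mul_apply, hh.2.2, hsb])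
    have h2 : s⁻¹ = s := inv_eq_of_mul_eq_one_left hss
    rw [h2, eq_inv_iff_mul_eq_one, ← h1]
    group
  have hHc : ∀ h ∈ twoStab G a b, ∀ k ∈ twoStab G a b, h * k = k * h := by
    intro h hh k hk
    have h1 := hinv (h * k) (mul_mem hh hk)
    have h2 : s * (h * k) * s⁻¹ = (s * h * s⁻¹) * (s * k * s⁻¹) := by group
    rw [h2, hinv h hh, hinv k hk] at h1
    have h3 := congrArg (fun x => x⁻¹) h1
    simp only [mul_inv_rev, inv_inv] at h3
    exact h3.symm
  obtain ⟨K, iF, iFt, ι, hι, hιa, hι0, hι1, hT, hM⟩ := exists_field hab hac hbc V (twoStab G a b) hVa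
    (fun y hy => hVt b y hab.symm hy) (fun v hv h => hVs v hv b hab.symm h) hVc
    (fun h hh => hh.2.1) (fun h hh => hh.2.2) 
    (fun y hya hyb => by
      obtain ⟨g, hg, h1, h2, h3⟩ := three_trans h3 hab hac hbc hab hya.symm hyb.symm
      exact ⟨g, ⟨hg, h1, h2⟩, h3⟩)
    (fun h hh hc => three_sharp hsharp hab hac hbc hh.1 hh.2.1 hh.2.2 hc) hHc
    (fun h hh v hv => hVn h hh.1 hh.2.1 v hv)
  refine ⟨K, iF, iFt, ?_, ?_⟩
  · have h1 : Fintype.card K = Fintype.card {y : α // y ≠ a} := by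
      refine Fintype.card_of_bijective (f := fun k => (⟨ι k, (hιa _).mpr ⟨k, rfl⟩⟩ : {y : α // y ≠ a})) 
        ⟨fun x y h => hι (congrArg Subtype.val h), ?_⟩
      rintro ⟨y, hy⟩
      obtain ⟨k, hk⟩ := (hιa y).mp hy
      exact ⟨k, Subtype.ext hk⟩
    rw [h1]
    have h2 : Fintype.card {y : α // y ≠ a} = Fintype.card α - 1 := by
      simp [Fintype.card_subtype_compl]
    omega
  · refine rec_pgl ι hι hιa G ?_ ?_ ?_ ?_
    · intro x
      obtain ⟨v, hv, h⟩ := hT x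
      exact ⟨v, hVG hv, hVa v hv, h⟩
    · intro x hx
      obtain ⟨v, hv, h⟩ := hM x hx
      exact ⟨v, hv.1, hv.2.1, h⟩
    · refine ⟨s, hsG, by rw [hsa, hι0], by rw [hι0, hsb], ?_⟩
      intro y hy
      obtain ⟨h, hh, hhy⟩ := hM y hy
      have h1 : ι y = h c := by rw [← hι1, hhy, mul_one]
      have h2 : h⁻¹ c = ι y⁻¹ := by
        rw [Equiv.Perm.inv_eq_iff_eq, hhy, mul_inv_cancel₀ hy, hι1]
      rw [h1, ← h2, ← hinv h hh]
      have h4 : s⁻¹ c = c := by rw [Equiv.Perm.inv_eq_iff_eq, hsc]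
      rw [Equiv.Perm.mul_apply, Equiv.Perm.mul_apply, h4]
    · intro g hg h1 h2 h3
      rw [hι0] at h2
      rw [hι1] at h3
      exact three_sharp hsharp hab hac hbc hg h1 h2 h3

/-- S0727 -/
theorem sharp_three_even {f : ℕ} (hf : 1 ≤ f) (hα : Fintype.card α = 2 ^ f + 1) 
    (G : Subgroup (Equiv.Perm α)) (h3 : MulAction.IsMultiplyPretransitive G α 3) 
    (hsharp : ∀ x : Fin 3 ↪ α, MulAction.stabilizer G x = ⊥) : 
    ∃ (F : Type) (_ : Field F) (_ : Fintype F), Fintype.card F = 2 ^ f ∧ 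
      Nonempty (G ≃* Matrix.ProjGenLinGroup (Fin 2) F) := by
  classical
  have h2f : 2 ≤ 2 ^ f := by
    calc 2 = 2 ^ 1 := rfl
      _ ≤ 2 ^ f := Nat.pow_le_pow_right (by norm_num) hf
  have hcard : 2 < Fintype.card α := by omega
  obtain ⟨a, b, c, hab, hac, hbc⟩ := Fintype.two_lt_card_iff.mp hcard
  have hodd : ∀ x y : α, x ≠ y → Odd (Nat.card (twoStab G x y)) := by
    intro x y hxy
    obtain ⟨z, hz⟩ : ∃ z : α, z ≠ x ∧ z ≠ y := by
      have h1 : (({x, y} : Finset α)ᶜ).Nonempty := by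
        rw [← Finset.card_pos, Finset.card_compl, Finset.card_pair hxy]
        omega
      obtain ⟨z, hz⟩ := h1
      simp at hz
      exact ⟨z, hz⟩
    have h1 := card_twoStab h3 hsharp hxy hz.1.symm hz.2.symm
    obtain ⟨k, rfl⟩ : ∃ k, f = k + 1 := ⟨f - 1, by omega⟩
    refine ⟨2 ^ k - 1, ?_⟩
    have : 2 ^ (k + 1) = 2 * 2 ^ k := by ring
    omega
  obtain ⟨K, iF, iFt, hK, hG⟩ := pgl_of_swap_inv h3 hsharp hab hac hbc (by
    intro g hg hga hgb
    -- g ^ 2 has odd order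
    have hg2 : g * g ∈ twoStab G a b := ⟨G.mul_mem hg hg, by rw [Equiv.Perm.mul_apply, hga, hgb], 
      by rw [Equiv.Perm.mul_apply, hgb, hga]⟩
    have hod : Odd (orderOf (g * g)) := by
      have h1 : orderOf (g * g) ∣ Nat.card (twoStab G a b) := by
        have := orderOf_dvd_natCard (⟨g * g, hg2⟩ : twoStab G a b)
        rwa [orderOf_mk] at this
      obtain ⟨c, hc⟩ := h1
      have h2 := hodd a b hab
      rw [hc] at h2
      exact Nat.Odd.of_mul_left h2
    obtain ⟨m, hm⟩ := hod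
    set t := g ^ (2 * m + 1) with ht
    have hta : t a = b := by
      rw [ht, pow_succ, Equiv.Perm.mul_apply, hga, pow_mul]
      have h1 : (g ^ 2) b = b := by rw [pow_two]; exact hg2.2.2
      have h2 : ∀ n : ℕ, ((g ^ 2) ^ n) b = b := by
        intro n
        induction n with
        | zero => rfl
        | succ n ih => rw [pow_succ, Equiv.Perm.mul_apply, h1, ih]
      exact h2 m
    have htG : t ∈ G := G.pow_mem hg _
    have htt : t * t = 1 := by
      rw [ht, ← pow_add, ← two_mul, pow_mul, pow_two, ← hm]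
      exact pow_orderOf_eq_one _
    have ht1 : t ≠ 1 := by
      intro h
      rw [h] at hta
      exact hab hta
    haveI : Fact (Nat.Prime 2) := ⟨Nat.prime_two⟩
    obtain ⟨x, hx⟩ := Equiv.Perm.exists_fixed_point_of_prime (p := 2) (n := 1) (α := α) (by
      rw [hα]
      intro h
      have h5 : 2 ∣ 2 ^ f := dvd_pow_self 2 (by omega)
      omega) (σ := t) (by rw [pow_one, pow_two]; exact htt)
    have huniq : ∀ y, t y = y → y = x := by
      intro y hy
      by_contra hyx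
      have h1 : (⟨t, htG, hy, hx⟩ : twoStab G y x) * ⟨t, htG, hy, hx⟩ = 1 := Subtype.ext htt
      have h2 : orderOf (⟨t, htG, hy, hx⟩ : twoStab G y x) ∣ 2 := orderOf_dvd_of_pow_eq_one (by rw [pow_two]; exact h1)
      have h3 : orderOf (⟨t, htG, hy, hx⟩ : twoStab G y x) ∣ Nat.card (twoStab G y x) := orderOf_dvd_natCard _
      have h4 : (Nat.card (twoStab G y x)).Coprime 2 := Nat.coprime_two_right.mpr (hodd y x hyx)
      have h5 : orderOf (⟨t, htG, hy, hx⟩ : twoStab G y x) = 1 := 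
        Nat.eq_one_of_dvd_coprimes h4 h3 h2
      rw [orderOf_eq_one_iff] at h5
      exact ht1 (congrArg Subtype.val h5)
    have hgx : g x = x := by
      apply huniq
      have : t * g = g * t := (Commute.pow_self g _).eq
      rw [← Equiv.Perm.mul_apply, this, Equiv.Perm.mul_apply, hx]
    have hxa : a ≠ x := by
      rintro rfl
      rw [hta] at hx
      exact hab hx.symm
    have hxb : b ≠ x := by
      intro hbx
      rw [← hbx] at hgx
      exact hab (hgb.symm.trans hgx)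
    exact three_sharp hsharp hab hxa hxb (G.mul_mem hg hg) hg2.2.1 hg2.2.2 
      (by rw [Equiv.Perm.mul_apply, hgx, hgx]))
  exact ⟨K, iF, iFt, by omega, hG⟩

end CfsgH2
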