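import Mathlib
import Cfsg.Agent.H2.SharpThree
import Cfsg.Agent.H2.ClassSize
import Cfsg.Agent.S0058

/-! Sharply triply transitive groups of even degree. -/

set_option autoImplicit false

namespace CfsgH2

open Subgroup

variable {α : Type*} [Fintype α] [DecidableEq α]

/-- nontrivial elements of the two point stabiliser fix nothing else -/
theorem eq_of_fix {G : Subgroup (Equiv.Perm α)} 
    (hsharp : ∀ x : Fin 3 ↪ α, MulAction.stabilizer G x = ⊥) {a b : α} (hab : a ≠ b) {g : Equiv.Perm α} 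
    (hg : g ∈ twoStab G a b) (hg1 : g ≠ 1) {x : α} (hx : g x = x) : x = a ∨ x = b := by
  by_contra h
  push Not at h
  exact hg1 (three_sharp hsharp hab h.1.symm h.2.symm hg.1 hg.2.1 hg.2.2 hx)

/-- an element exchanging `a, b` and fixing a third point inverts the elements of order 3 -/
theorem inv_order_three {G : Subgroup (Equiv.Perm α)} (h3 : MulAction.IsMultiplyPretransitive G α 3)
    (hsharp : ∀ x : Fin 3 ↪ α, MulAction.stabilizer G x = ⊥) {a b y : α} (hab : a ≠ b) (hay : a ≠ y)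
    (hby : b ≠ y) {g s : Equiv.Perm α} (hg : g ∈ twoStab G a b) (hg1 : g ≠ 1) (hg3 : g * g * g = 1)
    (hs : s ∈ G) (hsa : s a = b) (hsb : s b = a) (hsy : s y = y) : s * g * s⁻¹ = g⁻¹ := by
  have hfix : ∀ x, g x = x → x = a ∨ x = b := fun x hx => eq_of_fix hsharp hab hg hg1 hx
  have e3 : ∀ x, g (g (g x)) = x := by
    intro x
    have := congrArg (fun k : Equiv.Perm α => k x) hg3
    exact this
  have d1 : y ≠ g y := by
    intro h
    rcases hfix y h.symm with h | h
    · exact hay h.symm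
    · exact hby h.symm
  have d2 : g y ≠ g (g y) := fun h => d1 (g.injective h)
  have d3 : y ≠ g (g y) := by
    intro h
    apply d1
    have := congrArg g h
    rw [e3] at this
    exact this.symm
  obtain ⟨t, htG, ht1, ht2, ht3⟩ := three_trans h3 d1 d3 d2 d3 d1 d2.symm
  have ti1 : t⁻¹ y = y := by rw [Equiv.Perm.inv_eq_iff_eq, ht1]
  have ti2 : t⁻¹ (g y) = g (g y) := by rw [Equiv.Perm.inv_eq_iff_eq, ht3]
  have ti3 : t⁻¹ (g (g y)) = g y := by rw [Equiv.Perm.inv_eq_iff_eq, ht2]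
  have key : t * g * t⁻¹ * g = 1 := by
    refine three_sharp hsharp d1 d3 d2 (G.mul_mem (G.mul_mem (G.mul_mem htG hg.1) (G.inv_mem htG)) hg.1) ?_ ?_ ?_
    · simp only [Equiv.Perm.mul_apply]
      rw [ti2, e3, ht1]
    · simp only [Equiv.Perm.mul_apply]
      rw [ti3, ht3]
    · simp only [Equiv.Perm.mul_apply]
      rw [e3, ti1, ht2]
  have key2 : t * g * t⁻¹ = g⁻¹ := eq_inv_of_mul_eq_one_left key
  have hmv : ∀ x, g x = x → g (t⁻¹ x) = t⁻¹ x := by
    intro x hx
    have h1 : (t * g * t⁻¹) x = x := by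
      rw [key2, Equiv.Perm.inv_eq_iff_eq, hx]
    simp only [Equiv.Perm.mul_apply] at h1
    exact (Equiv.Perm.inv_eq_iff_eq.mpr h1.symm).symm
  have ha' := hfix _ (hmv a hg.2.1)
  have hb' := hfix _ (hmv b hg.2.2)
  have hta : t⁻¹ a ≠ a := by
    intro h
    have hb2 : t⁻¹ b = b := by
      rcases hb' with h' | h'
      · exact absurd (t⁻¹.injective (h.trans h'.symm)) hab
      · exact h'
    have h1 : t = 1 := three_sharp hsharp hab hay hby htG (Equiv.Perm.inv_eq_iff_eq.mp h).symm 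
      (Equiv.Perm.inv_eq_iff_eq.mp hb2).symm ht1
    rw [h1] at ht2
    exact d2 ht2
  have ha2 := ha'.resolve_left hta
  have hb2 : t⁻¹ b = a := by
    rcases hb' with h' | h'
    · exact h'
    · exact absurd (t⁻¹.injective (ha2.trans h'.symm)) hab
  have hst : s⁻¹ * t = 1 := by
    refine three_sharp hsharp hab hay hby (G.mul_mem (G.inv_mem hs) htG) ?_ ?_ ?_
    · rw [Equiv.Perm.mul_apply, Equiv.Perm.inv_eq_iff_eq, hsa]
      exact (Equiv.Perm.inv_eq_iff_eq.mp hb2).symm
    · rw [Equiv.Perm.mul_apply, Equiv.Perm.inv_eq_iff_eq, hsb]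
      exact (Equiv.Perm.inv_eq_iff_eq.mp ha2).symm
    · rw [Equiv.Perm.mul_apply, Equiv.Perm.inv_eq_iff_eq, hsy, ht1]
  rw [inv_mul_eq_one.mp hst]
  exact key2

theorem comm_order_three {G : Subgroup (Equiv.Perm α)} (h3 : MulAction.IsMultiplyPretransitive G α 3)
    (hsharp : ∀ x : Fin 3 ↪ α, MulAction.stabilizer G x = ⊥) {a b c : α} (hab : a ≠ b) (hac : a ≠ c)
    (hbc : b ≠ c) {g k : Equiv.Perm α} (hg : g ∈ twoStab G a b) (hg1 : g ≠ 1) (hg3 : g * g * g = 1)
    (hk : k ∈ twoStab G a b) (hk1 : k ≠ 1) (hk3 : k * k * k = 1) : k * g = g * k := by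
  obtain ⟨s, hs, hsa, hsb, hsc⟩ := three_trans h3 hab hac hbc hab.symm hbc hac
  have e1 := inv_order_three h3 hsharp hab hac hbc hg hg1 hg3 hs hsa hsb hsc
  have e2 := inv_order_three h3 hsharp hab hac hbc hk hk1 hk3 hs hsa hsb hsc
  have hka : k⁻¹ a = a := by rw [Equiv.Perm.inv_eq_iff_eq, hk.2.1]
  have hkb : k⁻¹ b = b := by rw [Equiv.Perm.inv_eq_iff_eq, hk.2.2]
  have hak : a ≠ k c := by
    intro h
    apply hac
    apply k.injective
    rw [hk.2.1, ← h]
  have hbk : b ≠ k c := by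
    intro h
    apply hbc
    apply k.injective
    rw [hk.2.2, ← h]
  have e3 := inv_order_three h3 hsharp (y := k c) hab hak hbk hg hg1 hg3 (s := k * s * k⁻¹)
    (G.mul_mem (G.mul_mem hk.1 hs) (G.inv_mem hk.1)) (by
      simp only [Equiv.Perm.mul_apply]
      rw [hka, hsa, hk.2.2]) (by
      simp only [Equiv.Perm.mul_apply]
      rw [hkb, hsb, hk.2.1]) (by
      simp only [Equiv.Perm.mul_apply]
      rw [perm_inv_self, hsc])
  have e4 : k * s * k⁻¹ = s * k := by
    -- s k s⁻¹ = k⁻¹ gives s k = k⁻¹ s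
    have h1 : s * k = k⁻¹ * s := by rw [← e2]; group
    have h2 : k⁻¹ = k * k := inv_eq_of_mul_eq_one_left hk3
    have h3 : k * s * k⁻¹ = k * (s * k) * k := by
      rw [h2]; group
      
    rw [h3, h1]
    calc k * (k⁻¹ * s) * k = s * k := by group
      _ = k⁻¹ * s := h1
  rw [e4] at e3
  have e5 : s⁻¹ * g⁻¹ * s = g := by
    rw [← e1]; group
  have e6 : k * g * k⁻¹ = g := by
    calc k * g * k⁻¹ = s⁻¹ * (s * k * g * (s * k)⁻¹) * s := by group
      _ = s⁻¹ * g⁻¹ * s := by rw [e3]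
      _ = g := e5
  exact mul_inv_eq_iff_eq_mul.mp e6

theorem unique_order_three {G : Subgroup (Equiv.Perm α)} (h6 : 6 ≤ Fintype.card α) (h3 : MulAction.IsMultiplyPretransitive G α 3)
    (hsharp : ∀ x : Fin 3 ↪ α, MulAction.stabilizer G x = ⊥) {a b : α} (hab : a ≠ b)
    {A B : Subgroup (Equiv.Perm α)} (hA : A ≤ twoStab G a b) (hB : B ≤ twoStab G a b)
    (hA3 : Nat.card A = 3) (hB3 : Nat.card B = 3) : A = B := by
  classical
  by_contra hne
  obtain ⟨c, hca, hcb⟩ : ∃ z : α, z ≠ a ∧ z ≠ b := by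
    have h1 : (({a, b} : Finset α)ᶜ).Nonempty := by
      rw [← Finset.card_pos, Finset.card_compl, Finset.card_pair hab]
      omega
    obtain ⟨z, hz⟩ := h1
    simp at hz
    exact ⟨z, hz⟩
  haveI : Fact (Nat.Prime 3) := ⟨Nat.prime_three⟩
  have hcube : ∀ {C : Subgroup (Equiv.Perm α)}, Nat.card C = 3 → ∀ g ∈ C, g * g * g = 1 := by
    intro C hC g hg
    have h1 : (⟨g, hg⟩ : C) ^ 3 = 1 := by rw [← hC]; exact pow_card_eq_one'
    have h2 := congrArg Subtype.val h1
    have h3 : g ^ 3 = 1 := h2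
    rw [← h3, pow_succ, pow_two]
  have hcomm : ∀ g ∈ (A : Set (Equiv.Perm α)) ∪ B, ∀ k ∈ (A : Set (Equiv.Perm α)) ∪ B, g * k = k * g := by
    intro g hg k hk
    have hg' : g ∈ twoStab G a b ∧ g * g * g = 1 := by
      rcases hg with hg | hg
      · exact ⟨hA hg, hcube hA3 g hg⟩
      · exact ⟨hB hg, hcube hB3 g hg⟩
    have hk' : k ∈ twoStab G a b ∧ k * k * k = 1 := by
      rcases hk with hk | hk
      · exact ⟨hA hk, hcube hA3 k hk⟩
      · exact ⟨hB hk, hcube hB3 k hk⟩
    by_cases hg1 : g = 1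
    · rw [hg1]; simp
    by_cases hk1 : k = 1
    · rw [hk1]; simp
    exact comm_order_three h3 hsharp hab hca.symm hcb.symm hk'.1 hk1 hk'.2 hg'.1 hg1 hg'.2
  let E : Subgroup (Equiv.Perm α) := A ⊔ B
  have hEcl : E = closure ((A : Set (Equiv.Perm α)) ∪ B) := by
    rw [Subgroup.closure_union, closure_eq, closure_eq]
  have hEc : ∀ g ∈ E, ∀ k ∈ E, g * k = k * g := by
    have h1 : E ≤ centralizer (E : Set (Equiv.Perm α)) := by
      rw [le_centralizer_iff]
      have h2 : (E : Set (Equiv.Perm α)) = closure ((A : Set (Equiv.Perm α)) ∪ B) := by rw [hEcl]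
      refine hEcl.le.trans ?_
      rw [closure_le]
      intro g hg
      rw [h2, SetLike.mem_coe, centralizer_closure, mem_centralizer_iff]
      intro k hk
      exact hcomm k hk g hg
    intro g hg k hk
    exact (mem_centralizer_iff.mp (h1 hg) k hk).symm
  have hE3 : ∀ g ∈ E, g ^ 3 = 1 := by
    intro g hg
    have hg' : g ∈ closure ((A : Set (Equiv.Perm α)) ∪ B) := hEcl.le hg
    have : g ∈ E ∧ g ^ 3 = 1 := by
      induction hg' using closure_induction with
      | mem x hx =>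
        rcases hx with hx | hx
        · exact ⟨(le_sup_left : A ≤ A ⊔ B) hx, by 
            rw [pow_succ, pow_two]; exact hcube hA3 x hx⟩
        · exact ⟨(le_sup_right : B ≤ A ⊔ B) hx, by 
            rw [pow_succ, pow_two]; exact hcube hB3 x hx⟩
      | one => exact ⟨E.one_mem, one_pow _⟩
      | mul x y hx' hy' hx hy =>
        have hx := hx (hEcl.ge hx')
        have hy := hy (hEcl.ge hy')
        refine ⟨E.mul_mem hx.1 hy.1, ?_⟩
        have hc : Commute x y := hEc x hx.1 y hy.1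
        rw [hc.mul_pow, hx.2, hy.2, one_mul]
      | inv x hx' hx => 
        have hx := hx (hEcl.ge hx')
        exact ⟨E.inv_mem hx.1, by rw [inv_pow, hx.2, inv_one]⟩
    exact this.2
  have hEmc : IsMulCommutative E := ⟨⟨fun u v => Subtype.ext (hEc u u.2 v v.2)⟩⟩
  have hEnc : ¬ IsCyclic E := by
    intro hc
    obtain ⟨e, he⟩ := hc.exists_generator
    have h1 : Nat.card E ∣ 3 := by
      rw [← orderOf_eq_card_of_forall_mem_zpowers he]
      exact orderOf_dvd_of_pow_eq_one (Subtype.ext (hE3 e e.2))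
    have h2 : Nat.card E ≤ 3 := Nat.le_of_dvd (by norm_num) h1
    have h3 : A = E := eq_of_le_of_card_ge (le_sup_left : A ≤ A ⊔ B) (by rw [hA3]; exact h2)
    have h4 : B = E := eq_of_le_of_card_ge (le_sup_right : B ≤ A ⊔ B) (by rw [hB3]; exact h2)
    exact hne (h3.trans h4.symm)
  obtain ⟨V, p, j, hVG, hVa, hVt, hVs, hVc, hVn, hp, hj, hcardp, hVp, hVall⟩ := 
    exists_fpf_subgroup h3 hsharp (by omega) a
  have hEH : E ≤ twoStab G a b := sup_le hA hB
  have hEV : E ≤ normalizer (V : Set (Equiv.Perm α)) := by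
    rw [CfsgH1.le_normalizer_iff_conj]
    intro e he v hv
    exact hVn e (hEH he).1 (hEH he).2.1 v hv
  have hcop : (Nat.card E).Coprime (Nat.card V) := by
    have hEp : IsPGroup 3 E := fun e => ⟨1, by rw [pow_one]; exact Subtype.ext (hE3 e e.2)⟩
    have hVp' : IsPGroup p V := fun v => ⟨1, by rw [pow_one]; exact Subtype.ext (hVp v v.2)⟩
    haveI := Fact.mk hp
    refine IsPGroup.coprime_card_of_ne 3 p ?_ E V hEp hVp'
    rintro rfl
    have h1 := card_twoStab h3 hsharp hab hca.symm hcb.symm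
    have h2 : 3 ∣ Nat.card (twoStab G a b) := hA3 ▸ card_dvd_of_le hA
    have h3 : 3 ∣ 3 ^ j := dvd_pow_self 3 (by omega)
    omega
  have hgen := Cfsg.Agent.S0058.result E V hEnc hEV hcop
  have hVbot : V ≤ ⊥ := by
    refine hgen.ge.trans (iSup₂_le ?_)
    rintro e ⟨he, he1⟩ v ⟨hv, hve⟩
    replace hve := mem_centralizer_singleton_iff'.mp hve
    have h1 : e (v b) = v b := by
      rw [← Equiv.Perm.mul_apply, hve, Equiv.Perm.mul_apply, (hEH he).2.2]
    rw [mem_bot]
    rcases eq_of_fix hsharp hab (hEH he) he1 h1 with h2 | h2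
    · exact absurd (v.injective (h2.trans (hVa v hv).symm)) hab.symm
    · exact hVs v hv b hab.symm h2
  obtain ⟨v, hv, hvb⟩ := hVt b c hab.symm hca
  have := mem_bot.mp (hVbot hv)
  rw [this] at hvb
  exact hcb hvb.symm

end CfsgH2
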