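import Mathlib
import Cfsg.Agent.H2.SharpThree
import Cfsg.Agent.H2.DetArg
import Cfsg.Agent.H1.Coprime

/-! Sharply triply transitive groups of degree `p ^ f + 1`, `f` odd. -/

set_option autoImplicit false

namespace CfsgH2

open Subgroup

variable {α : Type*} [Fintype α] [DecidableEq α]

theorem eq_of_fix' {G : Subgroup (Equiv.Perm α)} 
    (hsharp : ∀ x : Fin 3 ↪ α, MulAction.stabilizer G x = ⊥) {a b : α} (hab : a ≠ b) {g : Equiv.Perm α} 
    (hg : g ∈ twoStab G a b) (hg1 : g ≠ 1) {x : α} (hx : g x = x) : x = a ∨ x = b := by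
  by_contra h
  push Not at h
  exact hg1 (three_sharp hsharp hab h.1.symm h.2.symm hg.1 hg.2.1 hg.2.2 hx)

theorem fpf_of_ne_one {G : Subgroup (Equiv.Perm α)} 
    (hsharp : ∀ x : Fin 3 ↪ α, MulAction.stabilizer G x = ⊥) {a b : α} (hab : a ≠ b) 
    {V : Subgroup (Equiv.Perm α)} (hVa : ∀ v ∈ V, v a = a) (hVs : ∀ v ∈ V, ∀ y, y ≠ a → v y = y → v = 1)
    {g : Equiv.Perm α} (hg : g ∈ twoStab G a b) (hg1 : g ≠ 1) {v : Equiv.Perm α} (hv : v ∈ V) 
    (h : g * v * g⁻¹ = v) : v = 1 := by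
  have h0 : g * v = v * g := mul_inv_eq_iff_eq_mul.mp h
  have h1 : g (v b) = v b := by
    rw [← Equiv.Perm.mul_apply, h0, Equiv.Perm.mul_apply, hg.2.2]
  rcases eq_of_fix' hsharp hab hg hg1 h1 with h2 | h2
  · exact absurd (v.injective (h2.trans (hVa v hv).symm)) hab.symm
  · exact hVs v hv b hab.symm h2

theorem exists_delta {G : Subgroup (Equiv.Perm α)} (h3 : MulAction.IsMultiplyPretransitive G α 3)
    (hsharp : ∀ x : Fin 3 ↪ α, MulAction.stabilizer G x = ⊥) {a b : α} (hab : a ≠ b) {p f : ℕ} 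
    [hp : Fact p.Prime] (hp2 : p ≠ 2) (hfo : Odd f) (hα : Fintype.card α = p ^ f + 1) : 
    ∃ δ : twoStab G a b →* ZMod p, (∀ t : twoStab G a b, t * t = 1 → t ≠ 1 → δ t = -1) ∧
      (∀ y g : twoStab G a b, y ≠ 1 → g * y * g⁻¹ = y⁻¹ → δ y = -1) ∧ 
      (∀ t u : twoStab G a b, t * t = 1 → t ≠ 1 → u * u = 1 → u ≠ 1 → t = u) := by
  classical
  have hpf : 2 ≤ p ^ f := by
    obtain ⟨k, rfl⟩ := hfo
    calc 2 ≤ p := hp.out.two_le
      _ = p ^ 1 := (pow_one p).symm
      _ ≤ p ^ (2 * k + 1) := Nat.pow_le_pow_right hp.out.pos (by omega)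
  obtain ⟨V, p', j, hVG, hVa, hVt, hVs, hVc, hVn, hp', hj, hcardp, hVp, hVall⟩ := 
    exists_fpf_subgroup h3 hsharp (by omega) a
  have hpp : p' = p := by
    have h1 : p' ^ j = p ^ f := by omega
    have h2 : p' ∣ p ^ f := by rw [← h1]; exact dvd_pow_self _ (by omega)
    exact (Nat.prime_dvd_prime_iff_eq hp' hp.out).mp (hp'.dvd_of_dvd_pow h2)
  subst hpp
  have hj' : j = f := Nat.pow_right_injective hp.out.two_le (by simp only; omega)
  subst hj'
  letI : CommGroup V := { (inferInstance : Group V) with 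
    mul_comm := fun u v => Subtype.ext (hVc u u.2 v v.2) }
  have hcard : Nat.card V = p' ^ j := by
    let F : V → {y : α // y ≠ a} := fun v => ⟨v.1 b, fun h => hab.symm (v.1.injective (h.trans (hVa v v.2).symm))⟩
    have hF : Function.Bijective F := by
      constructor
      · intro u v h
        have h1 : u.1 b = v.1 b := congrArg Subtype.val h
        have h2 : v.1⁻¹ * u.1 = 1 := hVs _ (V.mul_mem (V.inv_mem v.2) u.2) b hab.symm (by
          rw [Equiv.Perm.mul_apply, h1, perm_inv_self])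
        exact Subtype.ext (inv_mul_eq_one.mp h2).symm
      · rintro ⟨y, hy⟩
        obtain ⟨v, hv, hvb⟩ := hVt b y hab.symm hy
        exact ⟨⟨v, hv⟩, Subtype.ext hvb⟩
    rw [Nat.card_eq_of_bijective F hF, Nat.card_eq_fintype_card]
    have h2 : Fintype.card {y : α // y ≠ a} = Fintype.card α - 1 := by
      simp [Fintype.card_subtype_compl]
    omega
  have hexp : ∀ v : V, v ^ p' = 1 := fun v => Subtype.ext (hVp v v.2)
  obtain ⟨δ, hδ1, hδ2⟩ := det_facts (V := V) hp2 hfo hexp hcard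
  let φ : twoStab G a b →* MulAut V := 
    { toFun := fun h => 
        { toFun := fun v => ⟨h.1 * v.1 * h.1⁻¹, hVn _ h.2.1 h.2.2.1 _ v.2⟩
          invFun := fun v => ⟨h.1⁻¹ * v.1 * h.1⁻¹⁻¹, hVn _ (G.inv_mem h.2.1) 
            (by rw [Equiv.Perm.inv_eq_iff_eq, h.2.2.1]) _ v.2⟩
          left_inv := fun v => Subtype.ext (by simp only; group)
          right_inv := fun v => Subtype.ext (by simp only; group)
          map_mul' := fun u v => Subtype.ext (by 
            change h.1 * (u.1 * v.1) * h.1⁻¹ = (h.1 * u.1 * h.1⁻¹) * (h.1 * v.1 * h.1⁻¹)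
            group) }
      map_one' := by
        ext v : 1
        apply Subtype.ext
        change (1 : Equiv.Perm α) * v.1 * (1 : Equiv.Perm α)⁻¹ = v.1
        group
      map_mul' := by
        intro h k
        ext v : 1
        apply Subtype.ext
        change (h.1 * k.1) * v.1 * (h.1 * k.1)⁻¹ = h.1 * (k.1 * v.1 * k.1⁻¹) * h.1⁻¹
        group }
  have hφ : ∀ (h : twoStab G a b) (v : V), (φ h v).1 = h.1 * v.1 * h.1⁻¹ := fun h v => rfl
  have hfpf : ∀ (h : twoStab G a b), h ≠ 1 → ∀ v, φ h v = v → v = 1 := by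
    intro h hh v hv
    have h1 : h.1 * v.1 * h.1⁻¹ = v.1 := by rw [← hφ, hv]
    exact Subtype.ext (fpf_of_ne_one hsharp hab hVa hVs h.2 (fun h2 => hh (Subtype.ext h2)) v.2 h1)
  have hinv : ∀ t : twoStab G a b, t * t = 1 → t ≠ 1 → ∀ v, φ t v = v⁻¹ := by
    intro t ht ht1 v
    have h1 : φ t (v * φ t v) = v * φ t v := by
      rw [map_mul, ← MulAut.mul_apply, ← map_mul, ht, map_one, MulAut.one_apply, mul_comm]
    have h2 := hfpf t ht1 _ h1
    exact (inv_eq_of_mul_eq_one_right h2).symm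
  refine ⟨δ.comp φ, ?_, ?_, ?_⟩
  · intro t ht ht1
    exact hδ1 _ (hinv t ht ht1)
  · intro y g hy1 hg
    refine hδ2 (φ y) (φ g) (hfpf y hy1) ?_
    rw [← map_inv, ← map_mul, ← map_mul, hg, map_inv]
  · intro t u ht ht1 hu hu1
    by_contra hne
    obtain ⟨v, hv1⟩ : ∃ v : V, v ≠ 1 := by
      have h1 : 1 < Nat.card V := by rw [hcard]; omega
      haveI : Nontrivial V := Finite.one_lt_card_iff_nontrivial.mp h1
      exact exists_ne 1
    apply hv1
    refine hfpf (t⁻¹ * u) (fun h => hne (inv_mul_eq_one.mp h)) v ?_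
    rw [map_mul, MulAut.mul_apply, hinv u hu hu1]
    have h2 : t⁻¹ = t := inv_eq_of_mul_eq_one_left ht
    rw [h2, hinv t ht ht1, inv_inv]

/-- conjugation by an element exchanging `a` and `b` -/
theorem conj_twoStab {G : Subgroup (Equiv.Perm α)} {a b : α} {s : Equiv.Perm α} (hs : s ∈ G)
    (hsa : s a = b) (hsb : s b = a) {h : Equiv.Perm α} (hh : h ∈ twoStab G a b) : 
    s * h * s⁻¹ ∈ twoStab G a b := by
  have h1 : s⁻¹ a = b := by rw [Equiv.Perm.inv_eq_iff_eq, hsb]
  have h2 : s⁻¹ b = a := by rw [Equiv.Perm.inv_eq_iff_eq, hsa]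
  refine ⟨G.mul_mem (G.mul_mem hs hh.1) (G.inv_mem hs), ?_, ?_⟩
  · simp only [Equiv.Perm.mul_apply]
    rw [h1, hh.2.2, hsb]
  · simp only [Equiv.Perm.mul_apply]
    rw [h2, hh.2.1, hsa]

/-- an involution fixing `c` has at most one further fixed point (elements of the two point
stabiliser commuting with `s`) -/
theorem comm_swap {G : Subgroup (Equiv.Perm α)} 
    (hsharp : ∀ x : Fin 3 ↪ α, MulAction.stabilizer G x = ⊥) {a b c : α} (hab : a ≠ b) (hac : a ≠ c)
    (hbc : b ≠ c) {s : Equiv.Perm α} (hs : s ∈ G) (hsa : s a = b) (hsc : s c = c)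
    {u v : Equiv.Perm α} (hu : u ∈ twoStab G a b) (hv : v ∈ twoStab G a b) (hu1 : u ≠ 1) (hv1 : v ≠ 1)
    (hus : s * u = u * s) (hvs : s * v = v * s) : u = v := by
  by_contra hne
  have h1 : s (u c) = u c := by rw [← Equiv.Perm.mul_apply, hus, Equiv.Perm.mul_apply, hsc]
  have h2 : s (v c) = v c := by rw [← Equiv.Perm.mul_apply, hvs, Equiv.Perm.mul_apply, hsc]
  have key : ∀ w ∈ twoStab G a b, w ≠ 1 → c ≠ w c := by
    intro w hw hw1 h
    exact hw1 (three_sharp hsharp hab hac hbc hw.1 hw.2.1 hw.2.2 h.symm)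
  have h3 : u c ≠ v c := by
    intro h
    apply hne
    have : v⁻¹ * u = 1 := three_sharp hsharp hab hac hbc (G.mul_mem (G.inv_mem hv.1) hu.1)
      (by rw [Equiv.Perm.mul_apply, hu.2.1, Equiv.Perm.inv_eq_iff_eq, hv.2.1])
      (by rw [Equiv.Perm.mul_apply, hu.2.2, Equiv.Perm.inv_eq_iff_eq, hv.2.2])
      (by rw [Equiv.Perm.mul_apply, h, perm_inv_self])
    exact (inv_mul_eq_one.mp this).symm
  have h4 := three_sharp hsharp (key u hu hu1) (key v hv hv1) h3 hs hsc h1 h2
  rw [h4] at hsa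
  exact hab hsa

theorem twoStab_abelian {G : Subgroup (Equiv.Perm α)} (h3 : MulAction.IsMultiplyPretransitive G α 3)
    (hsharp : ∀ x : Fin 3 ↪ α, MulAction.stabilizer G x = ⊥) {a b c : α} (hab : a ≠ b) (hac : a ≠ c)
    (hbc : b ≠ c) {p f : ℕ} [hp : Fact p.Prime] (hp2 : p ≠ 2) (hfo : Odd f) 
    (hα : Fintype.card α = p ^ f + 1) {s : Equiv.Perm α} (hs : s ∈ G) (hsa : s a = b) (hsb : s b = a) 
    (hsc : s c = c) : 
    ∃ N : Subgroup (twoStab G a b), (∀ h ∈ N, s * h.1 * s⁻¹ = h.1⁻¹) ∧ 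
      (∀ h k : twoStab G a b, h * k = k * h) ∧ (∀ h k : twoStab G a b, h ∉ N → k ∉ N → h * k ∈ N) := by
  classical
  obtain ⟨δ, hδ1, hδ2, hδ3⟩ := exists_delta h3 hsharp hab hp2 hfo hα
  have hcardH := card_twoStab h3 hsharp hab hac hbc
  have hodd : Odd (p ^ f) := (hp.out.odd_of_ne_two hp2).pow
  obtain ⟨m, hm⟩ : ∃ m, Nat.card (twoStab G a b) = 2 * m := by
    obtain ⟨k, hk⟩ := hodd
    exact ⟨k, by omega⟩ 
  have hm0 : 0 < m := by
    have := Nat.card_pos (α := twoStab G a b)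
    omega
  have hneg : (-1 : ZMod p) ≠ 1 := by
    haveI : Fact (2 < p) := ⟨lt_of_le_of_ne hp.out.two_le (Ne.symm hp2)⟩
    exact ZMod.neg_one_ne_one
  let δ' : twoStab G a b →* (ZMod p)ˣ := δ.toHomUnits
  have hδ' : ∀ h, ((δ' h : (ZMod p)ˣ) : ZMod p) = δ h := fun h => rfl
  let N : Subgroup (twoStab G a b) := ((powMonoidHom m : (ZMod p)ˣ →* (ZMod p)ˣ).comp δ').ker
  have hNmem : ∀ h : twoStab G a b, h ∈ N ↔ h ^ m = 1 := by
    intro h
    have h1 : h ^ m * h ^ m = 1 := by
      rw [← pow_add, ← two_mul, ← hm]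
      exact pow_card_eq_one'
    rw [MonoidHom.mem_ker, MonoidHom.comp_apply, powMonoidHom_apply, ← map_pow]
    constructor
    · intro h2
      by_contra h3
      have h4 := hδ1 _ h1 h3
      rw [← hδ', h2] at h4
      exact hneg h4.symm
    · intro h2
      rw [h2, map_one]
  -- N is proper
  have hNtop : N ≠ ⊤ := by
    intro hN
    haveI : Fact (Nat.Prime 2) := ⟨Nat.prime_two⟩
    obtain ⟨S⟩ : Nonempty (Sylow 2 (twoStab G a b)) := inferInstance
    have hinj : Function.Injective (δ.comp (S : Subgroup (twoStab G a b)).subtype) := by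
      intro x y hxy
      by_contra hne
      have hxy' : δ x.1 = δ y.1 := hxy
      have h1 : δ (x.1⁻¹ * y.1) = 1 := by
        rw [map_mul, ← hxy', ← map_mul, inv_mul_cancel, map_one]
      obtain ⟨n, hn⟩ := (IsPGroup.iff_orderOf.mp S.isPGroup') (x⁻¹ * y)
      have hw1 : x⁻¹ * y ≠ 1 := fun h => hne (inv_mul_eq_one.mp h)
      have hn0 : n ≠ 0 := by
        rintro rfl
        rw [pow_zero, orderOf_eq_one_iff] at hn
        exact hw1 hn
      obtain ⟨k, rfl⟩ := Nat.exists_eq_succ_of_ne_zero hn0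
      have h2 : (x⁻¹ * y) ^ (2 ^ k) * (x⁻¹ * y) ^ (2 ^ k) = 1 := by
        rw [← pow_add, ← two_mul, ← pow_succ', ← hn]
        exact pow_orderOf_eq_one _
      have h3 : (x⁻¹ * y) ^ (2 ^ k) ≠ 1 := by
        intro h
        have h4 := orderOf_dvd_of_pow_eq_one h
        rw [hn] at h4
        have h5 := (Nat.pow_dvd_pow_iff_le_right (by norm_num : 1 < 2)).mp h4
        omega
      have h4 := hδ1 ((x⁻¹ * y) ^ (2 ^ k) : S).1 (congrArg Subtype.val h2) (fun h => h3 (Subtype.ext h))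
      have h5 : δ ((x⁻¹ * y) ^ (2 ^ k) : S).1 = 1 := by
        have : ((x⁻¹ * y) ^ (2 ^ k) : S).1 = (x.1⁻¹ * y.1) ^ (2 ^ k) := rfl
        rw [this, map_pow, h1, one_pow]
      rw [h5] at h4
      exact hneg h4.symm
    have hScyc : IsCyclic S := isCyclic_of_subgroup_isDomain _ hinj
    obtain ⟨x, hx⟩ := hScyc.exists_generator
    have hox : orderOf (x : twoStab G a b) = Nat.card S := by
      rw [orderOf_coe, orderOf_eq_card_of_forall_mem_zpowers hx]
    have h1 : (x : twoStab G a b) ^ m = 1 := (hNmem _).mp (by rw [hN]; exact mem_top _)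
    have h2 := orderOf_dvd_of_pow_eq_one h1
    rw [hox, S.card_eq_multiplicity] at h2
    have h3 : 2 ^ (Nat.card (twoStab G a b)).factorization 2 * 2 ∣ 2 * m := by
      rw [mul_comm]
      exact Nat.mul_dvd_mul_left 2 h2
    rw [← hm, ← pow_succ] at h3
    have h4 := (Nat.Prime.pow_dvd_iff_le_factorization Nat.prime_two (Nat.card_pos.ne')).mp h3
    omega
  let σ : twoStab G a b → twoStab G a b := fun h => ⟨s * h.1 * s⁻¹, conj_twoStab hs hsa hsb h.2⟩
  have hσ1 : ∀ h, (σ h).1 = s * h.1 * s⁻¹ := fun h => rfl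
  have hσmul : ∀ h k, σ (h * k) = σ h * σ k := by
    intro h k
    apply Subtype.ext
    change s * (h.1 * k.1) * s⁻¹ = (s * h.1 * s⁻¹) * (s * k.1 * s⁻¹)
    group
  have hσinv : ∀ h, σ h⁻¹ = (σ h)⁻¹ := by
    intro h
    apply Subtype.ext
    change s * (h.1)⁻¹ * s⁻¹ = (s * h.1 * s⁻¹)⁻¹
    group
  have hσpow : ∀ h (n : ℕ), σ (h ^ n) = (σ h) ^ n := by
    intro h n
    induction n with
    | zero => 
      apply Subtype.ext
      change s * 1 * s⁻¹ = 1
      group
    | succ n ih => rw [pow_succ, pow_succ, hσmul, ih]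
  have hss : s * s = 1 := three_sharp hsharp hab hac hbc (G.mul_mem hs hs)
    (by rw [Equiv.Perm.mul_apply, hsa, hsb]) (by rw [Equiv.Perm.mul_apply, hsb, hsa])
    (by rw [Equiv.Perm.mul_apply, hsc, hsc])
  have hσσ : ∀ h, σ (σ h) = h := by
    intro h
    apply Subtype.ext
    change s * (s * h.1 * s⁻¹) * s⁻¹ = h.1
    calc s * (s * h.1 * s⁻¹) * s⁻¹ = (s * s) * h.1 * (s * s)⁻¹ := by group
      _ = h.1 := by rw [hss]; group
  have hmem : ∀ k, k ∈ N ↔ (δ k) ^ m = 1 := by
    intro k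
    have : k ∈ N ↔ (δ' k) ^ m = 1 := Iff.rfl
    rw [this, ← hδ', Units.ext_iff]; simp
  have hχ : ∀ k, (δ k) ^ m = 1 ∨ (δ k) ^ m = -1 := by
    intro k
    rw [← mul_self_eq_one_iff, ← pow_add, ← two_mul, ← hm, ← map_pow, pow_card_eq_one', map_one]
  let D : twoStab G a b → twoStab G a b := fun h => σ h * h⁻¹
  have hDN : ∀ h, D h ∈ N := by
    intro h
    have h1 : σ h ∈ N ↔ h ∈ N := by
      rw [hNmem, hNmem, ← hσpow]
      constructor
      · intro h2
        have := congrArg σ h2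
        rw [hσσ] at this
        rw [this]
        apply Subtype.ext
        change s * 1 * s⁻¹ = 1
        group
      · intro h2
        rw [h2]
        apply Subtype.ext
        change s * 1 * s⁻¹ = 1
        group
    -- character values
    rcases hχ h with h2 | h2
    · have h3 := hmem _ |>.mp (h1.mpr ((hmem _).mpr h2))
      rw [hmem, map_mul, mul_pow, h3, one_mul]
      have h4 : (δ h⁻¹) ^ m * (δ h) ^ m = 1 := by
        rw [← mul_pow, ← map_mul, inv_mul_cancel, map_one, one_pow]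
      rwa [h2, mul_one] at h4
    · have h4 : (δ h⁻¹) ^ m * (δ h) ^ m = 1 := by
        rw [← mul_pow, ← map_mul, inv_mul_cancel, map_one, one_pow]
      rcases hχ (σ h) with h3 | h3
      · have h5 := (hmem _).mp (h1.mp ((hmem _).mpr h3))
        rw [h5] at h2
        exact absurd h2.symm hneg
      · rw [hmem, map_mul, mul_pow, h3]
        rw [h2] at h4
        linear_combination h4
  -- counting
  have hfib : ∀ h k, D h = D k → s * (k⁻¹ * h).1 = (k⁻¹ * h).1 * s := by
    intro h k hDD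
    have h1 : (σ k)⁻¹ * σ h = k⁻¹ * h := by
      have : σ h * h⁻¹ = σ k * k⁻¹ := hDD
      rw [inv_mul_eq_iff_eq_mul, ← mul_assoc, ← this]; group
    rw [← hσinv, ← hσmul] at h1
    have h2 := congrArg Subtype.val h1
    exact mul_inv_eq_iff_eq_mul.mp h2
  haveI : Fintype (twoStab G a b) := Fintype.ofFinite _
  have hcount : Fintype.card (twoStab G a b) ≤ 2 * (Finset.univ.image D).card := by
    rw [← Finset.card_univ]
    refine Finset.card_le_mul_card_image _ 2 ?_
    intro d hd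
    by_contra hlt
    push Not at hlt
    obtain ⟨x, hx, y, hy, z, hz, hxy, hxz, hyz⟩ := Finset.two_lt_card.mp hlt
    rw [Finset.mem_filter] at hx hy hz
    have e1 := hfib y x (hy.2.trans hx.2.symm)
    have e2 := hfib z x (hz.2.trans hx.2.symm)
    have h1 := comm_swap hsharp hab hac hbc hs hsa hsc (x⁻¹ * y).2 (x⁻¹ * z).2 
      (fun h => hxy (inv_mul_eq_one.mp (Subtype.ext h)))
      (fun h => hxz (inv_mul_eq_one.mp (Subtype.ext h))) e1 e2
    exact hyz (mul_left_cancel (Subtype.ext h1))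
  have hNcard : Nat.card N ≤ m := by
    have h1 := N.card_mul_index
    have h2 : N.index ≠ 1 := fun h => hNtop (index_eq_one.mp h)
    have h3 : N.index ≠ 0 := index_ne_zero_of_finite
    rw [hm] at h1
    have h4 : Nat.card N * 2 ≤ Nat.card N * N.index := Nat.mul_le_mul_left _ (by omega)
    omega
  have himg : ∀ n ∈ N, ∃ h, D h = n := by
    have h1 : Finset.univ.image D ⊆ Finset.univ.filter (fun n => n ∈ N) := by
      intro d hd
      obtain ⟨h, -, rfl⟩ := Finset.mem_image.mp hd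
      simp [hDN h]
    have h2 : (Finset.univ.filter (fun n : twoStab G a b => n ∈ N)).card = Nat.card N := by
      rw [Nat.card_eq_fintype_card, ← Fintype.card_subtype]
    have h3 := Finset.eq_of_subset_of_card_le h1 (by
      rw [h2]
      rw [← Nat.card_eq_fintype_card, hm] at hcount
      omega)
    intro n hn
    have h4 : n ∈ Finset.univ.image D := by
      rw [h3]; simp [hn]
    obtain ⟨h, -, hh⟩ := Finset.mem_image.mp h4
    exact ⟨h, hh⟩
  have hNinv : ∀ n ∈ N, σ n = n⁻¹ := by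
    intro n hn
    obtain ⟨h, rfl⟩ := himg n hn
    change σ (σ h * h⁻¹) = (σ h * h⁻¹)⁻¹
    rw [hσmul, hσσ, hσinv, mul_inv_rev, inv_inv]
  have hNab : ∀ n ∈ N, ∀ k ∈ N, n * k = k * n := by
    intro n hn k hk
    have h1 := hNinv _ (N.mul_mem hn hk)
    rw [hσmul, hNinv n hn, hNinv k hk] at h1
    have h2 := congrArg (fun x => x⁻¹) h1
    simp only [mul_inv_rev, inv_inv] at h2
    exact h2.symm
  have hsqN : ∀ g, g * g ∈ N := by
    intro g
    rw [hNmem, ← pow_two, ← pow_mul, ← hm]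
    exact pow_card_eq_one'
  have hNcen : ∀ x ∈ N, ∀ g, g * x = x * g := by
    intro x hx g
    by_contra hne
    set y := g * x * g⁻¹ * x⁻¹ with hy
    have hy1 : y ≠ 1 := by
      intro h
      rw [hy, mul_inv_eq_one, mul_inv_eq_iff_eq_mul] at h
      exact hne h
    have hgg : (g * g) * x = x * (g * g) := hNab _ (hsqN g) _ hx
    have hyc : g * y * g⁻¹ = y⁻¹ := by
      calc g * y * g⁻¹ = ((g * g) * x) * (g * g)⁻¹ * (g * x⁻¹ * g⁻¹) := by rw [hy]; group
        _ = x * (g * x⁻¹ * g⁻¹) := by rw [hgg]; group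
        _ = y⁻¹ := by rw [hy]; group
    have h1 := hδ2 y g hy1 hyc
    have h2 : δ y = 1 := by
      have e1 : δ g * δ g⁻¹ = 1 := by rw [← map_mul, mul_inv_cancel, map_one]
      have e2 : δ x * δ x⁻¹ = 1 := by rw [← map_mul, mul_inv_cancel, map_one]
      rw [hy, map_mul, map_mul, map_mul]
      calc δ g * δ x * δ g⁻¹ * δ x⁻¹ = (δ g * δ g⁻¹) * (δ x * δ x⁻¹) := by ring
        _ = 1 := by rw [e1, e2, mul_one]
    rw [h2] at h1
    exact hneg h1.symm
  have hidx : ∀ h k : twoStab G a b, h ∉ N → k ∉ N → h * k ∈ N := by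
    intro h k hh hk
    rw [hmem] at hh hk ⊢
    rw [map_mul, mul_pow, (hχ h).resolve_left hh, (hχ k).resolve_left hk]
    ring
  refine ⟨N, ?_, ?_, hidx⟩
  · intro h hh
    exact congrArg Subtype.val (hNinv h hh)
  · intro h k
    by_cases hh : h ∈ N
    · exact (hNcen h hh k).symm
    · by_cases hk : k ∈ N
      · exact hNcen k hk h
      · have h1 : h⁻¹ * k ∈ N := hidx _ _ (fun h2 => hh (N.inv_mem_iff.mp h2)) hk
        have h2 := hNcen _ h1 h
        have h3 : k = h * (h⁻¹ * k) := by group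
        rw [h3]
        generalize h⁻¹ * k = n at h2
        rw [mul_assoc, ← h2]

/-- S0730 -/
theorem sharp_three_odd {p f : ℕ} (hp : p.Prime) (hp2 : p ≠ 2) (hfo : Odd f) 
    (hα : Fintype.card α = p ^ f + 1) (G : Subgroup (Equiv.Perm α)) 
    (h3 : MulAction.IsMultiplyPretransitive G α 3) 
    (hsharp : ∀ x : Fin 3 ↪ α, MulAction.stabilizer G x = ⊥) : 
    ∃ (F : Type) (_ : Field F) (_ : Fintype F), Fintype.card F = p ^ f ∧ 
      Nonempty (G ≃* Matrix.ProjGenLinGroup (Fin 2) F) := by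
  classical
  haveI := Fact.mk hp
  have hpf : 2 ≤ p ^ f := by
    obtain ⟨k, rfl⟩ := hfo
    calc 2 ≤ p := hp.two_le
      _ = p ^ 1 := (pow_one p).symm
      _ ≤ p ^ (2 * k + 1) := Nat.pow_le_pow_right hp.pos (by omega)
  obtain ⟨a, b, c, hab, hac, hbc⟩ := Fintype.two_lt_card_iff.mp (show 2 < Fintype.card α by omega)
  obtain ⟨s, hs, hsa, hsb, hsc⟩ := three_trans h3 hab hac hbc hab.symm hbc hac
  have hss : s * s = 1 := three_sharp hsharp hab hac hbc (G.mul_mem hs hs)
    (by rw [Equiv.Perm.mul_apply, hsa, hsb]) (by rw [Equiv.Perm.mul_apply, hsb, hsa])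
    (by rw [Equiv.Perm.mul_apply, hsc, hsc])
  have hsinv : s⁻¹ = s := inv_eq_of_mul_eq_one_left hss
  obtain ⟨N, hNinv, hHc, hidx⟩ := twoStab_abelian h3 hsharp hab hac hbc hp2 hfo hα hs hsa hsb hsc
  obtain ⟨K, iF, iFt, hK, hG⟩ := pgl_of_swap_inv h3 hsharp hab hac hbc (by
    intro g hg hga hgb
    have hhH : s⁻¹ * g ∈ twoStab G a b := ⟨G.mul_mem (G.inv_mem hs) hg, 
      by rw [Equiv.Perm.mul_apply, hga, Equiv.Perm.inv_eq_iff_eq, hsa], 
      by rw [Equiv.Perm.mul_apply, hgb, Equiv.Perm.inv_eq_iff_eq, hsb]⟩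
    let h : twoStab G a b := ⟨s⁻¹ * g, hhH⟩
    have hgg : g * g = s * h.1 * s⁻¹ * h.1 := by
      change g * g = s * (s⁻¹ * g) * s⁻¹ * (s⁻¹ * g)
      calc g * g = g * (s * s)⁻¹ * g := by rw [hss]; group
        _ = _ := by group
    rw [hgg]
    by_cases hhN : h ∈ N
    · rw [hNinv h hhN, inv_mul_cancel]
    by_contra he1
    exfalso
    let σ : twoStab G a b → twoStab G a b := fun h => ⟨s * h.1 * s⁻¹, conj_twoStab hs hsa hsb h.2⟩
    have hσmul : ∀ h k, σ (h * k) = σ h * σ k := by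
      intro h k
      apply Subtype.ext
      change s * (h.1 * k.1) * s⁻¹ = (s * h.1 * s⁻¹) * (s * k.1 * s⁻¹)
      group
    have hσN : ∀ n ∈ N, σ n = n⁻¹ := fun n hn => Subtype.ext (hNinv n hn)
    let e : twoStab G a b := σ h * h
    have he : e ≠ 1 := fun h2 => he1 (congrArg Subtype.val h2)
    have he2 : e * e = 1 := by
      have h1 := hσN _ (hidx h h hhN hhN)
      rw [hσmul] at h1
      change (σ h * h) * (σ h * h) = 1
      calc (σ h * h) * (σ h * h) = σ h * (h * σ h) * h := by group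
        _ = σ h * (σ h * h) * h := by rw [hHc h (σ h)]
        _ = (σ h * σ h) * (h * h) := by group
        _ = 1 := by rw [h1]; group
    have heall : ∀ k : twoStab G a b, k ∉ N → σ k * k = e := by
      intro k hk
      have h1 : k * h⁻¹ ∈ N := hidx k h⁻¹ hk (fun h2 => hhN (N.inv_mem_iff.mp h2))
      have h2 := hσN _ h1
      have h3 : k = (k * h⁻¹) * h := by group
      generalize k * h⁻¹ = n at h2 h3
      rw [h3, hσmul, h2]
      change n⁻¹ * σ h * (n * h) = σ h * h
      rw [hHc n⁻¹ (σ h)]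
      group
    obtain ⟨δ, hδ1, hδ2, hδ3⟩ := exists_delta h3 hsharp hab hp2 hfo hα
    obtain ⟨V, p', j, hVG, hVa, hVt, hVs, hVc, hVn, hp', hj, hcardp, hVp, hVall⟩ := 
      exists_fpf_subgroup h3 hsharp (by omega) a
    obtain ⟨K, iF, iFt, ι, hι, hιa, hι0, hι1, hT, hM⟩ := exists_field hab hac hbc V (twoStab G a b) hVa
      (fun y hy => hVt b y hab.symm hy) (fun v hv h => hVs v hv b hab.symm h) hVc
      (fun h hh => hh.2.1) (fun h hh => hh.2.2) 
      (fun y hya hyb => by
        obtain ⟨g, hg, h1, h2, h3⟩ := three_trans h3 hab hac hbc hab hya.symm hyb.symm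
        exact ⟨g, ⟨hg, h1, h2⟩, h3⟩)
      (fun h hh hc => three_sharp hsharp hab hac hbc hh.1 hh.2.1 hh.2.2 hc) 
      (fun h hh k hk => congrArg Subtype.val (hHc ⟨h, hh⟩ ⟨k, hk⟩))
      (fun h hh v hv => hVn h hh.1 hh.2.1 v hv)
    -- characteristic not two
    have hK : Fintype.card K = p ^ f := by
      have h1 : Fintype.card K = Fintype.card {y : α // y ≠ a} := by
        refine Fintype.card_of_bijective (f := fun k => (⟨ι k, (hιa _).mpr ⟨k, rfl⟩⟩ : {y : α // y ≠ a})) 
          ⟨fun x y h => hι (congrArg Subtype.val h), ?_⟩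
        rintro ⟨y, hy⟩
        obtain ⟨k, hk⟩ := (hιa y).mp hy
        exact ⟨k, Subtype.ext hk⟩
      have h2 : Fintype.card {y : α // y ≠ a} = Fintype.card α - 1 := by
        simp [Fintype.card_subtype_compl]
      omega
    have h2K : (2 : K) ≠ 0 := by
      intro h2
      have h4 : addOrderOf (1 : K) ∣ 2 := by
        rw [addOrderOf_dvd_iff_nsmul_eq_zero, two_nsmul, one_add_one_eq_two, h2]
      have h5 : addOrderOf (1 : K) ∣ p ^ f := hK ▸ addOrderOf_dvd_card
      have h6 : (p ^ f).Coprime 2 := Nat.coprime_two_right.mpr ((hp.odd_of_ne_two hp2).pow)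
      have h7 : addOrderOf (1 : K) = 1 := Nat.eq_one_of_dvd_coprimes h6 h5 h4
      rw [AddMonoid.addOrderOf_eq_one_iff] at h7
      exact one_ne_zero h7
    have hιna : ∀ k, ι k ≠ a := fun k => (hιa _).mpr ⟨k, rfl⟩
    have hex : ∀ x : K, ∃ h : twoStab G a b, x ≠ 0 → ∀ y, h.1 (ι y) = ι (x * y) := by
      intro x
      by_cases hx : x = 0
      · exact ⟨1, fun h => absurd hx h⟩
      · obtain ⟨h, hh, hhx⟩ := hM x hx
        exact ⟨⟨h, hh⟩, fun _ => hhx⟩
    choose hx hxs using hex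
    have huniq : ∀ h k : twoStab G a b, h.1 c = k.1 c → h = k := by
      intro u v h
      have : v.1⁻¹ * u.1 = 1 := three_sharp hsharp hab hac hbc (G.mul_mem (G.inv_mem v.2.1) u.2.1)
        (by rw [Equiv.Perm.mul_apply, u.2.2.1, Equiv.Perm.inv_eq_iff_eq, v.2.2.1])
        (by rw [Equiv.Perm.mul_apply, u.2.2.2, Equiv.Perm.inv_eq_iff_eq, v.2.2.2])
        (by rw [Equiv.Perm.mul_apply, h, perm_inv_self])
      exact Subtype.ext (inv_mul_eq_one.mp this).symm
    have hxc : ∀ x, x ≠ 0 → (hx x).1 c = ι x := by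
      intro x hx0
      rw [← hι1, hxs x hx0, mul_one]
    have hxmul : ∀ x y, x ≠ 0 → y ≠ 0 → hx (x * y) = hx x * hx y := by
      intro x y hx0 hy0
      apply huniq
      change (hx (x * y)).1 c = (hx x).1 ((hx y).1 c)
      rw [hxc _ (mul_ne_zero hx0 hy0), hxc y hy0, hxs x hx0]
    have hx1 : hx 1 = 1 := by
      apply huniq
      rw [hxc 1 one_ne_zero, hι1]; rfl
    have hn1 : (-1 : K) ≠ 0 := neg_ne_zero.mpr one_ne_zero
    have hem : hx (-1) = e := by
      apply hδ3 _ _ _ _ he2 he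
      · rw [← hxmul _ _ hn1 hn1, neg_mul_neg, one_mul, hx1]
      · intro h1
        have h2 := hxc (-1) hn1
        rw [h1] at h2
        have h3 : ι 1 = ι (-1) := by rw [hι1]; exact h2
        have h4 := hι h3
        apply h2K
        linear_combination h4
    let P : K → Prop := fun x => hx x ∈ N
    have hPmul : ∀ x y, x ≠ 0 → y ≠ 0 → P x → P y → P (x * y) := by
      intro x y hx0 hy0 h1 h2
      change hx (x * y) ∈ N
      rw [hxmul x y hx0 hy0]
      exact N.mul_mem h1 h2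
    have hPmul' : ∀ x y, x ≠ 0 → y ≠ 0 → ¬ P x → ¬ P y → P (x * y) := by
      intro x y hx0 hy0 h1 h2
      change hx (x * y) ∈ N
      rw [hxmul x y hx0 hy0]
      exact hidx _ _ h1 h2
    have hPinv : ∀ x, x ≠ 0 → P x → P x⁻¹ := by
      intro x hx0 h1
      change hx x⁻¹ ∈ N
      have h2 := hxmul x x⁻¹ hx0 (inv_ne_zero hx0)
      rw [mul_inv_cancel₀ hx0, hx1] at h2
      rw [eq_inv_of_mul_eq_one_right h2.symm]
      exact N.inv_mem h1
    have hP1 : P 1 := by
      change hx 1 ∈ N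
      rw [hx1]; exact N.one_mem
    have hPn : P (-1) := by
      by_contra h1
      have h2 : e ∉ N := by rw [← hem]; exact h1
      have h3 := heall e h2
      have h4 : σ e = 1 := mul_eq_right.mp h3
      have h5 : s * e.1 * s⁻¹ = 1 := congrArg Subtype.val h4
      have h6 : e.1 = 1 := by
        calc e.1 = s⁻¹ * (s * e.1 * s⁻¹) * s := by group
          _ = 1 := by rw [h5]; group
      exact he (Subtype.ext h6)
    have hsι : ∀ x, x ≠ 0 → s (ι x) = (σ (hx x)).1 c := by
      intro x hx0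
      change s (ι x) = (s * (hx x).1 * s⁻¹) c
      rw [Equiv.Perm.mul_apply, Equiv.Perm.mul_apply, hsinv, hsc, hxc x hx0]
    have hinvc : ∀ x, x ≠ 0 → (hx x)⁻¹.1 c = ι x⁻¹ := by
      intro x hx0
      change (hx x).1⁻¹ c = ι x⁻¹
      rw [Equiv.Perm.inv_eq_iff_eq, hxs x hx0, mul_inv_cancel₀ hx0, hι1]
    have hsP : ∀ x, x ≠ 0 → P x → s (ι x) = ι x⁻¹ := by
      intro x hx0 hPx
      rw [hsι x hx0, hσN _ hPx, hinvc x hx0]
    have heι : ∀ y, e.1 (ι y) = ι (-y) := by
      intro y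
      rw [← hem, hxs _ hn1, neg_one_mul]
    have hsnP : ∀ x, x ≠ 0 → ¬ P x → s (ι x) = ι (-x⁻¹) := by
      intro x hx0 hPx
      have h1 := heall _ hPx
      have h2 : σ (hx x) = e * (hx x)⁻¹ := eq_mul_inv_of_mul_eq h1
      rw [hsι x hx0, h2]
      change e.1 ((hx x)⁻¹.1 c) = _
      rw [hinvc x hx0, heι]
    obtain ⟨T, hTV, hTs⟩ := hT 1
    let w : Equiv.Perm α := T * e.1 * s
    have hwG : w ∈ G := G.mul_mem (G.mul_mem (hVG hTV) e.2.1) hs
    have hτ : ∀ y, T (e.1 (ι y)) = ι (1 - y) := by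
      intro y
      rw [heι, hTs, sub_eq_add_neg]
    have hwa : w a = c := by
      change T (e.1 (s a)) = c
      have h1 : s a = ι 0 := by rw [hsa, hι0]
      rw [h1, hτ, sub_zero, hι1]
    have hwb : w b = a := by
      change T (e.1 (s b)) = a
      have h1 : e.1 a = a := e.2.2.1
      rw [hsb, h1, hVa T hTV]
    have hwc : w c = b := by
      change T (e.1 (s c)) = b
      have h1 : s c = ι 1 := by rw [hsc, hι1]
      rw [h1, hτ, sub_self, hι0]
    have hw3 : w * w * w = 1 := by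
      refine three_sharp hsharp hab hac hbc (G.mul_mem (G.mul_mem hwG hwG) hwG) ?_ ?_ ?_
      · simp only [Equiv.Perm.mul_apply]
        rw [hwa, hwc, hwb]
      · simp only [Equiv.Perm.mul_apply]
        rw [hwb, hwa, hwc]
      · simp only [Equiv.Perm.mul_apply]
        rw [hwc, hwb, hwa]
    have hwP : ∀ x, x ≠ 0 → P x → w (ι x) = ι (1 - x⁻¹) := by
      intro x hx0 h
      change T (e.1 (s (ι x))) = _
      rw [hsP x hx0 h, hτ]
    have hwnP : ∀ x, x ≠ 0 → ¬ P x → w (ι x) = ι (1 + x⁻¹) := by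
      intro x hx0 h
      change T (e.1 (s (ι x))) = _
      rw [hsnP x hx0 h, hτ, sub_neg_eq_add]
    have key : ∀ x, x ≠ 0 → P x → x ≠ 1 → P (1 - x) := by
      intro x hx0 hPx hx1'
      by_contra hnP
      have hx1s : x - 1 ≠ 0 := sub_ne_zero.mpr hx1'
      set y := 1 - x⁻¹ with hy
      have hyx : y * x = x - 1 := by rw [hy, sub_mul, inv_mul_cancel₀ hx0, one_mul]
      have hy0 : y ≠ 0 := by
        intro h0
        rw [h0, zero_mul] at hyx
        exact hx1s hyx.symm
      have hnPy : ¬ P y := by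
        intro hPy
        apply hnP
        have h1 := hPmul (-1) (y * x) hn1 (mul_ne_zero hy0 hx0) hPn (hPmul y x hy0 hx0 hPy hPx)
        rw [hyx] at h1
        have h2 : -1 * (x - 1) = 1 - x := by ring
        rwa [h2] at h1
      set v := 1 + y⁻¹ with hv
      have hvy : v * (x - 1) = 2 * x - 1 := by
        have h1 : v * y = y + 1 := by rw [hv, add_mul, inv_mul_cancel₀ hy0, one_mul]
        calc v * (x - 1) = (v * y) * x := by rw [mul_assoc, hyx]
          _ = y * x + x := by rw [h1]; ring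
          _ = 2 * x - 1 := by rw [hyx]; ring
      have hw : w (ι v) = ι x := by
        have h1 := congrArg (fun g : Equiv.Perm α => g (ι x)) hw3
        simp only [Equiv.Perm.mul_apply] at h1
        rw [hwP x hx0 hPx, hwnP _ hy0 hnPy] at h1
        exact h1
      by_cases hv0 : v = 0
      · rw [hv0, hι0, hwb] at hw
        exact hιna x hw.symm
      by_cases hPv : P v
      · rw [hwP v hv0 hPv] at hw
        have h1 := hι hw
        have h2 : x * v = v - 1 := by rw [← h1, sub_mul, inv_mul_cancel₀ hv0, one_mul]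
        have h3 : 2 * (x * (x - 1)) = 0 := by
          have : x * (v * (x - 1)) = (v - 1) * (x - 1) := by rw [← mul_assoc, h2]
          rw [hvy, sub_mul, hvy] at this
          linear_combination this
        rcases mul_eq_zero.mp h3 with h4 | h4
        · exact h2K h4
        · rcases mul_eq_zero.mp h4 with h5 | h5
          · exact hx0 h5
          · exact hx1s h5
      · rw [hwnP v hv0 hPv] at hw
        have h1 := hι hw
        have h2 : x * v = v + 1 := by rw [← h1, add_mul, inv_mul_cancel₀ hv0, one_mul]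
        have h3 : 2 * ((x - 1) * (x - 1)) = 0 := by
          have : x * (v * (x - 1)) = (v + 1) * (x - 1) := by rw [← mul_assoc, h2]
          rw [hvy, add_mul, hvy] at this
          linear_combination this
        rcases mul_eq_zero.mp h3 with h4 | h4
        · exact h2K h4
        · rcases mul_eq_zero.mp h4 with h5 | h5
          · exact hx1s h5
          · exact hx1s h5
    have hsub : ∀ x y, x ≠ 0 → y ≠ 0 → P x → P y → x ≠ y → P (x - y) := by
      intro x y hx0 hy0 h1 h2 hne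
      have h3 := hPmul y x⁻¹ hy0 (inv_ne_zero hx0) h2 (hPinv x hx0 h1)
      have h4 : y * x⁻¹ ≠ 1 := by
        intro h
        apply hne
        rw [mul_inv_eq_one₀ hx0] at h
        exact h.symm
      have h5 := key _ (mul_ne_zero hy0 (inv_ne_zero hx0)) h3 h4
      have h6 : 1 - y * x⁻¹ ≠ 0 := sub_ne_zero.mpr (Ne.symm h4)
      have h7 := hPmul x _ hx0 h6 h1 h5
      have h8 : x * (1 - y * x⁻¹) = x - y := by
        rw [mul_sub, mul_one, mul_comm y, ← mul_assoc, mul_inv_cancel₀ hx0, one_mul]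
      rwa [h8] at h7
    -- a non-square
    obtain ⟨γ, hγ⟩ := (hιa (h.1 c)).mp (fun h4 => hac.symm (h.1.injective (h4.trans h.2.2.1.symm)))
    have hγ0 : γ ≠ 0 := by
      rintro rfl
      rw [hι0] at hγ
      exact hbc.symm (h.1.injective (hγ.symm.trans h.2.2.2.symm))
    have hγP : ¬ P γ := by
      intro hP
      have h4 : hx γ = h := huniq _ _ (by rw [hxc γ hγ0, hγ])
      apply hhN
      rw [← h4]; exact hP
    have h1γ : 1 + γ ≠ 0 := by
      intro h0
      have : γ = -1 := by linear_combination h0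
      rw [this] at hγP
      exact hγP hPn
    by_cases hPg : P (1 + γ)
    · have h1 := hsub (1 + γ) 1 h1γ one_ne_zero hPg hP1 (by
        intro h0
        exact hγ0 (by linear_combination h0))
      rw [add_sub_cancel_left] at h1
      exact hγP h1
    · have hni : ¬ P γ⁻¹ := by
        intro h1
        have := hPinv _ (inv_ne_zero hγ0) h1
        rw [inv_inv] at this
        exact hγP this
      have h1 := hPmul' γ⁻¹ (1 + γ) (inv_ne_zero hγ0) h1γ hni hPg
      have h2 : γ⁻¹ * (1 + γ) = γ⁻¹ + 1 := by rw [mul_add, mul_one, inv_mul_cancel₀ hγ0]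
      rw [h2] at h1
      have h4 : γ⁻¹ + 1 ≠ 0 := by
        rw [← h2]; exact mul_ne_zero (inv_ne_zero hγ0) h1γ
      have h5 := hsub (γ⁻¹ + 1) 1 h4 one_ne_zero h1 hP1 (by
        intro h0
        exact inv_ne_zero hγ0 (by linear_combination h0))
      rw [add_sub_cancel_right] at h5
      exact hni h5)
  exact ⟨K, iF, iFt, by omega, hG⟩

end CfsgH2
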