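import Cfsg.Agent.H2.LocBal3

/-! Strongly p-embedded subgroups and connectivity. -/

set_option autoImplicit false

namespace CfsgH2

open Subgroup Cfsg

variable {G : Type*} [Group G] {p : ℕ}

/-- vertices of the commuting graph -/
def IsVx (p : ℕ) (A : Subgroup G) : Prop := IsElementaryAbelian p A ∧ p ^ 1 ≤ Nat.card A

/-- adjacency -/
def AdjC (p : ℕ) (A B : Subgroup G) : Prop := 
  IsElementaryAbelian p A ∧ p ^ 1 ≤ Nat.card A ∧ IsElementaryAbelian p B ∧
        p ^ 1 ≤ Nat.card B ∧ ∀ a ∈ A, ∀ b ∈ B, a * b = b * a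

theorem AdjC.symm {A B : Subgroup G} (h : AdjC p A B) : AdjC p B A := 
  ⟨h.2.2.1, h.2.2.2.1, h.1, h.2.1, fun a ha b hb => (h.2.2.2.2 b hb a ha).symm⟩

/-- connected -/
def Con (p : ℕ) (A B : Subgroup G) : Prop := Relation.ReflTransGen (AdjC p) A B

theorem Con.symm {A B : Subgroup G} (h : Con p A B) : Con p B A := by
  induction h with
  | refl => exact Relation.ReflTransGen.refl
  | tail _ hbc ih => exact Relation.ReflTransGen.head hbc.symm ih

theorem Con.trans {A B C : Subgroup G} (h : Con p A B) (h' : Con p B C) : Con p A C := 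
  Relation.ReflTransGen.trans h h'

theorem elab_conj {A : Subgroup G} (h : IsElementaryAbelian p A) (g : G) : 
    IsElementaryAbelian p (A.map (MulAut.conj g).toMonoidHom) := by
  refine ⟨⟨⟨?_⟩⟩, ?_⟩
  · rintro ⟨x, a, ha, rfl⟩ ⟨y, b, hb, rfl⟩
    apply Subtype.ext
    change (MulAut.conj g).toMonoidHom a * (MulAut.conj g).toMonoidHom b = 
      (MulAut.conj g).toMonoidHom b * (MulAut.conj g).toMonoidHom a
    rw [← map_mul, ← map_mul]
    congr 1
    have := h.1.is_comm.comm ⟨a, ha⟩ ⟨b, hb⟩
    simpa using congrArg Subtype.val this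
  · rintro x ⟨a, ha, rfl⟩
    rw [← map_pow, h.2 a ha, map_one]

theorem AdjC.conj {A B : Subgroup G} (h : AdjC p A B) (g : G) : 
    AdjC p (A.map (MulAut.conj g).toMonoidHom) (B.map (MulAut.conj g).toMonoidHom) := by
  refine ⟨elab_conj h.1 g, ?_, elab_conj h.2.2.1 g, ?_, ?_⟩
  · rw [card_map_of_injective (MulAut.conj g).injective]; exact h.2.1
  · rw [card_map_of_injective (MulAut.conj g).injective]; exact h.2.2.2.1
  · rintro _ ⟨a, ha, rfl⟩ _ ⟨b, hb, rfl⟩
    rw [← map_mul, ← map_mul, h.2.2.2.2 a ha b hb]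

theorem Con.conj {A B : Subgroup G} (h : Con p A B) (g : G) : 
    Con p (A.map (MulAut.conj g).toMonoidHom) (B.map (MulAut.conj g).toMonoidHom) := by
  induction h with
  | refl => exact Relation.ReflTransGen.refl
  | tail _ hbc ih => exact Relation.ReflTransGen.tail ih (hbc.conj g)

theorem elab_zpowers {x : G} (hx : orderOf x = p) : IsElementaryAbelian p (zpowers x) := by
  refine ⟨inferInstance, ?_⟩
  intro a ha
  obtain ⟨i, rfl⟩ := mem_zpowers_iff.mp ha
  have : x ^ p = 1 := by rw [← hx]; exact pow_orderOf_eq_one x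
  rw [← zpow_natCast, ← zpow_mul, mul_comm, zpow_mul, zpow_natCast, this, one_zpow]

theorem card_zpowers_ge {x : G} (hx : orderOf x = p) : p ^ 1 ≤ Nat.card (zpowers x) := by
  rw [Nat.card_zpowers, hx, pow_one]

variable [hp : Fact p.Prime] [Finite G]

/-- a central element of order p in a p-subgroup -/
theorem exists_central_p {P : Subgroup G} (hP : IsPGroup p P) (hne : P ≠ ⊥) : 
    ∃ z ∈ P, orderOf z = p ∧ ∀ x ∈ P, z * x = x * z := by
  haveI : Nontrivial P := (nontrivial_iff_ne_bot P).mpr hne
  have h1 : Nontrivial (center P) := hP.center_nontrivial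
  obtain ⟨n, hn⟩ := IsPGroup.iff_card.mp (hP.to_subgroup (center P))
  have h2 : p ∣ Nat.card (center P) := by
    rcases n with _ | n
    · rw [pow_zero] at hn
      have := Finite.one_lt_card_iff_nontrivial.mpr h1
      omega
    · rw [hn]; exact dvd_pow_self p (by omega)
  obtain ⟨c, hc⟩ := exists_prime_orderOf_dvd_card' p h2
  refine ⟨(c : P), (c : P).2, ?_, ?_⟩
  · rw [Subgroup.orderOf_coe, Subgroup.orderOf_coe]; exact hc
  · intro x hx
    exact (congrArg Subtype.val (mem_center_iff.mp c.2 ⟨x, hx⟩)).symm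

theorem vx_ne_bot {A : Subgroup G} (h : p ^ 1 ≤ Nat.card A) : A ≠ ⊥ := by
  rintro rfl
  rw [card_bot, pow_one] at h
  have := hp.out.one_lt
  omega

theorem elab_isPGroup {A : Subgroup G} (h : IsElementaryAbelian p A) : IsPGroup p A := by
  rintro ⟨a, ha⟩
  refine ⟨1, Subtype.ext ?_⟩
  change a ^ (p ^ 1) = 1
  rw [pow_one]; exact h.2 a ha

/-- all vertices in a p-subgroup are connected -/
theorem con_of_le {P : Subgroup G} (hP : IsPGroup p P) {A B : Subgroup G} (hA : IsElementaryAbelian p A) 
    (hA' : p ^ 1 ≤ Nat.card A) (hB : IsElementaryAbelian p B) (hB' : p ^ 1 ≤ Nat.card B) (hAP : A ≤ P) (hBP : B ≤ P) : 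
    Con p A B := by
  have hne : P ≠ ⊥ := by
    rintro rfl
    exact vx_ne_bot hA' (le_bot_iff.mp hAP)
  obtain ⟨z, hz, hzp, hzc⟩ := exists_central_p hP hne
  have hcomm : ∀ D : Subgroup G, D ≤ P → ∀ a ∈ D, ∀ b ∈ zpowers z, a * b = b * a := by
    intro D hD a ha b hb
    obtain ⟨i, rfl⟩ := mem_zpowers_iff.mp hb
    have : Commute z a := hzc a (hD ha)
    exact (this.zpow_left i).eq.symm
  refine Relation.ReflTransGen.trans (Relation.ReflTransGen.single (b := zpowers z) ?_) (Relation.ReflTransGen.single ?_)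
  · exact ⟨hA, hA', elab_zpowers hzp, card_zpowers_ge hzp, hcomm A hAP⟩
  · exact ⟨elab_zpowers hzp, card_zpowers_ge hzp, hB, hB', fun a ha b hb => (hcomm B hBP b hb a ha).symm⟩

theorem strEmb_iff : (∃ H : Subgroup G, H ≠ ⊤ ∧ p ∣ Nat.card ↥H ∧ ∀ g : G, g ∉ H → 
    ¬ p ∣ Nat.card ↥(H ⊓ H.map (MulAut.conj g).toMonoidHom)) ↔ ¬ IsKConnected p 1 G := by
  constructor
  · rintro ⟨H, hH, hpH, hemb⟩ hcon
    obtain ⟨x, hx⟩ := exists_prime_orderOf_dvd_card' (G := H) p hpH
    have hxo : orderOf (x : G) = p := by rw [Subgroup.orderOf_coe]; exact hx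
    -- everything connected to a vertex in H is in H
    have key : ∀ A B : Subgroup G, Con p A B → A ≤ H → B ≤ H := by
      intro A B h hA
      induction h with
      | refl => exact hA
      | tail _ hbc ih =>
        rename_i B' C' _
        intro c hc
        by_contra hcH
        have h1 : B' ≤ H ⊓ H.map (MulAut.conj c).toMonoidHom := by
          intro b hb
          refine ⟨ih hb, b, ih hb, ?_⟩
          change c * b * c⁻¹ = b
          rw [← hbc.2.2.2.2 b hb c hc, mul_inv_cancel_right]
        have h2 : p ∣ Nat.card B' := by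
          obtain ⟨n, hn⟩ := IsPGroup.iff_card.mp (elab_isPGroup hbc.1)
          have h3 := hbc.2.1
          rcases n with _ | n
          · rw [hn, pow_one, pow_zero] at h3
            have := hp.out.one_lt
            omega
          · rw [hn]; exact dvd_pow_self p (by omega)
        exact hemb c hcH (h2.trans (card_dvd_of_le h1))
    obtain ⟨g, hg⟩ : ∃ g : G, g ∉ H := by
      by_contra hc
      push Not at hc
      exact hH ((eq_top_iff' H).mpr hc)
    have h1 := hcon (zpowers (x : G)) ((zpowers (x : G)).map (MulAut.conj g).toMonoidHom) 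
      (elab_zpowers hxo) (card_zpowers_ge hxo) (elab_conj (elab_zpowers hxo) g) 
      (by rw [card_map_of_injective (MulAut.conj g).injective]; exact card_zpowers_ge hxo)
    have h2 := key _ _ h1 (by rw [zpowers_le]; exact x.2)
    apply hemb g hg
    have h3 : (zpowers (x : G)).map (MulAut.conj g).toMonoidHom ≤ H ⊓ H.map (MulAut.conj g).toMonoidHom := 
      le_inf h2 (map_mono (by rw [zpowers_le]; exact x.2))
    have h4 := card_dvd_of_le h3
    rw [card_map_of_injective (MulAut.conj g).injective, Nat.card_zpowers, hxo] at h4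
    exact h4
  · intro hcon
    rw [IsKConnected] at hcon
    push Not at hcon
    obtain ⟨E, E', hE, hEc, hE', hEc', hnc⟩ := hcon
    let H : Subgroup G := 
      { carrier := {g | Con p E (E.map (MulAut.conj g).toMonoidHom)}
        mul_mem' := by
          intro a b ha hb
          have h1 := Con.trans ha (Con.conj hb a)
          have h2 : (E.map (MulAut.conj b).toMonoidHom).map (MulAut.conj a).toMonoidHom = 
            E.map (MulAut.conj (a * b)).toMonoidHom := map_conj_conj
          rw [h2] at h1
          exact h1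
        one_mem' := by
          change Con p E (E.map (MulAut.conj 1).toMonoidHom)
          rw [map_conj_one_eq]
          exact Relation.ReflTransGen.refl
        inv_mem' := by
          intro a ha
          have h1 := (Con.conj ha a⁻¹).symm
          have h2 : (E.map (MulAut.conj a).toMonoidHom).map (MulAut.conj a⁻¹).toMonoidHom = E := by
            rw [map_conj_conj, inv_mul_cancel, map_conj_one_eq]
          rw [h2] at h1
          exact h1 }
    have hHmem : ∀ g, g ∈ H ↔ Con p E (E.map (MulAut.conj g).toMonoidHom) := fun g => Iff.rfl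
    obtain ⟨P, hP⟩ := (elab_isPGroup hE).exists_le_sylow
    -- P ≤ H
    have hPH : (P : Subgroup G) ≤ H := by
      intro g hg
      rw [hHmem]
      refine con_of_le P.isPGroup' hE hEc (elab_conj hE g) 
        (by rw [card_map_of_injective (MulAut.conj g).injective]; exact hEc) hP ?_
      rintro _ ⟨e, he, rfl⟩
      exact mul_mem (mul_mem hg (hP he)) (inv_mem hg)
    -- vertices in H are connected to E
    have hvH : ∀ x ∈ H, orderOf x = p → Con p E (zpowers x) := by
      intro x hx hxo
      have h1 : IsPGroup p (zpowers (⟨x, hx⟩ : H)) := by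
        apply IsPGroup.of_card (n := 1)
        rw [Nat.card_zpowers, pow_one, ← hxo, ← Subgroup.orderOf_coe]
      obtain ⟨R, hR⟩ := h1.exists_le_sylow
      let P' : Sylow p H := P.subtype hPH
      obtain ⟨h, hh⟩ := MulAction.exists_smul_eq H P' R
      have hxR : (⟨x, hx⟩ : H) ∈ R := hR (mem_zpowers _)
      rw [← hh] at hxR
      obtain ⟨y, hy, hyx⟩ := hxR
      have hyP : (y : G) ∈ (P : Subgroup G) := hy
      have hyx' : (h : G) * y * (h : G)⁻¹ = x := congrArg Subtype.val hyx
      have hyo : orderOf (y : G) = p := by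
        rw [← hxo, ← hyx']
        exact (orderOf_injective (MulAut.conj (h : G)).toMonoidHom (MulAut.conj (h : G)).injective (y : G)).symm
      have h2 : Con p E (zpowers (y : G)) := con_of_le P.isPGroup' hE hEc (elab_zpowers hyo) (card_zpowers_ge hyo) hP 
        (by rw [zpowers_le]; exact hyP)
      have h3 := Con.trans ((hHmem h).mp h.2) (Con.conj h2 h)
      rw [MonoidHom.map_zpowers] at h3
      have h4 : (MulAut.conj (h : G)).toMonoidHom (y : G) = x := hyx'
      rwa [h4] at h3
    refine ⟨H, ?_, ?_, ?_⟩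
    · intro htop
      obtain ⟨R, hR⟩ := (elab_isPGroup hE').exists_le_sylow
      obtain ⟨g, hg⟩ := MulAction.exists_smul_eq G P R
      have hgH : g ∈ H := by rw [htop]; exact mem_top _
      have h1 : E.map (MulAut.conj g).toMonoidHom ≤ R := by
        rw [← hg]
        exact map_mono hP
      have h2 : Con p (E.map (MulAut.conj g).toMonoidHom) E' := con_of_le R.isPGroup' (elab_conj hE g) 
        (by rw [card_map_of_injective (MulAut.conj g).injective]; exact hEc) hE' hEc' h1 hR
      exact hnc (Con.trans ((hHmem g).mp hgH) h2)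
    · obtain ⟨x, hxE, hxp, -⟩ := exists_central_p (elab_isPGroup hE) (vx_ne_bot hEc)
      have := orderOf_dvd_natCard (⟨x, hPH (hP hxE)⟩ : H)
      rwa [← Subgroup.orderOf_coe, hxp] at this
    · intro g hg hd
      obtain ⟨x, hx⟩ := exists_prime_orderOf_dvd_card' p hd
      have hxo : orderOf (x : G) = p := by rw [Subgroup.orderOf_coe]; exact hx
      obtain ⟨hxH, y, hy, hyx⟩ := x.2
      have hyx' : g * y * g⁻¹ = (x : G) := hyx
      have hyo : orderOf y = p := by
        rw [← hxo, ← hyx']
        exact (orderOf_injective (MulAut.conj g).toMonoidHom (MulAut.conj g).injective y).symm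
      have h1 := hvH x hxH hxo
      have h2 := Con.conj (hvH y hy hyo) g
      rw [MonoidHom.map_zpowers] at h2
      have h4 : (MulAut.conj g).toMonoidHom y = (x : G) := hyx'
      rw [h4] at h2
      exact hg (Con.trans h1 h2.symm)

end CfsgH2
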