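import Mathlib

/-! Homomorphisms from the symmetric group of degree 4. -/

set_option autoImplicit false

namespace CfsgH2

variable {G : Type*} [Group G]

def wA (a : G) : Fin 2 → G
  | 0 => 1
  | 1 => a

def wB (a b : G) : Fin 3 → G
  | 0 => 1
  | 1 => b
  | 2 => b * a

def wC (a b c : G) : Fin 4 → G
  | 0 => 1
  | 1 => c
  | 2 => c * b
  | 3 => c * (b * a)

def wT (a b c : G) (t : Fin 2 × Fin 3 × Fin 4) : G := wA a t.1 * (wB a b t.2.1 * wC a b c t.2.2)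

def tA : Fin 2 × Fin 3 × Fin 4 → Fin 2 × Fin 3 × Fin 4 := fun t => (1 - t.1, t.2.1, t.2.2)

def tB : Fin 2 × Fin 3 × Fin 4 → Fin 2 × Fin 3 × Fin 4
  | (0, 0, k) => (0, 1, k)
  | (0, 1, k) => (0, 0, k)
  | (0, 2, k) => (1, 0, k)
  | (1, 0, k) => (0, 2, k)
  | (1, 1, k) => (1, 2, k)
  | (1, 2, k) => (1, 1, k)

def tC : Fin 2 × Fin 3 × Fin 4 → Fin 2 × Fin 3 × Fin 4
  | (i, 0, 0) => (i, 0, 1)
  | (i, 0, 1) => (i, 0, 0)
  | (i, 0, 2) => (i, 1, 0)
  | (i, 0, 3) => (i, 2, 0)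
  | (i, 1, 0) => (i, 0, 2)
  | (i, 1, 1) => (i, 1, 2)
  | (i, 1, 2) => (i, 1, 1)
  | (i, 1, 3) => (i, 2, 1)
  | (i, 2, 0) => (i, 0, 3)
  | (i, 2, 1) => (i, 1, 3)
  | (i, 2, 2) => (i, 2, 3)
  | (i, 2, 3) => (i, 2, 2)

section

variable {a b c : G} (haa : a * a = 1) (hbb : b * b = 1) (hcc : c * c = 1) (hca : c * a = a * c)
  (hbab : b * (a * b) = a * (b * a)) (hcbc : c * (b * c) = b * (c * b))

include haa hbb hcc hca hbab hcbc

theorem mulA (t : Fin 2 × Fin 3 × Fin 4) : a * wT a b c t = wT a b c (tA t) := by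
  have haa' : ∀ x, a * (a * x) = x := fun x => by rw [← mul_assoc, haa, one_mul]
  obtain ⟨i, j, k⟩ := t
  fin_cases i <;> simp [wT, wA, tA, haa']

theorem mulB (t : Fin 2 × Fin 3 × Fin 4) : b * wT a b c t = wT a b c (tB t) := by
  have haa' : ∀ x, a * (a * x) = x := fun x => by rw [← mul_assoc, haa, one_mul]
  have hbb' : ∀ x, b * (b * x) = x := fun x => by rw [← mul_assoc, hbb, one_mul]
  have hbab' : ∀ x, b * (a * (b * x)) = a * (b * (a * x)) := fun x => by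
    have := congrArg (· * x) hbab
    simpa [mul_assoc] using this
  obtain ⟨i, j, k⟩ := t
  fin_cases i <;> fin_cases j <;> simp [wT, wA, wB, tB, haa', hbb', hbab', mul_assoc]

theorem mulC (t : Fin 2 × Fin 3 × Fin 4) : c * wT a b c t = wT a b c (tC t) := by
  have haa' : ∀ x, a * (a * x) = x := fun x => by rw [← mul_assoc, haa, one_mul]
  have hbb' : ∀ x, b * (b * x) = x := fun x => by rw [← mul_assoc, hbb, one_mul]
  have hcc' : ∀ x, c * (c * x) = x := fun x => by rw [← mul_assoc, hcc, one_mul]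
  have hca' : ∀ x, c * (a * x) = a * (c * x) := fun x => by rw [← mul_assoc, hca, mul_assoc]
  have hbab' : ∀ x, b * (a * (b * x)) = a * (b * (a * x)) := fun x => by
    have := congrArg (· * x) hbab
    simpa [mul_assoc] using this
  have hcbc' : ∀ x, c * (b * (c * x)) = b * (c * (b * x)) := fun x => by
    have := congrArg (· * x) hcbc
    simpa [mul_assoc] using this
  have hcbac : c * (b * (a * c)) = b * (c * (b * a)) := by rw [← hca, hcbc']
  have hcbac' : ∀ x, c * (b * (a * (c * x))) = b * (c * (b * (a * x))) := fun x => by rw [← hca', hcbc']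
  obtain ⟨i, j, k⟩ := t
  fin_cases i <;> fin_cases j <;> fin_cases k <;> 
    simp [wT, wA, wB, wC, tC, haa, hbb, hcc, hca, hbab, hcbc, haa', hbb', hcc', hca', hbab', hcbc', hcbac, hcbac', mul_assoc]

end


/-- normal forms of permutations -/
def pT (t : Fin 2 × Fin 3 × Fin 4) : Equiv.Perm (Fin 4) := 
  wT (Equiv.swap 0 1) (Equiv.swap 1 2) (Equiv.swap 2 3) t

theorem pT_bij : Function.Bijective pT := by
  have h1 : Function.Injective pT := by decide +kernel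
  rw [Fintype.bijective_iff_injective_and_card]
  exact ⟨h1, by decide +kernel⟩

theorem conj_V4 : ∀ σ : Equiv.Perm (Fin 4), σ ≠ 1 → ∃ x y : Equiv.Perm (Fin 4), 
    x * σ * x⁻¹ * (y * σ * y⁻¹) = Equiv.swap 0 1 * Equiv.swap 2 3 := by
  decide +kernel

theorem exists_hom_S4 {a b c : G} (haa : a * a = 1) (hbb : b * b = 1) (hcc : c * c = 1) (hca : c * a = a * c)
    (hbab : b * (a * b) = a * (b * a)) (hcbc : c * (b * c) = b * (c * b)) (hac : a ≠ c) : 
    ∃ φ : Equiv.Perm (Fin 4) →* G, Function.Injective φ ∧ φ (Equiv.swap 0 1) = a ∧ 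
      φ (Equiv.swap 1 2) = b ∧ φ (Equiv.swap 2 3) = c := by
  obtain ⟨φ, hφ⟩ : ∃ φ : Equiv.Perm (Fin 4) → G, ∀ t, φ (pT t) = wT a b c t := by
    refine ⟨fun σ => wT a b c ((Equiv.ofBijective pT pT_bij).symm σ), fun t => ?_⟩
    have : (Equiv.ofBijective pT pT_bij).symm (pT t) = t := (Equiv.ofBijective pT pT_bij).symm_apply_apply t
    change wT a b c ((Equiv.ofBijective pT pT_bij).symm (pT t)) = _
    rw [this]
  have p1 : (Equiv.swap 0 1 : Equiv.Perm (Fin 4)) * Equiv.swap 0 1 = 1 := by decide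
  have p2 : (Equiv.swap 1 2 : Equiv.Perm (Fin 4)) * Equiv.swap 1 2 = 1 := by decide
  have p3 : (Equiv.swap 2 3 : Equiv.Perm (Fin 4)) * Equiv.swap 2 3 = 1 := by decide
  have p4 : (Equiv.swap 2 3 : Equiv.Perm (Fin 4)) * Equiv.swap 0 1 = Equiv.swap 0 1 * Equiv.swap 2 3 := by decide
  have p5 : (Equiv.swap 1 2 : Equiv.Perm (Fin 4)) * (Equiv.swap 0 1 * Equiv.swap 1 2) = 
    Equiv.swap 0 1 * (Equiv.swap 1 2 * Equiv.swap 0 1) := by decide
  have p6 : (Equiv.swap 2 3 : Equiv.Perm (Fin 4)) * (Equiv.swap 1 2 * Equiv.swap 2 3) = 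
    Equiv.swap 1 2 * (Equiv.swap 2 3 * Equiv.swap 1 2) := by decide
  have gA : ∀ τ, φ (Equiv.swap 0 1 * τ) = a * φ τ := by
    intro τ
    obtain ⟨t, rfl⟩ := pT_bij.2 τ
    have h1 : Equiv.swap 0 1 * pT t = pT (tA t) := mulA p1 p2 p3 p4 p5 p6 t
    rw [h1, hφ, hφ, mulA haa hbb hcc hca hbab hcbc]
  have gB : ∀ τ, φ (Equiv.swap 1 2 * τ) = b * φ τ := by
    intro τ
    obtain ⟨t, rfl⟩ := pT_bij.2 τ
    have h1 : Equiv.swap 1 2 * pT t = pT (tB t) := mulB p1 p2 p3 p4 p5 p6 t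
    rw [h1, hφ, hφ, mulB haa hbb hcc hca hbab hcbc]
  have gC : ∀ τ, φ (Equiv.swap 2 3 * τ) = c * φ τ := by
    intro τ
    obtain ⟨t, rfl⟩ := pT_bij.2 τ
    have h1 : Equiv.swap 2 3 * pT t = pT (tC t) := mulC p1 p2 p3 p4 p5 p6 t
    rw [h1, hφ, hφ, mulC haa hbb hcc hca hbab hcbc]
  have g1 : φ 1 = 1 := by
    have h1 := hφ (0, 0, 0)
    have h2 : pT (0, 0, 0) = 1 := by
      change (1 : Equiv.Perm (Fin 4)) * (1 * 1) = 1
      simp
    rw [h2] at h1
    rw [h1]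
    change (1 : G) * (1 * 1) = 1
    simp
  have hA : φ (Equiv.swap 0 1) = a := by have := gA 1; rwa [mul_one, g1, mul_one] at this
  have hB : φ (Equiv.swap 1 2) = b := by have := gB 1; rwa [mul_one, g1, mul_one] at this
  have hC : φ (Equiv.swap 2 3) = c := by have := gC 1; rwa [mul_one, g1, mul_one] at this
  have mA : ∀ τ, φ (Equiv.swap 0 1 * τ) = φ (Equiv.swap 0 1) * φ τ := fun τ => by rw [hA, gA]
  have mB : ∀ τ, φ (Equiv.swap 1 2 * τ) = φ (Equiv.swap 1 2) * φ τ := fun τ => by rw [hB, gB]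
  have mC : ∀ τ, φ (Equiv.swap 2 3 * τ) = φ (Equiv.swap 2 3) * φ τ := fun τ => by rw [hC, gC]
  have m1 : ∀ τ, φ (1 * τ) = φ 1 * φ τ := fun τ => by rw [g1, one_mul, one_mul]
  have mm : ∀ σ ρ : Equiv.Perm (Fin 4), (∀ τ, φ (σ * τ) = φ σ * φ τ) → (∀ τ, φ (ρ * τ) = φ ρ * φ τ) → 
      (∀ τ, φ ((σ * ρ) * τ) = φ (σ * ρ) * φ τ) := by
    intro σ ρ h1 h2 τ
    rw [mul_assoc, h1, h2, h1, mul_assoc]
  have hmul : ∀ σ τ, φ (σ * τ) = φ σ * φ τ := by
    intro σ
    obtain ⟨⟨i, j, k⟩, rfl⟩ := pT_bij.2 σ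
    refine mm _ _ ?_ (mm _ _ ?_ ?_)
    · fin_cases i
      · exact m1
      · exact mA
    · fin_cases j
      · exact m1
      · exact mB
      · exact mm _ _ mB mA
    · fin_cases k
      · exact m1
      · exact mC
      · exact mm _ _ mC mB
      · exact mm _ _ mC (mm _ _ mB mA)
  let Φ : Equiv.Perm (Fin 4) →* G := ⟨⟨φ, g1⟩, hmul⟩
  refine ⟨Φ, ?_, hA, hB, hC⟩
  rw [injective_iff_map_eq_one]
  intro σ hσ
  by_contra hne
  obtain ⟨x, y, hxy⟩ := conj_V4 σ hne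
  have h1 := congrArg Φ hxy
  rw [map_mul, map_mul, map_mul, map_mul, map_mul, map_inv, map_inv, hσ, mul_one, mul_inv_cancel, mul_one, 
    mul_inv_cancel, mul_one, map_mul] at h1
  have h2 : (1 : G) = a * c := by
    have h3 : Φ (Equiv.swap 0 1) * Φ (Equiv.swap 2 3) = a * c := by
      change φ _ * φ _ = _
      rw [hA, hC]
    rw [← h3]; exact h1
  apply hac
  have h3 : a = c⁻¹ := eq_inv_of_mul_eq_one_left h2.symm
  rw [h3]
  exact (eq_inv_of_mul_eq_one_left hcc).symm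

end CfsgH2
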