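import Mathlib
import Cfsg.Agent.H1.Basic
import Cfsg.Agent.H2.RegLin

set_option autoImplicit false

/-! # Zassenhaus groups, auxiliary (helper2 library) -/

namespace CfsgH2

open Subgroup

/-- a subset invariant under semiregular conjugation -/
theorem dvd_card_conj_inv {G : Type*} [Group G] [Finite G] (H : Subgroup G) (X : Set G)
    (hX : ∀ h ∈ H, ∀ x ∈ X, h * x * h⁻¹ ∈ X) (hfree : ∀ h ∈ H, ∀ x ∈ X, h * x * h⁻¹ = x → h = 1) :
    Nat.card H ∣ Nat.card X := by
  letI : MulAction H X :=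
    { smul := fun h x => ⟨h * x * (h : G)⁻¹, hX h h.2 x x.2⟩
      one_smul := fun x => Subtype.ext (by show (1 : G) * x * (1 : G)⁻¹ = x; rw [one_mul, inv_one, mul_one])
      mul_smul := fun h k x => Subtype.ext (by
        show ((h * k : H) : G) * x * ((h * k : H) : G)⁻¹ = h * (k * x * (k : G)⁻¹) * (h : G)⁻¹
        rw [Subgroup.coe_mul, mul_inv_rev]; simp only [mul_assoc]) }
  apply card_dvd_of_free
  intro h x hx
  exact Subtype.ext (hfree h h.2 x x.2 (congrArg Subtype.val hx))

/-- the number of solutions of `x ^ p = 1` -/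
theorem prime_dvd_card_pow_eq_one {F : Type*} [Group F] [Finite F] (p : ℕ) [hp : Fact p.Prime] (hpF : p ∣ Nat.card F) :
    p ∣ Nat.card {u : F // u ^ p = 1} := by
  obtain ⟨P⟩ : Nonempty (Sylow p F) := inferInstance
  letI : MulAction (P : Subgroup F) {u : F // u ^ p = 1} :=
    { smul := fun h x => ⟨h * x * (h : F)⁻¹, by rw [conj_pow, x.2, mul_one, mul_inv_cancel]⟩
      one_smul := fun x => Subtype.ext (by show (1 : F) * x * (1 : F)⁻¹ = x; rw [one_mul, inv_one, mul_one])
      mul_smul := fun h k x => Subtype.ext (by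
        show ((h * k : (P : Subgroup F)) : F) * x * ((h * k : (P : Subgroup F)) : F)⁻¹ = h * (k * x * (k : F)⁻¹) * (h : F)⁻¹
        rw [Subgroup.coe_mul, mul_inv_rev]; simp only [mul_assoc]) }
  have h1 := P.2.card_modEq_card_fixedPoints {u : F // u ^ p = 1}
  have hcomm : ∀ u : MulAction.fixedPoints (P : Subgroup F) {u : F // u ^ p = 1}, ∀ h ∈ (P : Subgroup F), h * (u.1 : F) = (u.1 : F) * h := by
    intro u h hh
    have h2 := congrArg Subtype.val (u.2 ⟨h, hh⟩)
    have h3 : h * (u.1 : F) * h⁻¹ = (u.1 : F) := h2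
    rw [mul_inv_eq_iff_eq_mul] at h3
    exact h3
  have hin : ∀ u : MulAction.fixedPoints (P : Subgroup F) {u : F // u ^ p = 1}, (u.1 : F) ∈ (P : Subgroup F) := by
    intro u
    have hZp : IsPGroup p (zpowers (u.1 : F)) := by
      rw [IsPGroup.iff_orderOf]
      intro x
      obtain ⟨i, hi⟩ := x.2
      have h4 : orderOf (u.1 : F) ∣ p := orderOf_dvd_of_pow_eq_one u.1.2
      have h5 : orderOf x ∣ p ^ 1 := by
        rw [← Subgroup.orderOf_coe, ← hi, pow_one]
        apply orderOf_dvd_of_pow_eq_one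
        show ((u.1 : F) ^ i) ^ p = 1
        rw [← zpow_natCast, zpow_comm, zpow_natCast, u.1.2, one_zpow]
      obtain ⟨k, -, hk⟩ := (Nat.dvd_prime_pow hp.out).1 h5
      exact ⟨k, hk⟩
    have hn : zpowers (u.1 : F) ≤ normalizer ((P : Subgroup F) : Set F) := by
      rw [zpowers_le, mem_normalizer_iff]
      intro h
      constructor
      · intro hh
        rw [← hcomm u h hh, mul_inv_cancel_right]; exact hh
      · intro hh
        have h4 := hcomm u _ hh
        have h5 : h = (u.1 : F) * h * (u.1 : F)⁻¹ := by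
          have h6 : (u.1 : F) * h = (u.1 : F) * ((u.1 : F) * h * (u.1 : F)⁻¹) := by
            rw [← h4]; group
          exact mul_left_cancel h6
        rw [h5]; exact hh
    have h4 : IsPGroup p ((P : Subgroup F) ⊔ zpowers (u.1 : F) : Subgroup F) := by
      exact CfsgH1.isPGroup_sup P.2 hZp hn
    have h5 := P.3 h4 le_sup_left
    exact h5.le (mem_sup_right (mem_zpowers _))
  have hP1 : p ∣ Nat.card P := P.dvd_card_of_dvd_card hpF
  haveI : Nontrivial (P : Subgroup F) := by
    rw [← Finite.one_lt_card_iff_nontrivial]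
    exact lt_of_lt_of_le hp.out.one_lt (Nat.le_of_dvd Nat.card_pos hP1)
  haveI : Nontrivial (center (P : Subgroup F)) := P.2.center_nontrivial
  have hZp : IsPGroup p (center (P : Subgroup F)) := P.2.to_subgroup _
  let K : Subgroup (center (P : Subgroup F)) :=
    { carrier := {x | x ^ p = 1}
      mul_mem' := by
        intro x y hx hy
        have hc : Commute x y := Subtype.ext ((mem_center_iff.1 y.2 x))
        show (x * y) ^ p = 1
        rw [hc.mul_pow, show x ^ p = 1 from hx, show y ^ p = 1 from hy, one_mul]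
      one_mem' := one_pow p
      inv_mem' := by
        intro x hx
        show (x⁻¹) ^ p = 1
        rw [inv_pow, show x ^ p = 1 from hx, inv_one] }
  have hK : p ∣ Nat.card K := by
    have hKp : IsPGroup p K := hZp.to_subgroup K
    obtain ⟨n, hn⟩ := IsPGroup.iff_card.1 hKp
    rw [hn]
    apply dvd_pow_self
    rintro rfl
    rw [pow_zero] at hn
    have h6 : p ∣ Nat.card (center (P : Subgroup F)) := by
      obtain ⟨m, hm⟩ := IsPGroup.iff_card.1 hZp
      rw [hm]
      apply dvd_pow_self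
      rintro rfl
      rw [pow_zero] at hm
      have := Finite.one_lt_card_iff_nontrivial.2 (inferInstance : Nontrivial (center (P : Subgroup F)))
      omega
    obtain ⟨x, hx⟩ := exists_prime_orderOf_dvd_card' p h6
    have h7 : x ∈ K := by
      show x ^ p = 1
      exact orderOf_dvd_iff_pow_eq_one.1 hx.dvd
    rw [Subgroup.card_eq_one] at hn
    rw [hn, mem_bot] at h7
    rw [h7, orderOf_one] at hx
    exact hp.out.ne_one hx.symm
  have h2 : Nat.card (MulAction.fixedPoints (P : Subgroup F) {u : F // u ^ p = 1}) = Nat.card K := by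
    refine Nat.card_eq_of_bijective (fun u => ⟨⟨⟨(u.1 : F), hin u⟩, ?_⟩, ?_⟩) ⟨?_, ?_⟩
    · rw [mem_center_iff]
      intro g
      exact Subtype.ext (hcomm u g g.2)
    · apply Subtype.ext; apply Subtype.ext
      exact u.1.2
    · intro u v huv
      have h3 := congrArg (fun z : K => (((z : center (P : Subgroup F)) : (P : Subgroup F)) : F)) huv
      exact Subtype.ext (Subtype.ext h3)
    · rintro ⟨⟨⟨x, hx⟩, hxc⟩, hxk⟩
      have hxp : x ^ p = 1 := congrArg (fun z : center (P : Subgroup F) => ((z : (P : Subgroup F)) : F)) hxk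
      refine ⟨⟨⟨x, hxp⟩, ?_⟩, rfl⟩
      rintro ⟨g, hg⟩
      apply Subtype.ext
      show g * x * g⁻¹ = x
      have h3 := congrArg Subtype.val (mem_center_iff.1 hxc ⟨g, hg⟩)
      have h4 : g * x = x * g := h3
      rw [h4, mul_inv_cancel_right]
  rw [h2] at h1
  exact (Nat.modEq_zero_iff_dvd.1 (h1.trans (Nat.modEq_zero_iff_dvd.2 hK)))

/-- at most two orbits on the non-identity elements -/
theorem elementary_of_two_orbits {G : Type*} [Group G] [Finite G] (F H : Subgroup G) (hFH : ∀ h ∈ H, ∀ x ∈ F, h * x * h⁻¹ ∈ F)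
    (hfree : ∀ h ∈ H, ∀ x ∈ F, x ≠ 1 → h * x * h⁻¹ = x → h = 1) (hF1 : 1 < Nat.card F) (hle : Nat.card F - 1 ≤ 2 * Nat.card H) :
    IsMulCommutative F ∧ ∃ p f : ℕ, p.Prime ∧ (∀ u ∈ F, u ^ p = 1) ∧ Nat.card F = p ^ f := by
  have hHpos : 0 < Nat.card H := Nat.card_pos
  -- invariant subsets
  have key : ∀ X : Set G, X ⊆ F → (1 : G) ∉ X → (∀ h ∈ H, ∀ x ∈ X, h * x * h⁻¹ ∈ X) → Nat.card H ∣ X.ncard := by
    intro X hXF hX1 hXi
    rw [← Nat.card_coe_set_eq]
    exact dvd_card_conj_inv H X hXi (fun h hh x hx => hfree h hh x (hXF hx) (fun hc => hX1 (hc ▸ hx)))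
  -- partition bound
  have key2 : ∀ X Y : Set G, X ∪ Y ∪ {1} = (F : Set G) → Disjoint X Y → (1 : G) ∉ X → (1 : G) ∉ Y → X.Nonempty → Y.Nonempty →
      (∀ h ∈ H, ∀ x ∈ X, h * x * h⁻¹ ∈ X) → (∀ h ∈ H, ∀ x ∈ Y, h * x * h⁻¹ ∈ Y) →
      X.ncard = Nat.card H ∧ Nat.card F = 2 * X.ncard + 1 := by
    intro X Y hXY hdis hX1 hY1 hXn hYn hXi hYi
    have hXF : X ⊆ F := by rw [← hXY]; exact fun x hx => Or.inl (Or.inl hx)
    have hYF : Y ⊆ F := by rw [← hXY]; exact fun x hx => Or.inl (Or.inr hx)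
    obtain ⟨i, hi⟩ := key X hXF hX1 hXi
    obtain ⟨j, hj⟩ := key Y hYF hY1 hYi
    have hc : Nat.card F = X.ncard + Y.ncard + 1 := by
      have h1 : Nat.card F = (F : Set G).ncard := rfl
      rw [h1, ← hXY, Set.ncard_union_eq (by
        rw [Set.disjoint_singleton_right]
        rintro (h | h)
        · exact hX1 h
        · exact hY1 h) (Set.toFinite _) (Set.toFinite _), Set.ncard_union_eq hdis (Set.toFinite _) (Set.toFinite _), Set.ncard_singleton]
    have hXp : 0 < X.ncard := (Set.ncard_pos (Set.toFinite _)).2 hXn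
    have hYp : 0 < Y.ncard := (Set.ncard_pos (Set.toFinite _)).2 hYn
    have hi1 : 1 ≤ i := by
      rcases Nat.eq_zero_or_pos i with h | h
      · rw [h, mul_zero] at hi; omega
      · exact h
    have hj1 : 1 ≤ j := by
      rcases Nat.eq_zero_or_pos j with h | h
      · rw [h, mul_zero] at hj; omega
      · exact h
    have h1 : Nat.card H ≤ X.ncard := by rw [hi]; exact Nat.le_mul_of_pos_right _ hi1
    have h2 : Nat.card H ≤ Y.ncard := by rw [hj]; exact Nat.le_mul_of_pos_right _ hj1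
    omega
  -- no invariant subgroups
  have key3 : ∀ K : Subgroup G, K ≤ F → K ≠ ⊥ → (∀ h ∈ H, ∀ x ∈ K, h * x * h⁻¹ ∈ K) → K = F := by
    intro K hKF hK hKi
    by_contra hne
    obtain ⟨y, hyF, hyK⟩ := SetLike.exists_of_lt (lt_of_le_of_ne hKF hne)
    obtain ⟨x, hxK, hx1⟩ := (show ∃ x ∈ K, x ≠ 1 from by
      obtain ⟨x, hx⟩ := Subgroup.ne_bot_iff_exists_ne_one.1 hK
      exact ⟨x, x.2, fun h => hx (Subtype.ext h)⟩)
    have h1 := key2 ((K : Set G) \ {1}) ((F : Set G) \ K) (by
        ext z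
        simp only [Set.mem_union, Set.mem_sdiff, Set.mem_singleton_iff, SetLike.mem_coe]
        constructor
        · rintro ((h | h) | h)
          · exact hKF h.1
          · exact h.1
          · rw [h]; exact one_mem _
        · intro h
          by_cases hzK : z ∈ K
          · by_cases hz1 : z = 1
            · exact Or.inr hz1
            · exact Or.inl (Or.inl ⟨hzK, hz1⟩)
          · exact Or.inl (Or.inr ⟨h, hzK⟩)) (by
        rw [Set.disjoint_left]
        intro z hz hz2
        exact hz2.2 hz.1) (fun h => h.2 rfl) (fun h => h.2 (one_mem _)) ⟨x, hxK, hx1⟩ ⟨y, hyF, hyK⟩ (by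
        intro h hh z hz
        refine ⟨hKi h hh z hz.1, ?_⟩
        intro hc
        have hc' : h * z * h⁻¹ = 1 := hc
        apply hz.2
        rw [mul_inv_eq_one] at hc'
        exact mul_left_cancel (by rw [hc', mul_one])) (by
        intro h hh z hz
        refine ⟨hFH h hh z hz.1, ?_⟩
        intro hc
        apply hz.2
        have h2 := hKi h⁻¹ (inv_mem hh) _ hc
        have h3 : h⁻¹ * (h * z * h⁻¹) * h⁻¹⁻¹ = z := by group
        rwa [h3] at h2)
    have h2 : ((K : Set G) \ {1}).ncard + 1 = Nat.card K := by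
      have h3 := Set.ncard_diff_singleton_add_one (s := (K : Set G)) (a := 1) (one_mem K) (Set.toFinite _)
      rw [h3]; rfl
    have h4 : Nat.card K ∣ Nat.card F := Subgroup.card_dvd_of_le hKF
    have h5 : Nat.card F + 1 = 2 * Nat.card K := by omega
    have h6 : Nat.card K ∣ 1 := by
      rw [← Nat.dvd_add_right h4, h5]
      exact Dvd.intro_left _ rfl
    rw [Nat.dvd_one, Subgroup.card_eq_one] at h6
    exact hK h6
  -- exponent p
  obtain ⟨p, hp, hpF⟩ := Nat.exists_prime_and_dvd hF1.ne'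
  haveI : Fact p.Prime := ⟨hp⟩
  have hexp : ∀ u ∈ F, u ^ p = 1 := by
    by_contra hcon
    push Not at hcon
    obtain ⟨y, hyF, hy⟩ := hcon
    obtain ⟨⟨x, hxF⟩, hx⟩ := exists_prime_orderOf_dvd_card' (G := F) p hpF
    have hxo : orderOf x = p := by rw [← hx, Subgroup.orderOf_mk]
    have hx1 : x ≠ 1 := by rintro rfl; rw [orderOf_one] at hxo; exact hp.ne_one hxo.symm
    have h1 := key2 {u | u ∈ F ∧ u ≠ 1 ∧ u ^ p = 1} {u | u ∈ F ∧ u ^ p ≠ 1} (by
        ext z
        simp only [Set.mem_union, Set.mem_ofPred_eq, Set.mem_singleton_iff, SetLike.mem_coe]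
        constructor
        · rintro ((h | h) | h)
          · exact h.1
          · exact h.1
          · rw [h]; exact one_mem _
        · intro h
          by_cases hzK : z ^ p = 1
          · by_cases hz1 : z = 1
            · exact Or.inr hz1
            · exact Or.inl (Or.inl ⟨h, hz1, hzK⟩)
          · exact Or.inl (Or.inr ⟨h, hzK⟩)) (by
        rw [Set.disjoint_left]
        intro z hz hz2
        exact hz2.2 hz.2.2) (fun h => h.2.1 rfl) (fun h => h.2 (one_pow _)) ⟨x, hxF, hx1, by rw [← hxo]; exact pow_orderOf_eq_one x⟩ ⟨y, hyF, hy⟩ (by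
        intro h hh z hz
        refine ⟨hFH h hh z hz.1, ?_, ?_⟩
        · intro hc'
          apply hz.2.1
          rw [mul_inv_eq_one] at hc'
          exact mul_left_cancel (by rw [hc', mul_one])
        · rw [conj_pow, hz.2.2, mul_one, mul_inv_cancel]) (by
        intro h hh z hz
        refine ⟨hFH h hh z hz.1, ?_⟩
        intro hc'
        apply hz.2
        rw [conj_pow, mul_inv_eq_one] at hc'
        exact mul_left_cancel (by rw [hc', mul_one]))
    have h2 := prime_dvd_card_pow_eq_one (F := F) p hpF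
    have h3 : Nat.card {u : F // u ^ p = 1} = ({u | u ∈ F ∧ u ≠ 1 ∧ u ^ p = 1} : Set G).ncard + 1 := by
      rw [← Set.ncard_insert_of_notMem (a := (1 : G)) (fun h => h.2.1 rfl) (Set.toFinite _), ← Nat.card_coe_set_eq]
      refine Nat.card_eq_of_bijective (fun u => ⟨((u : F) : G), ?_⟩) ⟨?_, ?_⟩
      · by_cases hu : ((u : F) : G) = 1
        · exact Or.inl hu
        · exact Or.inr ⟨(u : F).2, hu, congrArg Subtype.val u.2⟩
      · intro u v huv
        have h4 := congrArg Subtype.val huv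
        exact Subtype.ext (Subtype.ext h4)
      · rintro ⟨z, hz | hz⟩
        · exact ⟨⟨1, one_pow _⟩, Subtype.ext hz.symm⟩
        · exact ⟨⟨⟨z, hz.1⟩, Subtype.ext hz.2.2⟩, rfl⟩
    rw [h3] at h2
    have h4 : p ∣ Nat.card F + 1 := by
      have h5 : Nat.card F + 1 = 2 * (({u | u ∈ F ∧ u ≠ 1 ∧ u ^ p = 1} : Set G).ncard + 1) := by omega
      rw [h5]; exact Dvd.dvd.mul_left h2 2
    have h5 : p ∣ 1 := (Nat.dvd_add_right hpF).1 h4
    exact hp.one_lt.ne' (Nat.dvd_one.1 h5)
  have hFp : IsPGroup p F := by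
    intro u
    exact ⟨1, Subtype.ext (by rw [pow_one]; exact hexp u u.2)⟩
  obtain ⟨f, hf⟩ := IsPGroup.iff_card.1 hFp
  refine ⟨?_, p, f, hp, hexp, hf⟩
  -- commutative
  haveI : Nontrivial F := Finite.one_lt_card_iff_nontrivial.1 hF1
  haveI := hFp.center_nontrivial
  have h1 : (center F).map F.subtype = F := by
    apply key3
    · rw [map_le_iff_le_comap]; intro x _; exact x.2
    · intro hc
      have h2 := (Subgroup.map_eq_bot_iff_of_injective _ F.subtype_injective).1 hc
      exact (Subgroup.nontrivial_iff_ne_bot _).1 this h2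
    · rintro h hh _ ⟨x, hx, rfl⟩
      refine ⟨⟨h * x * h⁻¹, hFH h hh x x.2⟩, ?_, rfl⟩
      rw [SetLike.mem_coe, mem_center_iff] at hx ⊢
      intro g
      apply Subtype.ext
      show (g : G) * (h * x * h⁻¹) = h * x * h⁻¹ * g
      have h2 := congrArg Subtype.val (hx ⟨h⁻¹ * g * h⁻¹⁻¹, hFH h⁻¹ (inv_mem hh) g g.2⟩)
      have h3 : h⁻¹ * g * h⁻¹⁻¹ * (x : G) = (x : G) * (h⁻¹ * g * h⁻¹⁻¹) := h2
      calc (g : G) * (h * x * h⁻¹) = h * (h⁻¹ * g * h⁻¹⁻¹ * (x : G)) * h⁻¹ := by group
        _ = h * ((x : G) * (h⁻¹ * g * h⁻¹⁻¹)) * h⁻¹ := by rw [h3]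
        _ = h * x * h⁻¹ * g := by group
  refine ⟨⟨?_⟩⟩
  intro x y
  have hx : (x : G) ∈ (center F).map F.subtype := by rw [h1]; exact x.2
  obtain ⟨x', hx', hxx⟩ := hx
  have h2 : x' = x := Subtype.ext hxx
  rw [SetLike.mem_coe, h2, mem_center_iff] at hx'
  exact (hx' y).symm

end CfsgH2
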